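import Cfsg.Agent.Transfer.Burnside
import Cfsg.Agent.FGS3.PGroupAut
import Mathlib.GroupTheory.Schreier
import Mathlib.Tactic

/-! Normal `p`-complements from small Sylow subgroups. -/

set_option autoImplicit false

namespace Cfsg.Agent.FGS2

open Subgroup Cfsg

universe u

variable {G : Type u} [Group G] [Finite G] {p : ℕ} [hp : Fact p.Prime]

theorem eq_one_of_fix_omega (P : Subgroup G) (hab : IsMulCommutative P) (hP : IsPGroup p P) {g : G}
    (hgn : g ∈ normalizer (P : Set G)) (hgp : (orderOf g).Coprime p)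
    (hfix : ∀ x ∈ P, x ^ p = 1 → g * x = x * g) : g ∈ centralizer (P : Set G) := by
  have hcomm : ∀ a ∈ P, ∀ b ∈ P, Commute a b := fun a ha b hb =>
    congrArg Subtype.val (hab.is_comm.comm ⟨a, ha⟩ ⟨b, hb⟩)
  suffices ∀ j : ℕ, ∀ x ∈ P, x ^ p ^ j = 1 → g * x = x * g by
    refine mem_centralizer_iff.2 fun x hx => ?_
    obtain ⟨j, hj⟩ := hP ⟨x, hx⟩
    exact (this j x hx (congrArg Subtype.val hj : _)).symm
  intro j
  induction j with
  | zero => intro x _ hx; rw [pow_zero, pow_one] at hx; rw [hx, mul_one, one_mul]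
  | succ j ih =>
    intro x hx hxj
    have h1 := ih (x ^ p) (pow_mem hx p) (by rw [← pow_mul, ← pow_succ', hxj])
    set y := g * x * g⁻¹ * x⁻¹ with hy
    have hgx : g * x * g⁻¹ ∈ P := (mem_normalizer_iff.1 hgn x).1 hx
    have hyP : y ∈ P := mul_mem hgx (inv_mem hx)
    have hyp : y ^ p = 1 := by
      rw [hy, (hcomm _ hgx _ (inv_mem hx)).mul_pow, conj_pow, inv_pow, h1, mul_inv_cancel_right, mul_inv_cancel]
    have hyg : Commute g y := hfix y hyP hyp
    have hk : ∀ k : ℕ, g ^ k * x = y ^ k * x * g ^ k := by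
      intro k
      induction k with
      | zero => simp
      | succ k ihk =>
        calc g ^ (k + 1) * x = g * (g ^ k * x) := by rw [pow_succ', mul_assoc]
          _ = g * (y ^ k * x * g ^ k) := by rw [ihk]
          _ = (g * y ^ k) * x * g ^ k := by group
          _ = (y ^ k * g) * x * g ^ k := by rw [(hyg.pow_right k).eq]
          _ = y ^ k * (g * x * g⁻¹ * x⁻¹) * x * (g * g ^ k) := by group
          _ = y ^ (k + 1) * x * g ^ (k + 1) := by rw [← hy, ← pow_succ, ← pow_succ']
    have h2 := hk (orderOf g)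
    rw [pow_orderOf_eq_one, one_mul, mul_one, eq_comm, mul_eq_right] at h2
    have h3 : y = 1 := by
      rw [← pow_one y, ← hgp.symm.gcd_eq_one]
      exact pow_gcd_eq_one.2 ⟨hyp, h2⟩
    rw [hy, mul_inv_eq_one, mul_inv_eq_iff_eq_mul] at h3
    exact h3

/-- The elementary subgroup of an abelian `p`-subgroup has order dividing `p ^ rank`. -/
theorem card_omega_dvd (P : Subgroup G) (hab : IsMulCommutative P) :
    ∃ E : Subgroup G, (∀ x, x ∈ E ↔ x ∈ P ∧ x ^ p = 1) ∧ Nat.card E ∣ p ^ Group.rank P := by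
  let _ : CommGroup P := { mul_comm := fun a b => hab.is_comm.comm a b }
  let f : P →* P := powMonoidHom p
  refine ⟨f.ker.map P.subtype, fun x => ⟨?_, fun h => ⟨⟨x, h.1⟩, Subtype.ext h.2, rfl⟩⟩, ?_⟩
  · rintro ⟨y, hy, rfl⟩
    exact ⟨y.2, congrArg Subtype.val (MonoidHom.mem_ker.1 hy)⟩
  rw [card_map_of_injective P.subtype_injective]
  have h1 : Nat.card f.ker = f.range.index := by
    have a := f.ker.card_mul_index
    rw [index_ker] at a
    have b := f.range.index_mul_card
    exact Nat.eq_of_mul_eq_mul_right Nat.card_pos (a.trans b.symm)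
  rw [h1, index_eq_card]
  refine (card_dvd_exponent_pow_rank' (G := P ⧸ f.range) (n := p) fun q => ?_).trans ?_
  · obtain ⟨y, rfl⟩ := QuotientGroup.mk_surjective q
    rw [← QuotientGroup.mk_pow, QuotientGroup.eq_one_iff]
    exact ⟨y, rfl⟩
  · exact pow_dvd_pow p (Group.rank_le_of_surjective (QuotientGroup.mk' f.range) (QuotientGroup.mk'_surjective _))

theorem hasNormalPComplement_of_omega (P : Sylow p G) (hab : IsMulCommutative (P : Subgroup G)) {d : ℕ}
    (hE : ∀ E : Subgroup G, E ≤ P → (∀ x ∈ E, x ^ p = 1) → Nat.card E ∣ p ^ d)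
    (hd : ∀ q : ℕ, q.Prime → q ∣ Nat.card G → q ≠ p → ∀ i, 1 ≤ i → i ≤ d → ¬ q ∣ p ^ i - 1) :
    HasNormalPComplement p G := by
  apply Transfer.hasNormalPComplement_of_normalizer_le_centralizer P
  rw [← Subgroup.subgroupOf_eq_top]
  apply Core.eq_top_of_forall_exists_sylow_le
  intro q hq
  haveI := Fact.mk hq
  rcases eq_or_ne q p with rfl | hqp
  · refine ⟨P.subtype Subgroup.le_normalizer, fun x hx => ?_⟩
    rw [Subgroup.mem_subgroupOf, Subgroup.mem_centralizer_iff]
    intro y hy
    exact congrArg Subtype.val (mul_comm' (⟨y, hy⟩ : P) ⟨x, Subgroup.mem_subgroupOf.mp hx⟩)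
  obtain ⟨Q⟩ : Nonempty (Sylow q (Subgroup.normalizer (P : Set G))) := inferInstance
  refine ⟨Q, fun x hx => ?_⟩
  obtain ⟨k, hk⟩ := IsPGroup.iff_orderOf.mp Q.2 ⟨x, hx⟩
  have hko : orderOf (x : G) = q ^ k := by
    rw [Subgroup.orderOf_coe, ← hk]; exact Subgroup.orderOf_coe (⟨x, hx⟩ : (Q : Subgroup _))
  rw [Subgroup.mem_subgroupOf]
  rcases Nat.eq_zero_or_pos k with rfl | hk0
  · rw [(orderOf_eq_one_iff.mp (hko.trans (pow_zero q)) : (x : G) = 1)]
    exact one_mem _
  obtain ⟨E, hEm, -⟩ := card_omega_dvd (p := p) (P : Subgroup G) hab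
  have hEle : E ≤ P := fun y hy => ((hEm y).1 hy).1
  obtain ⟨m, hmd, hm⟩ := (Nat.dvd_prime_pow hp.out).1 (hE E hEle fun y hy => ((hEm y).1 hy).2)
  have hxE : (x : G) ∈ normalizer (E : Set G) := by
    rw [mem_normalizer_iff]
    intro y
    rw [hEm, hEm, conj_pow, ← mem_normalizer_iff.1 x.2 y, conj_eq_one_iff]
  have hxc := Transfer.mem_centralizer_of_orderOf_eq_prime_pow E (P.2.to_le hEle) hm hq hqp
    (fun i h1 h2 => hd q hq ((dvd_pow_self q hk0.ne').trans (hko ▸ orderOf_dvd_natCard (x : G))) hqp i h1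
      (h2.trans hmd)) hxE hko
  refine eq_one_of_fix_omega _ hab P.2 x.2 ?_ fun y hy hyp => (mem_centralizer_iff.1 hxc y ((hEm y).2 ⟨hy, hyp⟩)).symm
  rw [hko]
  exact ((Nat.coprime_primes hq hp.out).2 hqp).pow_left k

theorem hasNormalPComplement_of_rank (P : Sylow p G) (hab : IsMulCommutative (P : Subgroup G))
    (hcop : Nat.Coprime (Nat.card G) (∏ i ∈ Finset.Icc 1 (Group.rank (P : Subgroup G)), (p ^ i - 1))) :
    HasNormalPComplement p G := by
  obtain ⟨E, hEm, hEc⟩ := card_omega_dvd (p := p) (P : Subgroup G) hab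
  refine hasNormalPComplement_of_omega P hab (d := Group.rank (P : Subgroup G))
    (fun F hF hFp => (card_dvd_of_le fun y hy => (hEm y).2 ⟨hF hy, hFp y hy⟩).trans hEc) ?_
  intro q hq hqG _ i h1 h2 hdvd
  exact hq.ne_one (Nat.eq_one_of_dvd_coprimes hcop hqG
    (hdvd.trans (Finset.dvd_prod_of_mem _ (Finset.mem_Icc.2 ⟨h1, h2⟩))))

/-- Solvability from Sylow subgroups which are abelian of rank at most two. -/
theorem isSolvable_of_sylow_rank_two (n : ℕ) : ∀ (G : Type u) [Group G] [Finite G], Nat.card G ≤ n →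
    (∀ p : ℕ, p.Prime → p ∣ Nat.card G → (∃ q : ℕ, q.Prime ∧ q ∣ Nat.card G ∧ p < q) → ∀ S : Subgroup G,
      IsPGroup p S → IsMulCommutative S ∧ ((∀ x ∈ S, x ^ p = 1) → Nat.card S ∣ p ^ 2)) →
    ¬ 12 ∣ Nat.card G → Group.IsSolvable G := by
  induction n with
  | zero => intro G _ _ h; exact absurd h (by simp [Nat.card_pos.ne'])
  | succ n ih =>
    intro G _ _ hn h h12
    rcases subsingleton_or_nontrivial G with hG | hG
    · infer_instance
    have hne : Nat.card G ≠ 1 := Finite.one_lt_card.ne'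
    set p := Nat.minFac (Nat.card G) with hpdef
    have hp : p.Prime := Nat.minFac_prime hne
    have := Fact.mk hp
    by_cases hone : ∀ q : ℕ, q.Prime → q ∣ Nat.card G → q = p
    · have := (IsPGroup.of_card (p := p) (G := G)
        (Nat.eq_prime_pow_of_unique_prime_dvd Nat.card_pos.ne' fun {d} hd hdd => hone d hd hdd)).isNilpotent
      infer_instance
    push Not at hone
    obtain ⟨r, hr, hrd, hrp⟩ := hone
    have hlt : ∀ q : ℕ, q.Prime → q ∣ Nat.card G → q ≠ p → p < q := fun q hq hqd hqp =>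
      lt_of_le_of_ne (Nat.minFac_le_of_dvd hq.two_le hqd) (Ne.symm hqp)
    have hS := h p hp (Nat.minFac_dvd _) ⟨r, hr, hrd, hlt r hr hrd hrp⟩
    let P : Sylow p G := default
    have hab := (hS P P.2).1
    have hPc : HasNormalPComplement p G := by
      by_cases h23 : p = 2 ∧ 3 ∣ Nat.card G
      · refine hasNormalPComplement_of_omega P hab (d := 1) (fun E hE hEp => ?_)
          fun q hq _ hqp i h1 h2 hd => ?_
        · refine (card_dvd_of_le hE).trans ?_
          obtain ⟨k, hk⟩ := IsPGroup.iff_card.1 P.2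
          rw [hk]
          refine pow_dvd_pow p ?_
          by_contra hk1
          push Not at hk1
          apply h12
          have h4 : 2 ^ 2 ∣ Nat.card G := by
            refine dvd_trans ?_ (P : Subgroup G).card_subgroup_dvd_card
            rw [hk, h23.1]
            exact pow_dvd_pow 2 hk1
          exact (Nat.Coprime.mul_dvd_of_dvd_of_dvd (by norm_num : Nat.Coprime (2 ^ 2) 3) h4 h23.2)
        · obtain rfl : i = 1 := by omega
          rw [h23.1] at hd
          exact hq.ne_one (Nat.dvd_one.1 hd)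
      · refine hasNormalPComplement_of_omega P hab (d := 2)
          (fun E hE hEp => (hS E (P.2.to_le hE)).2 hEp) fun q hq hqG hqp i h1 h2 hd => ?_
        have hlt' := hlt q hq hqG hqp
        have h2p := hp.two_le
        interval_cases i
        · rw [pow_one] at hd
          have := Nat.le_of_dvd (by omega) hd
          omega
        · rw [show p ^ 2 - 1 = (p + 1) * (p - 1) by rw [← Nat.sq_sub_sq, one_pow]] at hd
          rcases hq.dvd_mul.1 hd with hd | hd
          · have := Nat.le_of_dvd (by omega) hd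
            have hq1 : q = p + 1 := by omega
            rcases hp.eq_two_or_odd with e | e
            · exact h23 ⟨e, by rw [show (3 : ℕ) = q by omega]; exact hqG⟩
            · rcases hq.eq_two_or_odd with e' | e' <;> omega
          · have := Nat.le_of_dvd (by omega) hd
            omega
    obtain ⟨P', N, hN, hc⟩ := hPc
    have h1 : Nat.card N < Nat.card G := by
      have := hc.card_mul
      rw [← this]
      refine lt_mul_right Nat.card_pos ?_
      obtain ⟨k, hk⟩ := IsPGroup.iff_card.1 P'.2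
      rw [hk]
      refine Nat.one_lt_pow (fun hk0 => ?_) hp.one_lt
      rw [hk0, pow_zero] at hk
      have h3 := (P'.card_eq_multiplicity).symm.trans hk
      rw [Nat.pow_eq_one] at h3
      rcases h3 with h3 | h3
      · exact hp.ne_one h3
      · exact (hp.factorization_pos_of_dvd Nat.card_pos.ne' (Nat.minFac_dvd _)).ne' h3
    have hNs : Group.IsSolvable N := by
      refine ih N (by omega) (fun q hq hqN ⟨q', hq', hq'N, hlt'⟩ S hS' => ?_) fun h12' => h12 (h12'.trans N.card_subgroup_dvd_card)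
      obtain ⟨hc1, hc2⟩ := h q hq (hqN.trans N.card_subgroup_dvd_card)
        ⟨q', hq', hq'N.trans N.card_subgroup_dvd_card, hlt'⟩ (S.map N.subtype) (hS'.map _)
      refine ⟨⟨⟨fun a b => Subtype.ext (Subtype.ext ?_)⟩⟩, fun he => ?_⟩
      · show ((a : N) : G) * (b : N) = (b : N) * (a : N)
        exact congrArg Subtype.val (hc1.is_comm.comm ⟨_, mem_map_of_mem N.subtype a.2⟩ ⟨_, mem_map_of_mem N.subtype b.2⟩) 
      · have := hc2 (by rintro _ ⟨y, hy, rfl⟩; exact congrArg Subtype.val (he y hy))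
        rwa [card_map_of_injective N.subtype_injective] at this
    have hQs : Group.IsSolvable (G ⧸ N) := by
      have : IsPGroup p (G ⧸ N) := P'.2.of_equiv hc.symm.QuotientMulEquiv.symm
      have := this.isNilpotent
      infer_instance
    exact (Group.isSolvable_iff_subgroup_quotient N).2 ⟨hNs, hQs⟩

theorem autom_trivial_of_small_frattini {Q : Type u} [Group Q] [Finite Q] [Fact (Nat.Prime 2)] (hQ : IsPGroup 2 Q)
    (x : Q) (hx : (zpowers x).index ≤ 2) (α : MulAut Q) (hα : (orderOf α).Coprime 6) : α = 1 := by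
  have h4 : (frattini Q).index ≤ 4 := by
    have hcomap : (zpowers x ⊔ frattini Q).index ≤ 2 :=
      (Nat.le_of_dvd (Nat.pos_of_ne_zero index_ne_zero_of_finite) (index_dvd_of_le le_sup_left)).trans hx
    have h1 : (frattini Q).relIndex (zpowers x ⊔ frattini Q) ≤ 2 := by
      rw [relIndex_sup_right]
      have hle : zpowers (x ^ 2) ≤ frattini Q := zpowers_le.2 (FGS3.pow_mem_frattini hQ x)
      refine le_trans (Nat.le_of_dvd (Nat.pos_of_ne_zero ?_) (relIndex_dvd_of_le_left (zpowers x) hle)) ?_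
      · exact index_ne_zero_of_finite
      · have h := relIndex_mul_index (show zpowers (x ^ 2) ≤ zpowers x from zpowers_le.2 (pow_mem (mem_zpowers x) 2))
        have hcx := (zpowers x).card_mul_index
        have hcy := (zpowers (x ^ 2)).card_mul_index
        rw [Nat.card_zpowers] at hcx hcy
        have hi : 0 < (zpowers x).index := Nat.pos_of_ne_zero index_ne_zero_of_finite
        have ho : orderOf x ≤ 2 * orderOf (x ^ 2) := by
          refine Nat.le_of_dvd (by have := orderOf_pos (x ^ 2); omega) ?_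
          refine orderOf_dvd_of_pow_eq_one ?_
          rw [pow_mul, pow_orderOf_eq_one]
        rw [← h, ← hcx] at hcy
        have ho0 : 0 < orderOf (x ^ 2) := orderOf_pos _
        nlinarith
    rw [← relIndex_mul_index (show frattini Q ≤ zpowers x ⊔ frattini Q from le_sup_right)]
    exact le_trans (Nat.mul_le_mul h1 hcomap) le_rfl
  have hst : ∀ (β : MulAut Q) {y : Q}, y ∈ frattini Q → β y ∈ frattini Q := fun β y hy => by
    have h := (Subgroup.characteristic_iff_map_eq.1 (inferInstance : (frattini Q).Characteristic) β)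
    rw [← h]; exact ⟨y, hy, rfl⟩
  let ψ : MulAut Q →* Equiv.Perm (Q ⧸ frattini Q) :=
    MonoidHom.mk' (fun β =>
      { toFun := QuotientGroup.map (frattini Q) (frattini Q) β.toMonoidHom (fun y hy => hst β hy)
        invFun := QuotientGroup.map (frattini Q) (frattini Q) β.symm.toMonoidHom (fun y hy => hst β.symm hy)
        left_inv := fun q => by obtain ⟨y, rfl⟩ := QuotientGroup.mk_surjective q; simp
        right_inv := fun q => by obtain ⟨y, rfl⟩ := QuotientGroup.mk_surjective q; simp })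
      (fun β γ => by
        ext q; obtain ⟨y, rfl⟩ := QuotientGroup.mk_surjective q; simp)
  have hψ : ψ α = 1 := by
    rw [← orderOf_eq_one_iff]
    refine Nat.eq_one_of_dvd_coprimes (hα.pow_right 4) (orderOf_map_dvd ψ α) ?_
    refine (orderOf_dvd_natCard (ψ α)).trans ?_
    rw [Nat.card_perm, ← index_eq_card]
    refine (Nat.factorial_dvd_factorial h4).trans ?_
    norm_num [Nat.factorial]
  obtain ⟨r, hr⟩ := hQ.index (frattini Q)
  obtain ⟨n, hn⟩ := IsPGroup.iff_card.1 hQ
  have hA : ∀ β ∈ zpowers α, ∀ y : Q, β y * y⁻¹ ∈ frattini Q := by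
    intro β hβ y
    have h1 : ψ β = 1 := by
      obtain ⟨k, rfl⟩ := mem_zpowers_iff.1 hβ
      rw [map_zpow, hψ, one_zpow]
    have h2 : ψ β (y : Q ⧸ frattini Q) = (y : Q ⧸ frattini Q) := by rw [h1]; rfl
    rw [← QuotientGroup.eq_one_iff, QuotientGroup.mk_mul, QuotientGroup.mk_inv, mul_inv_eq_one]
    exact h2
  have h := FGS3.card_dvd_card_frattini_pow hQ hr (zpowers α) hA
  rw [Nat.card_zpowers, FGS3.card_frattini hn hr, ← pow_mul] at h
  rw [← orderOf_eq_one_iff]
  exact Nat.eq_one_of_dvd_coprimes ((hα.coprime_dvd_right (by norm_num : 2 ∣ 6)).pow_right _) dvd_rfl h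

theorem exists_normal_of_cyclic_index_two (a n : ℕ) (hG : Nat.card G = 2 ^ a * n) (hn : Odd n) (h3 : ¬ 3 ∣ n)
    (hx : ∃ x : G, orderOf x = 2 ^ (a - 1)) : ∃ N : Subgroup G, N.Normal ∧ Nat.card N = n := by
  have : Fact (Nat.Prime 2) := ⟨Nat.prime_two⟩
  obtain ⟨x, hx⟩ := hx
  obtain ⟨S, hS⟩ := (IsPGroup.of_card (G := zpowers x) (p := 2) (n := a - 1)
    (by rw [Nat.card_zpowers, hx])).exists_le_sylow
  have hcardS : Nat.card S = 2 ^ a := by
    obtain ⟨k, hk⟩ := IsPGroup.iff_card.1 S.2
    have hnd : ¬ 2 ∣ (S : Subgroup G).index := S.not_dvd_index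
    have h := (S : Subgroup G).card_mul_index
    rw [hG, hk] at h
    rw [hk]
    have hn2 : ¬ 2 ∣ n := hn.not_two_dvd_nat
    refine Nat.dvd_antisymm ?_ ?_
    · exact ((Nat.Prime.coprime_iff_not_dvd Nat.prime_two).2 hn2).pow_left k |>.dvd_of_dvd_mul_right
        (h ▸ dvd_mul_right _ _)
    · exact ((Nat.Prime.coprime_iff_not_dvd Nat.prime_two).2 hnd).pow_left a |>.dvd_of_dvd_mul_right
        (h.symm ▸ dvd_mul_right _ _)
  have hSc : HasNormalPComplement 2 G := by
    refine Transfer.hasNormalPComplement_of_frobenius S fun Q hQ _ g hg hgc => ?_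
    set ψ := Q.normalizerMonoidHom with hψ
    obtain ⟨⟨y, hyQ⟩, hy⟩ : ∃ y : Q, (zpowers y).index ≤ 2 := by
      let C : Subgroup Q := (zpowers x).subgroupOf Q
      have hC : C.index ≤ 2 := by
        show (zpowers x).relIndex Q ≤ 2
        have h1 : (zpowers x).relIndex (S : Subgroup G) ≤ 2 := by
          have := relIndex_mul_relIndex ⊥ (zpowers x) (S : Subgroup G) bot_le hS
          rw [relIndex_bot_left, relIndex_bot_left, Nat.card_zpowers, hx, hcardS] at this
          by_contra hh
          push Not at hh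
          have h2 : 2 ^ a ≤ 2 * 2 ^ (a - 1) := by
            rw [← pow_succ']; exact Nat.pow_le_pow_right (by norm_num) (by omega)
          have h3 : 0 < 2 ^ (a - 1) := Nat.two_pow_pos _
          nlinarith
        refine le_trans ?_ h1
        exact relIndex_le_of_le_right hQ (by
          rw [relIndex]; exact index_ne_zero_of_finite)
      have hcyc : IsCyclic C :=
        isCyclic_of_injective ((Q.subtype.comp C.subtype).codRestrict (zpowers x) fun z => z.2) (by
          intro z w hzw
          exact Subtype.ext (Subtype.ext (congrArg (fun t : zpowers x => (t : G)) hzw)))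
      obtain ⟨z, hz⟩ := hcyc.exists_generator
      refine ⟨z, le_trans (le_of_eq (congrArg Subgroup.index ?_)) hC⟩
      refine le_antisymm (zpowers_le.2 z.2) fun w hw => ?_
      obtain ⟨i, hi⟩ := mem_zpowers_iff.1 (hz ⟨w, hw⟩)
      exact mem_zpowers_iff.2 ⟨i, congrArg Subtype.val hi⟩
    have h6 : (orderOf (ψ ⟨g, hg⟩)).Coprime 6 := by
      refine Nat.Coprime.coprime_dvd_left ((orderOf_map_dvd ψ _).trans (dvd_of_eq (orderOf_mk g hg))) ?_
      refine (Nat.Coprime.mul_right hgc ?_ : (orderOf g).Coprime (2 * 3))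
      refine ((Nat.Prime.coprime_iff_not_dvd Nat.prime_three).2 fun hd => ?_).symm
      have := hd.trans (orderOf_dvd_natCard g)
      rw [hG] at this
      exact h3 ((Nat.Coprime.pow_right a (by norm_num : Nat.Coprime 3 2)).dvd_of_dvd_mul_left this)
    have h1 := autom_trivial_of_small_frattini (S.2.to_le hQ) ⟨y, hyQ⟩ hy _ h6
    refine mem_centralizer_iff.2 fun q hq => ?_
    have h2 : g * q * g⁻¹ = q := congrArg Subtype.val (DFunLike.congr_fun h1 (⟨q, hq⟩ : Q))
    exact (mul_inv_eq_iff_eq_mul.1 h2).symm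
  obtain ⟨P', N, hN, hc⟩ := hSc
  refine ⟨N, hN, ?_⟩
  have h := hc.card_mul
  rw [P'.card_eq_multiplicity, ← S.card_eq_multiplicity, hcardS, hG, mul_comm] at h
  exact Nat.eq_of_mul_eq_mul_left (Nat.two_pow_pos a) h

end Cfsg.Agent.FGS2
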