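import Cfsg.Agent.FGS2.SchurTools

/-! Central extensions by bimultiplicative cocycles. -/

namespace Cfsg.Agent.FGS2

open Subgroup
open scoped commutatorElement

universe u v

variable {G : Type u} [Group G] {K : Type v} [CommGroup K]

/-- The central extension of `G` by `K` with a bimultiplicative cocycle. -/
@[ext]
structure CExt (β : G →* G →* K) : Type max u v where
  base : G
  fib : K

namespace CExt

variable {β : G →* G →* K}

theorem β_inv_left (g h : G) : β g⁻¹ h = (β g h)⁻¹ := by
  rw [map_inv, MonoidHom.inv_apply]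

instance cextGroup : Group (CExt β) where
  mul x y := ⟨x.base * y.base, x.fib * y.fib * β x.base y.base⟩
  one := ⟨1, 1⟩
  inv x := ⟨x.base⁻¹, x.fib⁻¹ * β x.base x.base⟩
  mul_assoc x y z := by
    refine CExt.ext (mul_assoc _ _ _) ?_
    show x.fib * y.fib * β x.base y.base * z.fib * β (x.base * y.base) z.base =
      x.fib * (y.fib * z.fib * β y.base z.base) * β x.base (y.base * z.base)
    simp only [map_mul, MonoidHom.mul_apply]
    simp only [mul_assoc, mul_left_comm, mul_comm]
  one_mul x := by
    refine CExt.ext (one_mul _) ?_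
    show 1 * x.fib * β 1 x.base = x.fib
    simp
  mul_one x := by
    refine CExt.ext (mul_one _) ?_
    show x.fib * 1 * β x.base 1 = x.fib
    simp
  inv_mul_cancel x := by
    refine CExt.ext (inv_mul_cancel _) ?_
    show x.fib⁻¹ * β x.base x.base * x.fib * β x.base⁻¹ x.base = 1
    rw [β_inv_left, mul_right_comm (x.fib⁻¹) (β x.base x.base) x.fib, inv_mul_cancel, one_mul,
      mul_inv_cancel]

theorem base_mul (x y : CExt β) : (x * y).base = x.base * y.base := rfl
theorem fib_mul (x y : CExt β) : (x * y).fib = x.fib * y.fib * β x.base y.base := rfl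

/-- The projection. -/
def proj : CExt β →* G where
  toFun := CExt.base
  map_one' := rfl
  map_mul' _ _ := rfl

/-- The inclusion of the kernel. -/
def inl : K →* CExt β where
  toFun k := ⟨1, k⟩
  map_one' := rfl
  map_mul' a b := CExt.ext (one_mul 1).symm (by show a * b = a * b * β 1 1; simp)

theorem proj_surjective : Function.Surjective (proj (β := β)) := fun g => ⟨⟨g, 1⟩, rfl⟩

theorem proj_ker : (proj (β := β)).ker = (inl (β := β)).range := by
  ext x
  refine ⟨fun hx => ⟨x.fib, CExt.ext (MonoidHom.mem_ker.1 hx).symm rfl⟩, ?_⟩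
  rintro ⟨k, rfl⟩; rfl

theorem inl_injective : Function.Injective (inl (β := β)) := fun _ _ h => congrArg CExt.fib h

/-- The kernel of the projection is `K`. -/
noncomputable def kerEquiv : (proj (β := β)).ker ≃* K :=
  (MulEquiv.subgroupCongr proj_ker).trans (MonoidHom.ofInjective inl_injective).symm

instance cext_finite [Finite G] [Finite K] : Finite (CExt β) :=
  Finite.of_injective (fun x => (x.base, x.fib)) fun x y h => by
    obtain ⟨h1, h2⟩ := Prod.mk.inj h; exact CExt.ext h1 h2

theorem proj_ker_central : (proj (β := β)).ker ≤ center (CExt β) := by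
  rw [proj_ker]
  rintro _ ⟨k, rfl⟩
  rw [mem_center_iff]
  intro x
  refine CExt.ext ?_ ?_
  · show x.base * 1 = 1 * x.base
    simp
  · show x.fib * k * β x.base 1 = k * x.fib * β 1 x.base
    simp [mul_comm]

theorem commutator_lifts {g h : G} (hgh : g * h = h * g) :
    ⁅(⟨g, 1⟩ : CExt β), (⟨h, 1⟩ : CExt β)⁆ = inl (β g h * (β h g)⁻¹) := by
  rw [commutatorElement_def, mul_inv_eq_iff_eq_mul, mul_inv_eq_iff_eq_mul]
  refine CExt.ext ?_ ?_
  · show g * h = 1 * h * g
    rw [one_mul, hgh]
  · show 1 * 1 * β g h = β g h * (β h g)⁻¹ * 1 * β 1 h * 1 * β (1 * h) g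
    simp

theorem inl_mem_commutator {g h : G} (hgh : g * h = h * g) :
    inl (β g h * (β h g)⁻¹) ∈ commutator (CExt β) := by
  rw [← commutator_lifts hgh]
  exact commutator_mem_commutator (mem_top _) (mem_top _)

/-- `CExt β` is a stem extension as soon as the symmetrised cocycle generates `K`. -/
theorem isStem (h : closure {k : K | ∃ g h : G, g * h = h * g ∧ β g h * (β h g)⁻¹ = k} = ⊤) :
    Cfsg.IsStemExtension (proj (β := β)) := by
  refine ⟨proj_surjective, proj_ker_central, ?_⟩
  rw [proj_ker, MonoidHom.range_eq_map, ← h, MonoidHom.map_closure, closure_le]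
  rintro _ ⟨_, ⟨g, h', hgh, rfl⟩, rfl⟩
  exact inl_mem_commutator hgh

end CExt

/-- The bimultiplicative map `(g, h) ↦ f g * f' h` for homomorphisms into a ring. -/
def mulBilin {R : Type v} [CommRing R] (f f' : G →* Multiplicative R) :
    G →* G →* Multiplicative R :=
  MonoidHom.mk' (fun g => MonoidHom.mk' (fun h => Multiplicative.ofAdd ((f g).toAdd * (f' h).toAdd))
    (fun a b => by simp [mul_add]))
    (fun a b => by ext h; simp [add_mul])

theorem mulBilin_isStem {R : Type v} [CommRing R] (f f' : G →* Multiplicative R)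
    (hR : ∀ r : R, ∃ k : ℕ, (k : R) = r) {g h : G} (hgh : g * h = h * g)
    (h2 : (f g).toAdd * (f' h).toAdd - (f h).toAdd * (f' g).toAdd = 1) :
    Cfsg.IsStemExtension (CExt.proj (β := mulBilin f f')) := by
  apply CExt.isStem
  rw [eq_top_iff]
  intro k _
  obtain ⟨j, hj⟩ := hR k.toAdd
  have : mulBilin f f' g h * (mulBilin f f' h g)⁻¹ = Multiplicative.ofAdd (1 : R) := by
    simp [mulBilin, ← ofAdd_neg, ← ofAdd_add, ← sub_eq_add_neg, h2]
  have hk : k = Multiplicative.ofAdd (1 : R) ^ j := by
    rw [← ofAdd_nsmul, nsmul_one, hj, ofAdd_toAdd]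
  rw [hk]
  have hmem : Multiplicative.ofAdd (1 : R) ∈
      {k | ∃ g h : G, g * h = h * g ∧ mulBilin f f' g h * (mulBilin f f' h g)⁻¹ = k} :=
    ⟨g, h, hgh, this⟩
  exact pow_mem (subset_closure hmem) j

end Cfsg.Agent.FGS2
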