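import Mathlib.GroupTheory.GroupAction.MultipleTransitivity
import Mathlib.GroupTheory.GroupAction.Primitive
import Mathlib.GroupTheory.Perm.Basic
import Mathlib.Algebra.MonoidAlgebra.Basic
import Mathlib.Algebra.CharP.Lemmas
import Mathlib.Data.ZMod.Basic
import Mathlib.Algebra.CharP.Algebra
import Mathlib.Tactic

/-!
# Transitive groups of prime power degree containing a full cycle

Schur's method in elementary form: the orbits of a point stabilizer are read in `ZMod (p ^ m)`.
-/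

set_option autoImplicit false
set_option linter.style.haveILetI false
set_option linter.unusedSectionVars false

namespace Cfsg.Agent.FGS2.CyclicRegular

open scoped Classical Pointwise

variable {Ω : Type*} [Fintype Ω] (G : Subgroup (Equiv.Perm Ω)) {n : ℕ} [NeZero n] (φ : ZMod n ≃ Ω)

/-- The translations are realized in `G`. -/
def HasTranslations : Prop := ∀ c : ZMod n, ∃ t ∈ G, ∀ x : ZMod n, t (φ x) = φ (x + c)

/-- Being in the same orbit of the stabilizer of `φ 0`. -/
def Rel (x y : ZMod n) : Prop := ∃ f ∈ G, f (φ 0) = φ 0 ∧ f (φ x) = φ y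

/-- A union of stabilizer orbits. -/
def Inv (s : Set (ZMod n)) : Prop := ∀ x y, Rel G φ x y → x ∈ s → y ∈ s

variable {G φ}

theorem rel_refl (x : ZMod n) : Rel G φ x x := ⟨1, G.one_mem, rfl, rfl⟩

theorem rel_symm {x y : ZMod n} (h : Rel G φ x y) : Rel G φ y x := by
  obtain ⟨f, hf, h0, hx⟩ := h
  refine ⟨f⁻¹, G.inv_mem hf, ?_, ?_⟩
  · exact Equiv.Perm.inv_eq_iff_eq.2 h0.symm
  · exact Equiv.Perm.inv_eq_iff_eq.2 hx.symm

theorem rel_trans {x y z : ZMod n} (h : Rel G φ x y) (h' : Rel G φ y z) : Rel G φ x z := by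
  obtain ⟨f, hf, h0, hx⟩ := h
  obtain ⟨f', hf', h0', hy⟩ := h'
  exact ⟨f' * f, G.mul_mem hf' hf, by rw [Equiv.Perm.mul_apply, h0, h0'],
    by rw [Equiv.Perm.mul_apply, hx, hy]⟩

theorem inv_mem_iff {s : Set (ZMod n)} (hs : Inv G φ s) {x y : ZMod n} (h : Rel G φ x y) :
    x ∈ s ↔ y ∈ s := ⟨hs x y h, hs y x (rel_symm h)⟩

/-- Differences of moved pairs are related. -/
theorem rel_sub (ht : HasTranslations G φ) {f : Equiv.Perm Ω} (hf : f ∈ G) {x x' y y' : ZMod n}
    (hy : f (φ y) = φ y') (hx : f (φ x) = φ x') : Rel G φ (x - y) (x' - y') := by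
  obtain ⟨t, ht1, ht1'⟩ := ht y
  obtain ⟨s, hs1, hs1'⟩ := ht (-y')
  refine ⟨s * f * t, G.mul_mem (G.mul_mem hs1 hf) ht1, ?_, ?_⟩
  · rw [Equiv.Perm.mul_apply, Equiv.Perm.mul_apply, ht1', zero_add, hy, hs1', add_neg_cancel]
  · rw [Equiv.Perm.mul_apply, Equiv.Perm.mul_apply, ht1', sub_add_cancel, hx, hs1', sub_eq_add_neg]

theorem inv_neg (ht : HasTranslations G φ) {s : Set (ZMod n)} (hs : Inv G φ s) :
    Inv G φ {x | -x ∈ s} := by
  intro x y h hx
  obtain ⟨f, hf, h0, hxy⟩ := h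
  have h1 := rel_sub ht hf hxy h0
  rw [zero_sub, zero_sub] at h1
  exact hs _ _ h1 hx

theorem inv_orbit (x : ZMod n) : Inv G φ {y | Rel G φ x y} := fun _ _ h hy => rel_trans hy h

/-- The convolution count of two unions of orbits is constant on orbits. -/
theorem count_eq (ht : HasTranslations G φ) {U V : Set (ZMod n)} (hU : Inv G φ U) (hV : Inv G φ V)
    {x x' : ZMod n} (h : Rel G φ x x') :
    (Finset.univ.filter fun y => y ∈ U ∧ x - y ∈ V).card =
      (Finset.univ.filter fun y => y ∈ U ∧ x' - y ∈ V).card := by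
  obtain ⟨f, hf, h0, hx⟩ := h
  let e : ZMod n ≃ ZMod n := (φ.trans f).trans φ.symm
  have he : ∀ y, f (φ y) = φ (e y) := fun y => by simp [e]
  refine Finset.card_equiv e fun y => ?_
  simp only [Finset.mem_filter, Finset.mem_univ, true_and]
  rw [inv_mem_iff hU ⟨f, hf, h0, he y⟩, inv_mem_iff hV (rel_sub ht hf (he y) hx)]

/-- Coefficients of the group algebra constant on orbits. -/
def Const {p : ℕ} (u : AddMonoidAlgebra (ZMod p) (ZMod n)) : Prop :=
  ∀ x y, Rel G φ x y → u.coeff x = u.coeff y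

theorem const_mul (ht : HasTranslations G φ) {p : ℕ} [Fact p.Prime]
    {u v : AddMonoidAlgebra (ZMod p) (ZMod n)} (hu : Const (G := G) (φ := φ) u)
    (hv : Const (G := G) (φ := φ) v) : Const (G := G) (φ := φ) (u * v) := by
  have key : ∀ x, (u * v).coeff x = ∑ y : ZMod n, u.coeff y * v.coeff (x - y) := by
    intro x
    rw [AddMonoidAlgebra.coeff_mul, Finsupp.sum_fintype _ _ (by simp)]
    refine Finset.sum_congr rfl fun y _ => ?_
    rw [Finsupp.sum_fintype _ _ (by simp), Finset.sum_eq_single (x - y)]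
    · simp
    · intro b _ hb
      rw [if_neg fun e => hb (by rw [← e]; abel)]
    · simp
  intro x x' h
  obtain ⟨f, hf, h0, hx⟩ := h
  let e : ZMod n ≃ ZMod n := (φ.trans f).trans φ.symm
  have he : ∀ y, f (φ y) = φ (e y) := fun y => by simp [e]
  rw [key, key, ← e.sum_comp (fun y => u.coeff y * v.coeff (x' - y))]
  refine Finset.sum_congr rfl fun y _ => ?_
  rw [hu _ _ ⟨f, hf, h0, he y⟩, hv _ _ (rel_sub ht hf (he y) hx)]

/-- The residues mod `p` of the fibre counts of multiplication by `p` are constant on orbits. -/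
theorem fibre_count_eq (ht : HasTranslations G φ) {p : ℕ} [Fact p.Prime] {T : Set (ZMod n)}
    (hT : Inv G φ T) {x x' : ZMod n} (h : Rel G φ x x') :
    ((Finset.univ.filter fun y => y ∈ T ∧ p • y = x).card : ZMod p) =
      ((Finset.univ.filter fun y => y ∈ T ∧ p • y = x').card : ZMod p) := by
  haveI : CharP (AddMonoidAlgebra (ZMod p) (ZMod n)) p :=
    charP_of_injective_algebraMap (R := ZMod p)
      (RingHom.injective (algebraMap (ZMod p) (AddMonoidAlgebra (ZMod p) (ZMod n)))) p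
  set e : AddMonoidAlgebra (ZMod p) (ZMod n) :=
    ∑ y ∈ Finset.univ.filter (· ∈ T), AddMonoidAlgebra.single y 1 with he
  have hce : Const (G := G) (φ := φ) e := by
    intro a b hab
    simp only [he, AddMonoidAlgebra.coeff_sum, AddMonoidAlgebra.coeff_single, Finset.sum_apply',
      Finsupp.single_apply, Finset.sum_ite_eq', Finset.mem_filter, Finset.mem_univ, true_and]
    by_cases ha : a ∈ T
    · rw [if_pos ha, if_pos (hT a b hab ha)]
    · rw [if_neg ha, if_neg fun hb => ha (hT b a (rel_symm hab) hb)]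
  have hpow : ∀ k, Const (G := G) (φ := φ) (e ^ (k + 1)) := by
    intro k
    induction k with
    | zero => rw [zero_add, pow_one]; exact hce
    | succ k ih => rw [pow_succ]; exact const_mul ht ih hce
  have hp : e ^ p = ∑ y ∈ Finset.univ.filter (· ∈ T), AddMonoidAlgebra.single (p • y) 1 := by
    rw [he, sum_pow_char]
    refine Finset.sum_congr rfl fun y _ => ?_
    rw [AddMonoidAlgebra.single_pow, one_pow]
  obtain ⟨k, hk⟩ : ∃ k, p = k + 1 := ⟨p - 1, by have := (Fact.out : p.Prime).pos; omega⟩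
  have h1 := hpow k x x' h
  rw [← hk, hp] at h1
  simp only [AddMonoidAlgebra.coeff_sum, AddMonoidAlgebra.coeff_single, Finset.sum_apply',
    Finsupp.single_apply, Finset.sum_boole, Finset.filter_filter] at h1
  exact h1

theorem closure_inv (ht : HasTranslations G φ) {s : Set (ZMod n)} (hs : Inv G φ s) :
    Inv G φ (AddSubgroup.closure s : Set (ZMod n)) := by
  suffices ∀ x ∈ AddSubgroup.closure s, ∀ y, Rel G φ x y → y ∈ AddSubgroup.closure s from
    fun x y h hx => this x hx y h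
  intro x hx
  induction hx using AddSubgroup.closure_induction with
  | mem a ha => exact fun y h => AddSubgroup.subset_closure (hs a y h ha)
  | zero =>
    intro y h
    obtain ⟨f, -, h0, h1⟩ := h
    rw [φ.injective (h1.symm.trans h0)]
    exact zero_mem _
  | add a b _ _ iha ihb =>
    intro y h
    obtain ⟨f, hf, h0, h1⟩ := h
    obtain ⟨a', ha'⟩ : ∃ a', f (φ a) = φ a' := ⟨φ.symm (f (φ a)), by simp⟩
    have h2 := rel_sub ht hf ha' h1
    rw [add_sub_cancel_left] at h2
    have := add_mem (iha a' ⟨f, hf, h0, ha'⟩) (ihb _ h2)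
    rwa [add_sub_cancel] at this
  | neg a _ iha =>
    intro y h
    obtain ⟨f, hf, h0, h1⟩ := h
    have h2 := rel_sub ht hf h1 h0
    rw [zero_sub, zero_sub, neg_neg] at h2
    have := neg_mem (iha _ h2)
    rwa [neg_neg] at this

/-- The stabilizer of a union of orbits. -/
theorem stab_inv (ht : HasTranslations G φ) {T : Set (ZMod n)} (hT : Inv G φ T) :
    Inv G φ {h | ∀ t ∈ T, t + h ∈ T} := by
  intro h h' hrel hh t ht'
  obtain ⟨f, hf, h0, h1⟩ := hrel
  obtain ⟨y, hy⟩ : ∃ y, f (φ y) = φ (-t) := ⟨φ.symm (f⁻¹ (φ (-t))), by simp⟩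
  have h2 := rel_sub ht hf hy h0
  rw [zero_sub, zero_sub, neg_neg] at h2
  have h3 := rel_sub ht hf hy h1
  rw [sub_neg_eq_add] at h3
  have h4 : h - y ∈ T := by
    rw [show h - y = -y + h by abel]
    exact hh _ ((inv_mem_iff hT h2).2 ht')
  rw [show t + h' = h' + t from add_comm _ _]
  exact hT _ _ h3 h4

/-- An element of prime order `p` generates everything killed by `p`. -/
theorem mul_surj {p : ℕ} (hp : p.Prime) {q : ℕ} (hn : n = p * q) {a : ZMod n} (ha : p • a = 0) :
    ∃ i : ℕ, a = ((q * i : ℕ) : ZMod n) := by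
  have h1 : ((p * a.val : ℕ) : ZMod n) = 0 := by
    rw [Nat.cast_mul, ZMod.natCast_zmod_val, ← nsmul_eq_mul]
    exact ha
  rw [ZMod.natCast_eq_zero_iff] at h1
  have h2 : p * q ∣ p * a.val := hn ▸ h1
  obtain ⟨i, hi⟩ := Nat.dvd_of_mul_dvd_mul_left hp.pos h2
  exact ⟨i, by rw [← hi, ZMod.natCast_zmod_val]⟩

theorem mem_subgroup_of_killed {p : ℕ} (hp : p.Prime) {q : ℕ} (hn : n = p * q) {S : AddSubgroup (ZMod n)}
    {w : ZMod n} (hw : w ∈ S) (hw0 : w ≠ 0) (hpw : p • w = 0) {a : ZMod n} (ha : p • a = 0) : a ∈ S := by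
  obtain ⟨i, hi⟩ := mul_surj hp hn ha
  obtain ⟨j, hj⟩ := mul_surj hp hn hpw
  have hndvd : ¬ p ∣ j := by
    rintro ⟨k, rfl⟩
    refine hw0 ?_
    rw [hj, show q * (p * k) = n * k by rw [hn]; ring, Nat.cast_mul, ZMod.natCast_self, zero_mul]
  haveI := Fact.mk hp
  obtain ⟨k, hk⟩ : ∃ k : ℕ, (k : ZMod p) * j = i :=
    ⟨((i : ZMod p) * (j : ZMod p)⁻¹).val, by
      rw [ZMod.natCast_zmod_val, mul_assoc, inv_mul_cancel₀ (by rwa [Ne, ZMod.natCast_eq_zero_iff]), mul_one]⟩
  rw [← Nat.cast_mul, ZMod.natCast_eq_natCast_iff] at hk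
  have h1 : a = k • w := by
    rw [hi, hj, nsmul_eq_mul, ← Nat.cast_mul, ZMod.natCast_eq_natCast_iff, hn]
    rw [show k * (q * j) = q * (k * j) by ring, show p * q = q * p by ring]
    exact (Nat.ModEq.mul_left' q hk).symm
  rw [h1]
  exact nsmul_mem hw k

/-- The key step: some proper nontrivial subgroup is a union of orbits. -/
theorem exists_inv_subgroup {p m : ℕ} (hp : p.Prime) (hm : 2 ≤ m) (hn : n = p ^ m)
    (ht : HasTranslations G φ)
    (h2 : ∃ a b : ZMod n, a ≠ 0 ∧ b ≠ 0 ∧ ¬ Rel G φ a b) :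
    ∃ S : AddSubgroup (ZMod n), Inv G φ (S : Set (ZMod n)) ∧ S ≠ ⊥ ∧ S ≠ ⊤ := by
  haveI := Fact.mk hp
  set q := p ^ (m - 1) with hq
  have hnq : n = p * q := by rw [hn, hq, ← pow_succ', Nat.sub_add_cancel (by omega)]
  have hp1 : (p : ℕ) • (1 : ZMod n) ≠ 0 := by
    rw [nsmul_eq_mul, mul_one, Ne, ZMod.natCast_eq_zero_iff, hn]
    intro hd
    have := Nat.le_of_dvd hp.pos hd
    have h2' : p ^ 2 ≤ p ^ m := Nat.pow_le_pow_right hp.pos hm
    have := hp.two_le
    nlinarith
  have h1 : (1 : ZMod n) ≠ 0 := fun e => hp1 (by rw [e, nsmul_zero])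
  have hkill : ∀ v : ZMod n, p • v = 0 → ∀ k : ℕ, p • (k • v) = 0 := fun v hv k => by
    rw [← mul_nsmul, mul_nsmul', hv, nsmul_zero]
  have hzero : Inv G φ ({0} : Set (ZMod n)) := by
    rintro x y ⟨f, -, h0, hx⟩ hx0
    rw [Set.mem_singleton_iff] at hx0 ⊢
    subst hx0
    exact φ.injective (hx.symm.trans h0)
  have hne0 : ∀ {x y : ZMod n}, x ≠ 0 → Rel G φ x y → y ≠ 0 := fun hx h hy =>
    hx ((inv_mem_iff hzero h).2 hy)
  let K : AddSubgroup (ZMod n) :=
    { carrier := {v | p • v = 0}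
      add_mem' := fun {a b} ha hb => by
        show p • (a + b) = 0
        rw [nsmul_add, ha, hb, add_zero]
      zero_mem' := nsmul_zero p
      neg_mem' := fun {a} ha => by
        show p • -a = 0
        rw [smul_neg, ha, neg_zero] }
  have hK1 : K ≠ ⊤ := fun e => hp1 (e ▸ AddSubgroup.mem_top (1 : ZMod n) : (1 : ZMod n) ∈ K)
  by_contra hcon
  push Not at hcon
  -- every fibre count over a nonzero point vanishes mod `p`
  have hfib : ∀ T : Set (ZMod n), Inv G φ T → ∀ x : ZMod n, x ≠ 0 →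
      ((Finset.univ.filter fun y => y ∈ T ∧ p • y = x).card : ZMod p) = 0 := by
    intro T hT x hx0
    by_contra hne
    set s : Set (ZMod n) := {y | y ≠ 0 ∧ ((Finset.univ.filter fun z => z ∈ T ∧ p • z = y).card : ZMod p) ≠ 0}
    have hs : Inv G φ s := fun a b hab ha => ⟨hne0 ha.1 hab, fun e => ha.2 (by rw [fibre_count_eq ht hT hab, e])⟩
    have hsub : AddSubgroup.closure s ≤ (nsmulAddMonoidHom (α := ZMod n) p).range := by
      rw [AddSubgroup.closure_le]
      intro y hy
      obtain ⟨z, hz⟩ : (Finset.univ.filter fun z => z ∈ T ∧ p • z = y).Nonempty :=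
        Finset.card_ne_zero.1 fun e => hy.2 (by rw [e, Nat.cast_zero])
      exact ⟨z, (Finset.mem_filter.1 hz).2.2⟩
    have hxs : x ∈ AddSubgroup.closure s := AddSubgroup.subset_closure ⟨hx0, hne⟩
    have h3 := hcon _ (closure_inv ht hs) (fun e => hx0 (by rwa [e, AddSubgroup.mem_bot] at hxs))
    obtain ⟨z, hz⟩ := hsub (h3 ▸ AddSubgroup.mem_top (1 : ZMod n))
    have h4 : q • (p • z) = q • (1 : ZMod n) := congrArg (q • ·) hz
    rw [← mul_nsmul, ← hnq, nsmul_eq_mul, ZMod.natCast_self, zero_mul, nsmul_eq_mul, mul_one,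
      eq_comm, ZMod.natCast_eq_zero_iff, hn, hq] at h4
    have := (Nat.pow_dvd_pow_iff_le_right hp.one_lt).1 h4
    omega
  -- hence unions of orbits are periodic outside `K`
  have hper : ∀ T : Set (ZMod n), Inv G φ T → ∀ t ∈ T, p • t ≠ 0 → ∀ w ∈ K, t + w ∈ T := by
    intro T hT t htT htp w hw
    have h3 := hfib T hT (p • t) htp
    rw [ZMod.natCast_eq_zero_iff] at h3
    set A := Finset.univ.filter fun z => z ∈ T ∧ p • z = p • t with hA
    set B := Finset.univ.filter fun z : ZMod n => p • z = p • t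
    have hAB : A ⊆ B := fun z hz => by
      rw [hA, Finset.mem_filter] at hz
      exact Finset.mem_filter.2 ⟨Finset.mem_univ _, hz.2.2⟩
    have hB : B.card ≤ p := by
      refine (Finset.card_le_card_of_surjOn (fun i : ℕ => t + ((q * i : ℕ) : ZMod n)) ?_).trans
        (Finset.card_range p).le
      intro z hz
      obtain ⟨i, hi⟩ := mul_surj hp hnq (a := z - t) (by
        rw [nsmul_sub, (Finset.mem_filter.1 hz).2, sub_self])
      refine ⟨i % p, Finset.mem_range.2 (Nat.mod_lt _ hp.pos), ?_⟩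
      show t + ((q * (i % p) : ℕ) : ZMod n) = z
      have h4 : ((q * (i % p) : ℕ) : ZMod n) = ((q * i : ℕ) : ZMod n) := by
        rw [ZMod.natCast_eq_natCast_iff, hnq, mul_comm p q]
        exact Nat.ModEq.mul_left' q (Nat.mod_modEq i p)
      rw [h4, ← hi, add_sub_cancel]
    have htA : t ∈ A := Finset.mem_filter.2 ⟨Finset.mem_univ _, htT, rfl⟩
    have hAB' : A = B := Finset.eq_of_subset_of_card_le hAB
      (hB.trans (Nat.le_of_dvd (Finset.card_pos.2 ⟨t, htA⟩) h3))
    have htw : t + w ∈ B := Finset.mem_filter.2 ⟨Finset.mem_univ _, by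
      rw [nsmul_add, show p • w = 0 from hw, add_zero]⟩
    rw [← hAB', hA, Finset.mem_filter] at htw
    exact htw.2.1
  -- every orbit of a nonzero point meets `K` and its complement
  have hout : ∀ a : ZMod n, a ≠ 0 → ∃ b, Rel G φ a b ∧ p • b ≠ 0 := by
    intro a ha
    by_contra hc
    push Not at hc
    have hle : AddSubgroup.closure {b | Rel G φ a b} ≤ K := (AddSubgroup.closure_le _).2 fun b hb => hc b hb
    have h3 := hcon _ (closure_inv ht (inv_orbit a)) (fun e => ha (by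
      have : a ∈ AddSubgroup.closure {b | Rel G φ a b} := AddSubgroup.subset_closure (rel_refl a)
      rwa [e, AddSubgroup.mem_bot] at this))
    exact hK1 (top_le_iff.1 (h3 ▸ hle))
  have hin : ∀ a : ZMod n, a ≠ 0 → ∃ w, Rel G φ a w ∧ p • w = 0 := by
    intro a ha
    by_contra hc
    push Not at hc
    set T : Set (ZMod n) := {b | Rel G φ a b}
    set S : Set (ZMod n) := {h | ∀ t ∈ T, t + h ∈ T}
    have hKS : (K : Set (ZMod n)) ⊆ S := fun w hw t ht' => hper T (inv_orbit a) t ht' (hc t ht') w hw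
    have hinvS : Inv G φ (AddSubgroup.closure S : Set (ZMod n)) :=
      closure_inv ht (stab_inv ht (inv_orbit a))
    have hq0 : ((q : ℕ) : ZMod n) ≠ 0 := by
      rw [Ne, ZMod.natCast_eq_zero_iff, hn, hq, Nat.pow_dvd_pow_iff_le_right hp.one_lt]
      omega
    have hqK : ((q : ℕ) : ZMod n) ∈ K := by
      show p • ((q : ℕ) : ZMod n) = 0
      rw [nsmul_eq_mul, ← Nat.cast_mul, ← hnq, ZMod.natCast_self]
    have h3 := hcon _ hinvS (fun e => hq0 (by
      have : ((q : ℕ) : ZMod n) ∈ AddSubgroup.closure S := AddSubgroup.subset_closure (hKS hqK)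
      rwa [e, AddSubgroup.mem_bot] at this))
    have key : ∀ h ∈ AddSubgroup.closure S, h ∈ S ∧ -h ∈ S := by
      intro h hh
      have hneg : ∀ s ∈ S, -s ∈ S := by
        intro s hs t ht'
        have hk : ∀ k : ℕ, t + k • s ∈ T := by
          intro k
          induction k with
          | zero => simpa using ht'
          | succ k ih => rw [succ_nsmul, ← add_assoc]; exact hs _ ih
        have hns : (n - 1) • s = -s := by
          rw [eq_neg_iff_add_eq_zero, ← succ_nsmul, Nat.sub_add_cancel (Nat.one_le_iff_ne_zero.2 (NeZero.ne n)),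
            nsmul_eq_mul, ZMod.natCast_self, zero_mul]
        rw [← hns]
        exact hk _
      induction hh using AddSubgroup.closure_induction with
      | mem u hu => exact ⟨hu, hneg u hu⟩
      | zero => exact ⟨fun t ht' => by simpa using ht', fun t ht' => by simpa using ht'⟩
      | add u v _ _ ihu ihv =>
        refine ⟨fun t ht' => ?_, fun t ht' => ?_⟩
        · rw [← add_assoc]; exact ihv.1 _ (ihu.1 t ht')
        · rw [neg_add, ← add_assoc]; exact ihv.2 _ (ihu.2 t ht')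
      | neg u _ ihu => exact ⟨ihu.2, by rw [neg_neg]; exact ihu.1⟩
    have h5 := (key (-a) (h3 ▸ AddSubgroup.mem_top _)).1 a (rel_refl a)
    rw [add_neg_cancel] at h5
    exact ha ((inv_mem_iff hzero h5).2 rfl)
  -- the coefficient comparison
  have hcount : ∀ a₁ a₂ : ZMod n, a₁ ≠ 0 → a₂ ≠ 0 → ¬ Rel G φ a₁ (-a₂) → ∀ w : ZMod n, Rel G φ a₁ w → p • w = 0 →
      ∀ v : ZMod n, Rel G φ a₂ v → p • v = 0 → Rel G φ a₁ (w - v) ∧ p • (w - v) = 0 := by
    -- first compare the numbers of points in `K`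
    have hA : ∀ a₁ a₂ : ZMod n, a₁ ≠ 0 → a₂ ≠ 0 → ¬ Rel G φ a₁ (-a₂) → ∀ w : ZMod n, Rel G φ a₁ w → p • w = 0 →
        (Finset.univ.filter fun v => Rel G φ a₂ v ∧ p • v = 0).card ≤
          (Finset.univ.filter fun y => (Rel G φ a₁ y ∧ p • y = 0) ∧ (Rel G φ a₂ (w - y) ∧ p • (w - y) = 0)).card := by
      intro a₁ a₂ ha₁ ha₂ hne w hw hwK
      obtain ⟨b, hb, hbK⟩ := hout a₁ ha₁
      have h3 := count_eq ht (inv_orbit a₁) (inv_orbit a₂) (rel_trans (rel_symm hw) hb)
      have h4 : (Finset.univ.filter fun v => Rel G φ a₂ v ∧ p • v = 0).card ≤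
          (Finset.univ.filter fun y => y ∈ {y | Rel G φ a₁ y} ∧ b - y ∈ {y | Rel G φ a₂ y}).card := by
        refine Finset.card_le_card_of_injOn (fun v => b - v) (fun v hv => ?_) fun v _ v' _ h => sub_right_injective h
        obtain ⟨hv1, hv2⟩ := (Finset.mem_filter.1 hv).2
        refine Finset.mem_filter.2 ⟨Finset.mem_univ _, ?_, ?_⟩
        · show Rel G φ a₁ (b - v)
          rw [sub_eq_add_neg]
          exact hper _ (inv_orbit a₁) b hb hbK (-v) (K.neg_mem hv2)
        · show Rel G φ a₂ (b - (b - v))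
          rwa [sub_sub_cancel]
      rw [← h3] at h4
      refine h4.trans (Finset.card_le_card fun y hy => ?_)
      obtain ⟨hy1, hy2⟩ := (Finset.mem_filter.1 hy).2
      have hy1' : Rel G φ a₁ y := hy1
      have hy2' : Rel G φ a₂ (w - y) := hy2
      have hyK : p • y = 0 := by
        by_contra hyK
        have hwy : p • (w - y) ≠ 0 := by rw [nsmul_sub, hwK, zero_sub, neg_ne_zero]; exact hyK
        have h5 : Rel G φ a₂ (w - y + -w) := hper _ (inv_orbit a₂) (w - y) hy2' hwy (-w) (K.neg_mem hwK)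
        rw [show w - y + -w = -y by abel] at h5
        have h6 : Rel G φ a₁ (-a₂) := by
          obtain ⟨f, hf, h0, hfy⟩ := rel_symm h5
          have h7 := rel_sub ht hf hfy h0
          rw [zero_sub, zero_sub, neg_neg] at h7
          exact rel_trans hy1' h7
        exact hne h6
      exact Finset.mem_filter.2 ⟨Finset.mem_univ _, ⟨hy1', hyK⟩, hy2', by rw [nsmul_sub, hwK, hyK, sub_zero]⟩
    intro a₁ a₂ ha₁ ha₂ hne w hw hwK v hv hvK
    set A₁ := Finset.univ.filter fun y => Rel G φ a₁ y ∧ p • y = 0 with hA₁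
    set A₂ := Finset.univ.filter fun y => Rel G φ a₂ y ∧ p • y = 0 with hA₂
    set R := Finset.univ.filter fun y => (Rel G φ a₁ y ∧ p • y = 0) ∧ (Rel G φ a₂ (w - y) ∧ p • (w - y) = 0) with hR
    have hinj : R.card ≤ A₂.card := Finset.card_le_card_of_injOn (fun y => w - y)
      (fun y hy => Finset.mem_filter.2 ⟨Finset.mem_univ _, (Finset.mem_filter.1 hy).2.2⟩)
      fun y _ y' _ h => sub_right_injective h
    have himg : R.image (fun y => w - y) = A₂ := by
      refine Finset.eq_of_subset_of_card_le (fun z hz => ?_) ?_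
      · obtain ⟨y, hy, rfl⟩ := Finset.mem_image.1 hz
        exact Finset.mem_filter.2 ⟨Finset.mem_univ _, (Finset.mem_filter.1 hy).2.2⟩
      · rw [Finset.card_image_of_injective _ sub_right_injective]
        exact hA a₁ a₂ ha₁ ha₂ hne w hw hwK
    have hvA : v ∈ A₂ := Finset.mem_filter.2 ⟨Finset.mem_univ _, hv, hvK⟩
    rw [← himg] at hvA
    obtain ⟨y, hy, hyv⟩ := Finset.mem_image.1 hvA
    rw [show w - v = y by rw [← hyv, sub_sub_cancel]]
    exact (Finset.mem_filter.1 hy).2.1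
  -- a pair of orbits that are not opposite
  obtain ⟨a, b, ha, hb, hab⟩ := h2
  obtain ⟨a₁, a₂, ha₁, ha₂, hne⟩ : ∃ a₁ a₂ : ZMod n, a₁ ≠ 0 ∧ a₂ ≠ 0 ∧ ¬ Rel G φ a₁ (-a₂) := by
    by_cases h : Rel G φ a (-a)
    · refine ⟨b, a, hb, ha, fun hc => hab ?_⟩
      exact rel_trans h (rel_symm hc)
    · exact ⟨a, a, ha, ha, h⟩
  obtain ⟨w, hw, hwK⟩ := hin a₁ ha₁
  obtain ⟨v, hv, hvK⟩ := hin a₂ ha₂
  have hv0 : v ≠ 0 := hne0 ha₂ hv
  -- the points of `K` in the first orbit are stable under subtracting those of the second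
  have hall : ∀ k : ℕ, Rel G φ a₁ (w - k • v) ∧ p • (w - k • v) = 0 := by
    intro k
    induction k with
    | zero => exact ⟨by rw [zero_smul, sub_zero]; exact hw, by rw [zero_smul, sub_zero]; exact hwK⟩
    | succ k ih =>
      rw [succ_nsmul, ← sub_sub]
      exact hcount a₁ a₂ ha₁ ha₂ hne _ ih.1 ih.2 v hv hvK
  have hmem : w ∈ AddSubgroup.zmultiples v :=
    mem_subgroup_of_killed hp hnq (AddSubgroup.mem_zmultiples v) hv0 hvK hwK

  obtain ⟨k, hk⟩ := AddSubgroup.mem_zmultiples_iff.1 hmem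
  have hk' : w = ((k : ℤ) % (n : ℤ)).toNat • v := by
    rw [← hk, ← natCast_zsmul, Int.toNat_of_nonneg (Int.emod_nonneg _ (by exact_mod_cast NeZero.ne n))]
    rw [zsmul_eq_mul, zsmul_eq_mul]
    congr 1
    rw [ZMod.intCast_eq_intCast_iff]
    exact (Int.mod_modEq k n).symm
  have h5 := (hall ((k : ℤ) % (n : ℤ)).toNat).1
  rw [← hk', sub_self] at h5
  exact hne0 ha₁ h5 rfl

/-- The main statement. -/
theorem main [DecidableEq Ω] (p m : ℕ) (hp : p.Prime) (hm : 2 ≤ m) (hΩ : Fintype.card Ω = p ^ m)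
    (G : Subgroup (Equiv.Perm Ω)) (htr : MulAction.IsPretransitive G Ω)
    (h2 : ¬ MulAction.IsMultiplyPretransitive G Ω 2) (g : G) (hg : orderOf g = p ^ m) :
    ¬ MulAction.IsPreprimitive G Ω ∧
      ¬ MulAction.IsPretransitive (Subgroup.normalClosure ({g ^ (p ^ (m - 1))} : Set G)) Ω := by
  haveI := Fact.mk hp
  set σ : Equiv.Perm Ω := (g : Equiv.Perm Ω) with hσ
  haveI : NeZero (p ^ m) := ⟨pow_ne_zero _ hp.ne_zero⟩
  have hσo : orderOf σ = p ^ m := by rw [hσ, Subgroup.orderOf_coe, hg]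
  have hq : p ^ (m - 1) < p ^ m := Nat.pow_lt_pow_right hp.one_lt (by omega)
  obtain ⟨α, hα⟩ : ∃ α, (σ ^ p ^ (m - 1)) α ≠ α := by
    by_contra hc
    push Not at hc
    exact pow_ne_one_of_lt_orderOf (pow_ne_zero _ hp.ne_zero) (hσo ▸ hq) (Equiv.ext hc)
  have hσn : σ ^ (p ^ m) = 1 := hσo ▸ pow_orderOf_eq_one σ
  have hper : ∀ k : ℕ, (σ ^ k) α = α → p ^ m ∣ k := by
    intro k hk
    have hfix : ∀ a b : ℕ, (σ ^ a) α = α → (σ ^ (a * b)) α = α := by
      intro a b ha
      induction b with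
      | zero => simp
      | succ b ih => rw [Nat.mul_succ, pow_add, Equiv.Perm.mul_apply, ha, ih]
    set d := Function.minimalPeriod σ α
    have hdk : d ∣ k := by
      refine Function.IsPeriodicPt.minimalPeriod_dvd ?_
      show σ^[k] α = α
      rwa [← Equiv.Perm.coe_pow]
    have hdn : d ∣ p ^ m := by
      refine Function.IsPeriodicPt.minimalPeriod_dvd ?_
      show σ^[p ^ m] α = α
      rw [← Equiv.Perm.coe_pow, hσn]
      rfl
    obtain ⟨j, hj, hdj⟩ := (Nat.dvd_prime_pow hp).1 hdn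
    rcases hj.eq_or_lt with e | e
    · rwa [← e, ← hdj]
    · exfalso
      refine hα ?_
      obtain ⟨c, hc⟩ : d ∣ p ^ (m - 1) := hdj ▸ pow_dvd_pow p (by omega)
      rw [hc]
      refine hfix d c ?_
      show (σ ^ d) α = α
      rw [Equiv.Perm.coe_pow]
      exact Function.iterate_minimalPeriod
  let φf : ZMod (p ^ m) → Ω := fun x => (σ ^ x.val) α
  have hinj : Function.Injective φf := by
    intro x y hxy
    wlog hle : x.val ≤ y.val generalizing x y
    · exact (this hxy.symm (Nat.le_of_not_le hle)).symm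
    obtain ⟨d, hd⟩ := Nat.exists_eq_add_of_le hle
    have h1 : (σ ^ x.val) ((σ ^ d) α) = (σ ^ x.val) α := by
      rw [← Equiv.Perm.mul_apply, ← pow_add, ← hd]
      exact hxy.symm
    have h2 := hper d ((σ ^ x.val).injective h1)
    have h3 := ZMod.val_lt y
    rcases Nat.eq_zero_or_pos d with e | e
    · exact ZMod.val_injective _ (by omega)
    · have := Nat.le_of_dvd e h2
      omega
  have hbij : Function.Bijective φf := (Fintype.bijective_iff_injective_and_card φf).2
    ⟨hinj, by rw [ZMod.card, hΩ]⟩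
  let φ : ZMod (p ^ m) ≃ Ω := Equiv.ofBijective φf hbij
  have hshift : ∀ (k : ℕ) (x : ZMod (p ^ m)), (σ ^ k) (φ x) = φ (x + k) := by
    intro k x
    show (σ ^ k) ((σ ^ x.val) α) = (σ ^ (x + (k : ZMod (p ^ m))).val) α
    have hmod : ∀ a : ℕ, σ ^ (a % p ^ m) = σ ^ a := fun a => by
      conv_rhs => rw [← pow_mod_orderOf]
      rw [hσo]
    rw [← Equiv.Perm.mul_apply, ← pow_add, ZMod.val_add, ZMod.val_natCast, Nat.add_mod_mod,
      hmod, add_comm]
  have ht : HasTranslations G φ := fun c => ⟨σ ^ c.val, G.pow_mem g.2 _, fun x => by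
    rw [hshift, ZMod.natCast_zmod_val]⟩
  have h2' : ∃ a b : ZMod (p ^ m), a ≠ 0 ∧ b ≠ 0 ∧ ¬ Rel G φ a b := by
    by_contra hc
    push Not at hc
    refine h2 (MulAction.is_two_pretransitive_iff.2 fun {a b c d} hab hcd => ?_)
    obtain ⟨t, ht'⟩ := htr.exists_smul_eq a (φ 0)
    obtain ⟨s, hs⟩ := htr.exists_smul_eq c (φ 0)
    obtain ⟨x, hx⟩ := φ.surjective (t • b)
    obtain ⟨y, hy⟩ := φ.surjective (s • d)
    have hx0 : x ≠ 0 := fun e => hab (smul_left_cancel t (by rw [ht', ← hx, e]))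
    have hy0 : y ≠ 0 := fun e => hcd (smul_left_cancel s (by rw [hs, ← hy, e]))
    obtain ⟨f, hf, hf0, hfx⟩ := hc x y hx0 hy0
    refine ⟨s⁻¹ * ⟨f, hf⟩ * t, ?_, ?_⟩
    · rw [mul_smul, mul_smul, ht', inv_smul_eq_iff, hs]
      exact hf0
    · rw [mul_smul, mul_smul, ← hx, inv_smul_eq_iff, ← hy]
      exact hfx
  obtain ⟨S, hS, hSb, hSt⟩ := exists_inv_subgroup hp hm rfl ht h2'
  have hmove : ∀ f ∈ G, ∀ x x' y y' : ZMod (p ^ m), f (φ x) = φ x' → f (φ y) = φ y' →
      (x - y ∈ S ↔ x' - y' ∈ S) := fun f hf x x' y y' hx hy => inv_mem_iff hS (rel_sub ht hf hy hx)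
  refine ⟨fun hpp => ?_, fun htc => ?_⟩
  · set B : Set Ω := φ '' (S : Set (ZMod (p ^ m)))
    have hB : MulAction.IsBlock G B := by
      rw [MulAction.isBlock_iff_smul_eq_or_disjoint]
      intro f
      rcases Set.disjoint_or_nonempty_inter (f • B) B with h | ⟨z, hz1, hz2⟩
      · exact Or.inr h
      left
      obtain ⟨_, ⟨x, hx, rfl⟩, hxz⟩ := hz1
      obtain ⟨z', hz', hz''⟩ := hz2
      subst hz''
      ext u
      constructor
      · rintro ⟨_, ⟨y, hy, rfl⟩, rfl⟩
        obtain ⟨y', hy'⟩ := φ.surjective ((f : Equiv.Perm Ω) (φ y))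
        refine ⟨y', ?_, hy'⟩
        have h1 : y' - z' ∈ S := (hmove f f.2 y y' x z' hy'.symm hxz).1 (S.sub_mem hy hx)
        have := S.add_mem h1 hz'
        rwa [sub_add_cancel] at this
      · rintro ⟨y', hy', rfl⟩
        obtain ⟨y, hy⟩ := φ.surjective ((f : Equiv.Perm Ω)⁻¹ (φ y'))
        have hfy : (f : Equiv.Perm Ω) (φ y) = φ y' := by rw [hy]; simp
        refine ⟨φ y, ⟨y, ?_, rfl⟩, hfy⟩
        have h1 : y - x ∈ S := (hmove f f.2 y y' x z' hfy hxz).2 (S.sub_mem hy' hz')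
        have := S.add_mem h1 hx
        rwa [sub_add_cancel] at this
    rcases hpp.isTrivialBlock_of_isBlock hB with h | h
    · refine hSb ((AddSubgroup.eq_bot_iff_forall S).2 fun x hx => φ.injective (h ⟨x, hx, rfl⟩ ⟨0, S.zero_mem, rfl⟩))
    · refine hSt (eq_top_iff.2 fun x _ => ?_)
      obtain ⟨y, hy, hyx⟩ := (h ▸ Set.mem_univ (φ x) : φ x ∈ B)
      exact φ.injective hyx ▸ hy
  · -- the kernel of the action on the blocks
    let N : Subgroup G :=
      { carrier := {f | ∀ x x' : ZMod (p ^ m), (f : Equiv.Perm Ω) (φ x) = φ x' → x' - x ∈ S}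
        mul_mem' := fun {f f'} hf hf' x x' hxx' => by
          obtain ⟨y, hy⟩ := φ.surjective ((f' : Equiv.Perm Ω) (φ x))
          have h1 := hf' x y hy.symm
          have h2 : x' - y ∈ S := hf y x' (by rw [hy]; exact hxx')
          have := S.add_mem h2 h1
          rwa [sub_add_sub_cancel] at this
        one_mem' := fun x x' hxx' => by
          rw [φ.injective (hxx'.symm : φ x' = φ x), sub_self]
          exact S.zero_mem
        inv_mem' := fun {f} hf x x' hxx' => by
          have h1 := hf x' x (by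
            rw [← hxx']
            show (f : Equiv.Perm Ω) ((f : Equiv.Perm Ω)⁻¹ (φ x)) = φ x
            simp)
          have := S.neg_mem h1
          rwa [neg_sub] at this }
    haveI hNn : N.Normal := ⟨fun f hf h x x' hxx' => by
      obtain ⟨y, hy⟩ := φ.surjective ((h : Equiv.Perm Ω)⁻¹ (φ x))
      obtain ⟨y', hy'⟩ := φ.surjective ((f : Equiv.Perm Ω) (φ y))
      have hhy : (h : Equiv.Perm Ω) (φ y) = φ x := by rw [hy]; simp
      have hhy' : (h : Equiv.Perm Ω) (φ y') = φ x' := by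
        rw [← hxx', hy', hy]
        rfl
      exact (hmove h h.2 y' x' y x hhy' hhy).1 (hf y y' hy'.symm)⟩
    have hgN : g ^ p ^ (m - 1) ∈ N := by
      intro x x' hxx'
      have h1 : φ x' = φ (x + ((p ^ (m - 1) : ℕ) : ZMod (p ^ m))) := by
        rw [← hxx', ← hshift]
        rfl
      rw [φ.injective h1, add_sub_cancel_left]
      have hnq : p ^ m = p * p ^ (m - 1) := by rw [← pow_succ', Nat.sub_add_cancel (by omega)]
      obtain ⟨w, hw, hw0⟩ := (AddSubgroup.bot_or_exists_ne_zero S).resolve_left hSb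
      -- a point of order `p` in `S`
      obtain ⟨j, hj, hjd⟩ := (Nat.dvd_prime_pow hp).1
        (addOrderOf_dvd_of_nsmul_eq_zero (x := w) (show p ^ m • w = 0 by
          rw [nsmul_eq_mul, ZMod.natCast_self, zero_mul]))
      have hj1 : 1 ≤ j := by
        by_contra hj0
        rw [show j = 0 by omega, pow_zero, AddMonoid.addOrderOf_eq_one_iff] at hjd
        exact hw0 hjd
      have hw' : p ^ (j - 1) • w ≠ 0 :=
        nsmul_ne_zero_of_lt_addOrderOf (pow_ne_zero _ hp.ne_zero)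
          (hjd ▸ Nat.pow_lt_pow_right hp.one_lt (by omega))
      refine mem_subgroup_of_killed hp hnq (S.nsmul_mem hw (p ^ (j - 1))) hw' ?_ ?_
      · rw [← mul_nsmul', ← pow_succ', Nat.sub_add_cancel hj1, ← hjd, addOrderOf_nsmul_eq_zero]
      · rw [nsmul_eq_mul, ← Nat.cast_mul, ← hnq, ZMod.natCast_self]
    obtain ⟨x, hx⟩ : ∃ x, x ∉ S := by
      by_contra hc
      push Not at hc
      exact hSt (eq_top_iff.2 fun x _ => hc x)
    obtain ⟨⟨f, hf⟩, hfx⟩ := htc.exists_smul_eq (φ 0) (φ x)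
    have h1 := Subgroup.normalClosure_le_normal (N := N) (Set.singleton_subset_iff.2 hgN) hf 0 x hfx
    rw [sub_zero] at h1
    exact hx h1

end Cfsg.Agent.FGS2.CyclicRegular
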