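import Cfsg.Agent.FGS2.SchurTools

/-! The dicyclic group as a stem extension of the dihedral group. -/

namespace Cfsg.Agent.FGS2

open Subgroup
open scoped commutatorElement

variable (n : ℕ)

/-- Reduction mod `n`. -/
def quatCast : ZMod (2 * n) →+* ZMod n := ZMod.castHom (dvd_mul_left n 2) (ZMod n)

/-- The projection of the dicyclic group onto the dihedral group. -/
def quatToDih : QuaternionGroup n →* DihedralGroup n :=
  MonoidHom.mk' (fun
    | .a i => .r (quatCast n i)
    | .xa i => .sr (quatCast n i)) (by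
    rintro (i | i) (j | j) <;>
      simp [QuaternionGroup.a_mul_a, QuaternionGroup.a_mul_xa, QuaternionGroup.xa_mul_a,
        QuaternionGroup.xa_mul_xa, DihedralGroup.r_mul_r, DihedralGroup.r_mul_sr,
        DihedralGroup.sr_mul_r, DihedralGroup.sr_mul_sr, map_add, map_sub])

theorem quatToDih_surjective : Function.Surjective (quatToDih n) := by
  rintro (i | i) <;> obtain ⟨j, rfl⟩ := ZMod.castHom_surjective (dvd_mul_left n 2) i
  · exact ⟨QuaternionGroup.a j, rfl⟩
  · exact ⟨QuaternionGroup.xa j, rfl⟩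

theorem quatToDih_ker [NeZero n] :
    (quatToDih n).ker = zpowers (QuaternionGroup.a (n : ZMod (2 * n))) := by
  apply le_antisymm
  · rintro (i | i) h
    · have h0 : quatCast n i = 0 := DihedralGroup.r.inj (h.trans DihedralGroup.r_zero.symm)
      have h1 : quatCast n ((i.val : ℕ) : ZMod (2 * n)) = 0 := by rw [ZMod.natCast_zmod_val]; exact h0
      rw [map_natCast, ZMod.natCast_eq_zero_iff] at h1
      obtain ⟨k, hk⟩ := h1
      refine Subgroup.mem_zpowers_iff.2 ⟨k, ?_⟩
      rw [zpow_natCast, ← QuaternionGroup.a_one_pow, ← pow_mul, QuaternionGroup.a_one_pow, ← hk,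
        ZMod.natCast_zmod_val]
    · have h1 : DihedralGroup.sr (quatCast n i) = DihedralGroup.r 0 := h.trans DihedralGroup.one_def
      simp [DihedralGroup.one_def, -DihedralGroup.r_zero] at h1
  · rw [zpowers_le, MonoidHom.mem_ker]
    show DihedralGroup.r (quatCast n (n : ZMod (2 * n))) = 1
    simp

theorem orderOf_a_n [NeZero n] : orderOf (QuaternionGroup.a (n : ZMod (2 * n))) = 2 := by
  have hn : 0 < n := Nat.pos_of_ne_zero (NeZero.ne n)
  rw [← QuaternionGroup.a_one_pow, orderOf_pow' _ hn.ne', QuaternionGroup.orderOf_a_one,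
    Nat.gcd_eq_right (dvd_mul_left n 2), Nat.mul_div_cancel _ hn]

theorem card_quatToDih_ker [NeZero n] : Nat.card (quatToDih n).ker = 2 := by
  rw [quatToDih_ker, Nat.card_zpowers, orderOf_a_n]

theorem quatToDih_stem [NeZero n] (hn : Even n) : Cfsg.IsStemExtension (quatToDih n) := by
  refine ⟨quatToDih_surjective n, ?_, ?_⟩ <;> rw [quatToDih_ker, zpowers_le]
  · rw [mem_center_iff]
    rintro (i | i)
    · simp [QuaternionGroup.a_mul_a, add_comm]
    · have h2 : (n : ZMod (2 * n)) + n = 0 := by
        rw [← Nat.cast_add, ← two_mul, ZMod.natCast_self]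
      simp [QuaternionGroup.a_mul_xa, QuaternionGroup.xa_mul_a, eq_sub_iff_add_eq, add_assoc, h2]
  · obtain ⟨k, hk⟩ := hn
    have h : QuaternionGroup.a (n : ZMod (2 * n)) =
        ⁅QuaternionGroup.a ((k : ℕ) : ZMod (2 * n)), QuaternionGroup.xa 0⁆ := by
      rw [commutatorElement_def, eq_mul_inv_iff_mul_eq, eq_mul_inv_iff_mul_eq]
      simp [QuaternionGroup.a_mul_xa, QuaternionGroup.xa_mul_a, QuaternionGroup.a_mul_a]
      have h2 : ((k + k : ℕ) : ZMod (2 * n)) + ((k + k : ℕ) : ZMod (2 * n)) = 0 := by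
        rw [← hk, ← Nat.cast_add, ← two_mul, ZMod.natCast_self]
      subst hk
      push_cast at *
      ring
    rw [h]
    exact commutator_mem_commutator (mem_top _) (mem_top _)

end Cfsg.Agent.FGS2
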