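import Mathlib

/-! Extending homomorphisms into divisible abelian groups. -/

namespace Cfsg.Agent.FGS2

open scoped IsMulCommutative

theorem exists_extension_divisible {A B D : Type*} [CommGroup A] [CommGroup B] [CommGroup D]
    (hdiv : ∀ n : ℕ, 0 < n → Function.Surjective (fun x : D => x ^ n))
    (i : A →* B) (hi : Function.Injective i) (f : A →* D) : ∃ g : B →* D, g.comp i = f := by
  let _inst : DivisibleBy (Additive D) ℤ := divisibleByOfSMulRightSurj _ _ (by
    intro n hn x
    obtain ⟨y, hy⟩ := hdiv n.natAbs (Int.natAbs_pos.2 hn) (Additive.toMul x)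
    rcases Int.natAbs_eq n with h | h
    · refine ⟨Additive.ofMul y, ?_⟩
      show n • Additive.ofMul y = x
      rw [← ofMul_zpow, h, zpow_natCast]
      exact congrArg Additive.ofMul hy
    · refine ⟨Additive.ofMul y⁻¹, ?_⟩
      show n • Additive.ofMul y⁻¹ = x
      rw [← ofMul_zpow, h, zpow_neg, inv_zpow, inv_inv, zpow_natCast]
      exact congrArg Additive.ofMul hy)
  obtain ⟨g, hg⟩ := Module.Baer.extension_property_addMonoidHom (Module.Baer.of_divisible (Additive D))
    (MonoidHom.toAdditive i) hi (MonoidHom.toAdditive f)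
  refine ⟨MonoidHom.toAdditive.symm g, ?_⟩
  ext a
  exact congrArg Additive.toMul (DFunLike.congr_fun hg (Additive.ofMul a))

theorem complex_units_pow_surjective (n : ℕ) (hn : 0 < n) :
    Function.Surjective (fun x : ℂˣ => x ^ n) := fun x => by
  obtain ⟨z, hz⟩ := IsAlgClosed.exists_pow_nat_eq (x : ℂ) hn
  have hz0 : z ≠ 0 := fun h => x.ne_zero (by rw [← hz, h, zero_pow hn.ne'])
  exact ⟨Units.mk0 z hz0, Units.ext (by simpa using hz)⟩

end Cfsg.Agent.FGS2
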