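import Cfsg.Agent.FGS2.FrobSolutions
import Mathlib.Tactic

/-! The number of elements of order divisible by `n`. -/

set_option autoImplicit false

namespace Cfsg.Agent.FGS2

universe v

variable {G : Type v} [Group G] [Finite G]

/-- Inclusion–exclusion over a finite set of primes. -/
theorem dvd_count_order_div (d : ℕ) (a : ℕ → ℕ) (S : Finset ℕ) :
    (∀ q ∈ S, q.Prime ∧ ¬ q ∣ d ∧ 1 ≤ a q) → ∀ M : ℕ, M ∣ Nat.card G → d ∣ M →
      d ∣ Nat.card {g : G // g ^ M = 1 ∧ ∀ q ∈ S, q ^ a q ∣ orderOf g} := by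
  classical
  induction S using Finset.induction_on with
  | empty =>
    intro _ M hM hd
    rw [Nat.card_congr (Equiv.subtypeEquivRight (p := fun g : G => g ^ M = 1 ∧ ∀ q ∈ (∅ : Finset ℕ), q ^ a q ∣ orderOf g)
      (q := fun g : G => g ^ M = 1) fun g => by simp)]
    exact hd.trans (frobenius_solutions (Nat.card G) rfl M hM)
  | insert q S hqS ih =>
    intro hS M hM hd
    have hS' : ∀ r ∈ S, r.Prime ∧ ¬ r ∣ d ∧ 1 ≤ a r := fun r hr => hS r (Finset.mem_insert_of_mem hr)
    obtain ⟨hq, hqd, ha⟩ := hS q (Finset.mem_insert_self q S)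
    have hM0 : M ≠ 0 := fun h => Nat.card_pos.ne' (Nat.eq_zero_of_zero_dvd (h ▸ hM))
    obtain ⟨e, r, hr, hMe⟩ := Nat.exists_eq_pow_mul_and_not_dvd hM0 q hq.ne_one
    set M' := q ^ min e (a q - 1) * r with hM'
    have hM'M : M' ∣ M := by
      rw [hM', hMe]; exact mul_dvd_mul_right (pow_dvd_pow q (min_le_left _ _)) r
    have hdM' : d ∣ M' := by
      refine Dvd.dvd.mul_left ?_ _
      exact ((Nat.Prime.coprime_iff_not_dvd hq).2 hqd).symm.pow_right e |>.dvd_of_dvd_mul_left (hMe ▸ hd)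
    have hiff : ∀ g : G, g ^ M = 1 → (¬ q ^ a q ∣ orderOf g ↔ g ^ M' = 1) := by
      intro g hg
      rw [← orderOf_dvd_iff_pow_eq_one] at hg ⊢
      constructor
      · intro hn
        obtain ⟨f, o, hno, hoe⟩ := Nat.exists_eq_pow_mul_and_not_dvd (orderOf_pos g).ne' q hq.ne_one
        have hfa : f ≤ a q - 1 := by
          by_contra hh
          exact hn (hoe ▸ (pow_dvd_pow q (by omega)).mul_right o)
        rw [hoe] at hg ⊢
        have h1 : o ∣ r := ((Nat.Prime.coprime_iff_not_dvd hq).2 hno).symm.pow_right e |>.dvd_of_dvd_mul_left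
          (hMe ▸ dvd_of_mul_left_dvd hg)
        have h2 : q ^ f ∣ q ^ e := ((Nat.Prime.coprime_iff_not_dvd hq).2 hr).pow_left f |>.dvd_of_dvd_mul_right
          (hMe ▸ dvd_of_mul_right_dvd hg)
        rw [Nat.pow_dvd_pow_iff_le_right hq.one_lt] at h2
        exact mul_dvd_mul (pow_dvd_pow q (le_min h2 hfa)) h1
      · intro h1 h2
        have h3 := h2.trans h1
        have h4 := ((Nat.Prime.coprime_iff_not_dvd hq).2 hr).pow_left (a q) |>.dvd_of_dvd_mul_right h3
        rw [Nat.pow_dvd_pow_iff_le_right hq.one_lt] at h4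
        have := min_le_right e (a q - 1)
        omega
    have hsplit : Nat.card {g : G // g ^ M = 1 ∧ ∀ r ∈ S, r ^ a r ∣ orderOf g} =
        Nat.card {g : G // g ^ M = 1 ∧ ∀ r ∈ insert q S, r ^ a r ∣ orderOf g} +
        Nat.card {g : G // g ^ M' = 1 ∧ ∀ r ∈ S, r ^ a r ∣ orderOf g} := by
      have : Fintype G := Fintype.ofFinite G
      rw [Nat.card_eq_fintype_card, Nat.card_eq_fintype_card, Nat.card_eq_fintype_card,
        Fintype.card_subtype, Fintype.card_subtype, Fintype.card_subtype,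
        ← Finset.card_filter_add_card_filter_not
          (s := Finset.univ.filter fun g : G => g ^ M = 1 ∧ ∀ r ∈ S, r ^ a r ∣ orderOf g)
          (fun g => q ^ a q ∣ orderOf g), Finset.filter_filter, Finset.filter_filter]
      congr 2 <;> ext g <;> simp only [Finset.mem_filter, Finset.mem_univ, true_and, Finset.forall_mem_insert]
      · tauto
      · constructor
        · rintro ⟨⟨h1, h2⟩, h3⟩
          exact ⟨(hiff g h1).1 h3, h2⟩
        · rintro ⟨h1, h2⟩
          have hgM : g ^ M = 1 := orderOf_dvd_iff_pow_eq_one.1 ((orderOf_dvd_of_pow_eq_one h1).trans hM'M)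
          exact ⟨⟨hgM, h2⟩, (hiff g hgM).2 h1⟩
    have hA := ih hS' M hM hd
    have hB := ih hS' M' (hM'M.trans hM) hdM'
    rw [hsplit] at hA
    exact (Nat.dvd_add_left hB).1 hA

theorem order_divisible_count (n : ℕ) (hn : 0 < n) :
    Nat.card {g : G // n ∣ orderOf g} = 0 ∨
      (Nat.card G / Nat.gcd (Nat.card G) (n ^ Nat.card G)) ∣ Nat.card {g : G // n ∣ orderOf g} := by
  classical
  refine Or.inr ?_
  set N := Nat.card G with hN
  have hN0 : N ≠ 0 := Nat.card_pos.ne'
  set c := Nat.gcd N (n ^ N)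
  have hc : c ∣ N := Nat.gcd_dvd_left _ _
  have hcop : ∀ q ∈ n.primeFactors, ¬ q ∣ N / c := by
    intro q hq hqd
    have hqp := Nat.prime_of_mem_primeFactors hq
    obtain ⟨e, r, hr, hNe⟩ := Nat.exists_eq_pow_mul_and_not_dvd hN0 q hqp.ne_one
    have heN : e ≤ N := by
      have h1 : e < q ^ e := Nat.lt_pow_self hqp.one_lt
      have h2 : q ^ e ≤ N := Nat.le_of_dvd (Nat.pos_of_ne_zero hN0) (hNe ▸ dvd_mul_right _ _)
      omega
    have h2 : q ^ e ∣ c := Nat.dvd_gcd (hNe ▸ dvd_mul_right _ _)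
      ((pow_dvd_pow q heN).trans (pow_dvd_pow_of_dvd (Nat.dvd_of_mem_primeFactors hq) N))
    obtain ⟨t, ht⟩ := h2
    apply hr
    have h3 : N = c * (N / c) := (Nat.mul_div_cancel' hc).symm
    obtain ⟨u, hu⟩ := hqd
    refine ⟨t * u, Nat.eq_of_mul_eq_mul_left (pow_pos hqp.pos e) ?_⟩
    rw [← hNe, h3, hu, ht]
    ring
  have key := dvd_count_order_div (G := G) (N / c) (fun q => n.factorization q) n.primeFactors
    (fun q hq => ⟨Nat.prime_of_mem_primeFactors hq, hcop q hq,
      (Nat.prime_of_mem_primeFactors hq).factorization_pos_of_dvd hn.ne' (Nat.dvd_of_mem_primeFactors hq)⟩)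
    N dvd_rfl (Nat.div_dvd_of_dvd hc)
  refine key.trans (dvd_of_eq (Nat.card_congr (Equiv.subtypeEquivRight fun g => ?_)))
  simp only [hN, pow_card_eq_one', true_and]
  constructor
  · intro h
    rw [← Nat.factorization_le_iff_dvd hn.ne' (orderOf_pos g).ne']
    intro q
    by_cases hq : q ∈ n.primeFactors
    · exact ((Nat.prime_of_mem_primeFactors hq).pow_dvd_iff_le_factorization (orderOf_pos g).ne').1 (h q hq)
    · rw [← Nat.support_factorization, Finsupp.notMem_support_iff] at hq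
      rw [hq]; exact Nat.zero_le _
  · exact fun h q _ => (Nat.ordProj_dvd n q).trans h

end Cfsg.Agent.FGS2
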