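import Mathlib.GroupTheory.Sylow
import Mathlib.GroupTheory.GroupAction.ConjAct
import Mathlib.GroupTheory.GroupAction.Quotient
import Mathlib.GroupTheory.SpecificGroups.Cyclic
import Mathlib.Tactic

/-! Frobenius' theorem on the number of solutions of `g ^ m = 1`. -/

set_option autoImplicit false

namespace Cfsg.Agent.FGS2

open Subgroup

universe v

theorem frobenius_pow_part {G : Type v} [Group G] [Finite G] {p b r : ℕ} (hp : p.Prime) (hr : ¬ p ∣ r) :
    p ^ b ∣ Nat.card {g : G // g ^ (p ^ (b + 1) * r) = 1 ∧ g ^ (p ^ b * r) ≠ 1} := by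
  classical
  have : Fintype G := Fintype.ofFinite G
  let A := Finset.univ.filter fun g : G => g ^ (p ^ (b + 1) * r) = 1 ∧ g ^ (p ^ b * r) ≠ 1
  have hA : Nat.card {g : G // g ^ (p ^ (b + 1) * r) = 1 ∧ g ^ (p ^ b * r) ≠ 1} = A.card := by
    rw [Nat.card_eq_fintype_card, Fintype.card_subtype]
  rw [hA, Finset.card_eq_sum_card_image (fun g => zpowers g) A]
  refine Finset.dvd_sum fun C hC => ?_
  obtain ⟨g, hg, rfl⟩ := Finset.mem_image.1 hC
  simp only [A, Finset.mem_filter, Finset.mem_univ, true_and] at hg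
  have hiff : ∀ x : G, x ∈ A.filter (fun x => zpowers x = zpowers g) ↔
      x ∈ zpowers g ∧ orderOf x = orderOf g := by
    intro x
    simp only [A, Finset.mem_filter, Finset.mem_univ, true_and]
    constructor
    · rintro ⟨-, hx⟩
      exact ⟨hx ▸ mem_zpowers x, by rw [← Nat.card_zpowers, hx, Nat.card_zpowers]⟩
    · rintro ⟨hx, hxo⟩
      refine ⟨⟨?_, ?_⟩, eq_of_le_of_card_ge (zpowers_le.2 hx) (by rw [Nat.card_zpowers, Nat.card_zpowers, hxo])⟩
      · rw [← orderOf_dvd_iff_pow_eq_one, hxo, orderOf_dvd_iff_pow_eq_one]; exact hg.1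
      · rw [Ne, ← orderOf_dvd_iff_pow_eq_one, hxo, orderOf_dvd_iff_pow_eq_one]; exact hg.2
  have hcard : (A.filter (fun x => zpowers x = zpowers g)).card = (orderOf g).totient := by
    rw [← IsCyclic.card_orderOf_eq_totient (α := zpowers g) (d := orderOf g)
      (by rw [← Nat.card_eq_fintype_card, Nat.card_zpowers]), ← Fintype.card_subtype, ← Fintype.card_coe]
    refine Fintype.card_congr
      ⟨fun x => ⟨⟨x.1, ((hiff x.1).1 x.2).1⟩, ?_⟩, fun y => ⟨y.1.1, (hiff _).2 ⟨y.1.2, ?_⟩⟩,
        fun x => rfl, fun y => rfl⟩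
    · rw [orderOf_mk]; exact ((hiff x.1).1 x.2).2
    · rw [orderOf_coe]; exact y.2
  rw [hcard]
  have hdvd : p ^ (b + 1) ∣ orderOf g := by
    by_contra hcon
    apply hg.2
    rw [← orderOf_dvd_iff_pow_eq_one]
    have h1 := orderOf_dvd_of_pow_eq_one hg.1
    obtain ⟨e, o, hno, hoe⟩ := Nat.exists_eq_pow_mul_and_not_dvd (orderOf_pos g).ne' p hp.ne_one
    have heb : e ≤ b := by
      by_contra hh
      exact hcon (hoe ▸ (pow_dvd_pow p (by omega)).mul_right o)
    rw [hoe] at h1 ⊢
    refine mul_dvd_mul (pow_dvd_pow p heb) ?_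
    exact (Nat.Coprime.pow_right (b + 1) ((Nat.Prime.coprime_iff_not_dvd hp).2 hno).symm).dvd_of_dvd_mul_left
      (dvd_of_mul_left_dvd h1)
  refine dvd_trans ?_ (Nat.totient_dvd_of_dvd hdvd)
  rw [Nat.totient_prime_pow_succ hp]
  exact dvd_mul_right _ _

theorem frobenius_class_sum {G : Type v} [Group G] [Finite G] {q r : ℕ} (hcop : q.Coprime r)
    (hr : r ∣ Nat.card G)
    (hcent : ∀ u : G, orderOf u = q → ∃ c, Nat.card (centralizer ({u} : Set G)) = q * c ∧
      r.gcd c ∣ Nat.card {v : G // v ∈ centralizer ({u} : Set G) ∧ v ^ r = 1}) :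
    r ∣ Nat.card (Σ u : {u : G // orderOf u = q}, {v : G // v ∈ centralizer ({(u : G)} : Set G) ∧ v ^ r = 1}) := by
  classical
  have : Fintype G := Fintype.ofFinite G
  let f : G → ℕ := fun u => Nat.card {v : G // v ∈ centralizer ({u} : Set G) ∧ v ^ r = 1}
  have hconj : ∀ g u : G, f (g * u * g⁻¹) = f u := by
    intro g u
    refine (Nat.card_congr ((MulAut.conj g).toEquiv.subtypeEquiv fun v => ?_)).symm
    simp only [mem_centralizer_singleton_iff, MulEquiv.toEquiv_eq_coe, EquivLike.coe_coe,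
      MulAut.conj_apply, conj_pow]
    constructor
    · rintro ⟨h1, h2⟩
      refine ⟨?_, by rw [h2]; group⟩
      calc g * v * g⁻¹ * (g * u * g⁻¹) = g * (v * u) * g⁻¹ := by group
        _ = g * (u * v) * g⁻¹ := by rw [h1]
        _ = _ := by group
    · rintro ⟨h1, h2⟩
      refine ⟨?_, ?_⟩
      · calc v * u = g⁻¹ * (g * v * g⁻¹ * (g * u * g⁻¹)) * g := by group
          _ = g⁻¹ * (g * u * g⁻¹ * (g * v * g⁻¹)) * g := by rw [h1]
          _ = _ := by group
      · calc v ^ r = g⁻¹ * (g * v ^ r * g⁻¹) * g := by group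
          _ = _ := by rw [h2]; group
  let U := Finset.univ.filter fun u : G => orderOf u = q
  have hsum : Nat.card (Σ u : {u : G // orderOf u = q}, {v : G // v ∈ centralizer ({(u : G)} : Set G) ∧ v ^ r = 1})
      = ∑ u ∈ U, f u := by
    rw [Nat.card_sigma, Finset.sum_subtype U (p := fun u => orderOf u = q) (by simp [U])]
  rw [hsum, ← Finset.sum_fiberwise_of_maps_to (t := U.image ConjClasses.mk) (g := ConjClasses.mk)
    (fun u hu => Finset.mem_image_of_mem _ hu)]
  refine Finset.dvd_sum fun K hK => ?_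
  obtain ⟨u, hu, rfl⟩ := Finset.mem_image.1 hK
  simp only [U, Finset.mem_filter, Finset.mem_univ, true_and] at hu
  obtain ⟨c, hc, hd⟩ := hcent u hu
  have hfil : U.filter (fun w => ConjClasses.mk w = ConjClasses.mk u) =
      Finset.univ.filter (fun w => w ∈ MulAction.orbit (ConjAct G) u) := by
    ext w
    simp only [U, Finset.mem_filter, Finset.mem_univ, true_and, ConjAct.mem_orbit_conjAct,
      ConjClasses.mk_eq_mk_iff_isConj]
    refine ⟨fun h => h.2, fun h => ⟨?_, h⟩⟩
    obtain ⟨g, hg⟩ := isConj_iff.1 h.symm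
    rw [← hg, ← MulAut.conj_apply, MulEquiv.orderOf_eq, hu]
  rw [hfil, Finset.sum_congr rfl (g := fun _ => f u) (fun w hw => by
    obtain ⟨g, hg⟩ := isConj_iff.1 (ConjAct.mem_orbit_conjAct.1 (Finset.mem_filter.1 hw).2).symm
    rw [← hg, hconj]), Finset.sum_const, smul_eq_mul, ← Fintype.card_subtype, ← Nat.card_eq_fintype_card]
  have hidx : Nat.card {w // w ∈ MulAction.orbit (ConjAct G) u} = (centralizer ({u} : Set G)).index := by
    let φ : G →* ConjAct G := (ConjAct.toConjAct (G := G)).toMonoidHom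
    have hst : centralizer ({u} : Set G) =
        Subgroup.comap (G := G) φ (MulAction.stabilizer (ConjAct G) u) := by
      ext g
      rw [Subgroup.mem_comap, MulAction.mem_stabilizer_iff, mem_centralizer_singleton_iff]
      show _ ↔ g * u * g⁻¹ = u
      exact mul_inv_eq_iff_eq_mul.symm
    rw [hst, Subgroup.index_comap_of_surjective (f := φ) _ ConjAct.toConjAct.surjective,
      index_eq_card]
    exact Nat.card_congr (MulAction.orbitEquivQuotientStabilizer (ConjAct G) u)
  rw [hidx]
  refine dvd_trans ?_ (mul_dvd_mul_left _ hd)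
  have h1 := (centralizer ({u} : Set G)).card_mul_index
  rw [hc] at h1
  have h2 : r ∣ (centralizer ({u} : Set G)).index * c := by
    refine hcop.symm.dvd_of_dvd_mul_left ?_
    rw [← mul_assoc, mul_comm q, mul_assoc, mul_comm _ (q * c), h1]
    exact hr
  rw [← Nat.gcd_mul_left]
  exact Nat.dvd_gcd (dvd_mul_left _ _) h2

theorem frobenius_solutions (n : ℕ) : ∀ {G : Type v} [Group G] [Finite G], Nat.card G = n →
    ∀ m, m ∣ n → m ∣ Nat.card {g : G // g ^ m = 1} := by
  induction n using Nat.strong_induction_on with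
  | _ n ihn =>
    intro G _ _ hG
    suffices H : ∀ k m, k * m = n → m ∣ Nat.card {g : G // g ^ m = 1} by
      intro m hm; exact H (n / m) m (Nat.div_mul_cancel hm)
    intro k
    induction k using Nat.strong_induction_on with
    | _ k ihk =>
      intro m hkm
      have hn : 0 < n := hG ▸ Nat.card_pos
      have hk0 : k ≠ 0 := by rintro rfl; simp at hkm; omega
      have hm0 : m ≠ 0 := by rintro rfl; simp at hkm; omega
      rcases eq_or_ne k 1 with rfl | hk1
      · rw [one_mul] at hkm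
        subst hkm
        rw [Nat.card_congr (Equiv.subtypeUnivEquiv fun g => by rw [← hG]; exact pow_card_eq_one'), hG]
      obtain ⟨p, hp, j, rfl⟩ : ∃ p, p.Prime ∧ p ∣ k := Nat.exists_prime_and_dvd hk1
      have hj : j ≠ 0 := by rintro rfl; simp at hk0
      have hbig := ihk j (lt_mul_left (Nat.pos_of_ne_zero hj) hp.one_lt) (p * m) (by rw [← hkm]; ring)
      obtain ⟨b, r, hnr, rfl⟩ := Nat.exists_eq_pow_mul_and_not_dvd hm0 p hp.ne_one
      have hr0 : r ≠ 0 := by rintro rfl; simp at hnr
      rw [show p * (p ^ b * r) = p ^ (b + 1) * r by ring] at hbig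
      have hsplit : Nat.card {g : G // g ^ (p ^ (b + 1) * r) = 1} = Nat.card {g : G // g ^ (p ^ b * r) = 1}
          + Nat.card {g : G // g ^ (p ^ (b + 1) * r) = 1 ∧ g ^ (p ^ b * r) ≠ 1} := by
        classical
        have : Fintype G := Fintype.ofFinite G
        rw [Nat.card_eq_fintype_card, Nat.card_eq_fintype_card, Nat.card_eq_fintype_card,
          Fintype.card_subtype, Fintype.card_subtype, Fintype.card_subtype,
          ← Finset.card_filter_add_card_filter_not (s := Finset.univ.filter fun g : G => g ^ (p ^ (b + 1) * r) = 1)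
            (fun g => g ^ (p ^ b * r) = 1), Finset.filter_filter, Finset.filter_filter]
        congr 2
        ext g
        simp only [Finset.mem_filter, Finset.mem_univ, true_and]
        exact ⟨fun h => h.2, fun h => ⟨by rw [pow_succ, mul_comm (p ^ b) p, mul_assoc, mul_comm, pow_mul, h, one_pow], h⟩⟩
      have hdm : p ^ b * r ∣ p ^ (b + 1) * r := mul_dvd_mul_right (pow_dvd_pow p b.le_succ) r
      have hrn : r ∣ Nat.card G := by rw [hG, ← hkm, ← mul_assoc]; exact dvd_mul_left _ _
      suffices hA : p ^ b * r ∣ Nat.card {g : G // g ^ (p ^ (b + 1) * r) = 1 ∧ g ^ (p ^ b * r) ≠ 1} by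
        exact (Nat.dvd_add_left hA).1 (hsplit ▸ hdm.trans hbig)
      refine Nat.Coprime.mul_dvd_of_dvd_of_dvd (((Nat.Prime.coprime_iff_not_dvd hp).2 hnr).pow_left b)
        (frobenius_pow_part hp hnr) ?_
      set q := p ^ (b + 1) with hq
      have hcop : q.Coprime r := ((Nat.Prime.coprime_iff_not_dvd hp).2 hnr).pow_left _
      obtain ⟨e, he1, he0⟩ := Nat.chineseRemainder hcop 1 0
      obtain ⟨f, hf0, hf1⟩ := Nat.chineseRemainder hcop 0 1
      have hre : r ∣ e := Nat.modEq_zero_iff_dvd.1 he0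
      have hqf : q ∣ f := Nat.modEq_zero_iff_dvd.1 hf0
      have hpe : ∀ (x : G) (a c d : ℕ), x ^ a = 1 → c ≡ d [MOD a] → x ^ c = x ^ d := fun x a c d hx h =>
        pow_eq_pow_iff_modEq.2 (h.of_dvd (orderOf_dvd_of_pow_eq_one hx))
      have hqe : ∀ u : G, orderOf u = q → u ^ e = u := fun u hu => by
        rw [hpe u q e 1 (hu ▸ pow_orderOf_eq_one u) he1, pow_one]
      have hrf : ∀ v : G, v ^ r = 1 → v ^ f = v := fun v hv => by rw [hpe v r f 1 hv hf1, pow_one]
      let Φ : {g : G // g ^ (q * r) = 1 ∧ g ^ (p ^ b * r) ≠ 1} ≃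
          Σ u : {u : G // orderOf u = q}, {v : G // v ∈ centralizer ({(u : G)} : Set G) ∧ v ^ r = 1} :=
        { toFun := fun g => ⟨⟨g.1 ^ e, by
            have h1 : (g.1 ^ e) ^ q = 1 := by
              obtain ⟨d, hd⟩ := hre
              rw [← pow_mul, hd, show r * d * q = q * r * d by ring, pow_mul, g.2.1, one_pow]
            have : Fact p.Prime := ⟨hp⟩
            refine orderOf_eq_prime_pow (fun h => g.2.2 ?_) h1
            have h2 : g.1 ^ (e * p ^ b * r) = g.1 ^ (p ^ b * r) := by
              refine hpe _ _ _ _ g.2.1 ?_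
              have h3 : e * p ^ b ≡ p ^ b [MOD q] := by simpa using he1.mul_right (p ^ b)
              exact h3.mul_right' r
            rw [← h2, pow_mul, pow_mul, h, one_pow]⟩,
            ⟨g.1 ^ f, mem_centralizer_singleton_iff.2 ((Commute.refl g.1).pow_pow f e).eq, by
              obtain ⟨d, hd⟩ := hqf
              rw [← pow_mul, hd, show q * d * r = q * r * d by ring, pow_mul, g.2.1, one_pow]⟩⟩
          invFun := fun z => ⟨z.1.1 * z.2.1, by
            have hc : Commute z.1.1 z.2.1 := (mem_centralizer_singleton_iff.1 z.2.2.1).symm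
            have hu : z.1.1 ^ q = 1 := by
              have := pow_orderOf_eq_one z.1.1
              rwa [z.1.2] at this
            constructor
            · rw [hc.mul_pow, pow_mul, hu, one_pow, mul_comm, pow_mul, z.2.2.2, one_pow, one_mul]
            · rw [hc.mul_pow, mul_comm (p ^ b), pow_mul z.2.1, z.2.2.2, one_pow, mul_one, Ne,
                ← orderOf_dvd_iff_pow_eq_one, z.1.2]
              intro h
              have := hcop.dvd_of_dvd_mul_left h
              rw [hq, Nat.pow_dvd_pow_iff_le_right hp.one_lt] at this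
              omega⟩
          left_inv := fun g => by
            refine Subtype.ext ?_
            show g.1 ^ e * g.1 ^ f = g.1
            conv_rhs => rw [← pow_one g.1]
            rw [← pow_add]
            refine hpe _ _ _ _ g.2.1 ((Nat.modEq_and_modEq_iff_modEq_mul hcop).1 ⟨?_, ?_⟩)
            · simpa using he1.add hf0
            · simpa using he0.add hf1
          right_inv := fun ⟨⟨u, hu⟩, ⟨v, hv, hvr⟩⟩ => by
            have hc : Commute u v := (mem_centralizer_singleton_iff.1 hv).symm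
            have hve : v ^ e = 1 := by obtain ⟨d, hd⟩ := hre; rw [hd, pow_mul, hvr, one_pow]
            have huf : u ^ f = 1 := by
              obtain ⟨d, hd⟩ := hqf; rw [hd, pow_mul, ← hu, pow_orderOf_eq_one, one_pow]
            have h1 : (u * v) ^ e = u := by rw [hc.mul_pow, hqe u hu, hve, mul_one]
            have h2 : (u * v) ^ f = v := by rw [hc.mul_pow, huf, hrf v hvr, one_mul]
            refine Sigma.subtype_ext (Subtype.ext h1) h2 }
      rw [Nat.card_congr Φ]
      refine frobenius_class_sum hcop hrn fun u hu => ?_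
      set C := centralizer ({u} : Set G)
      have huC : u ∈ C := mem_centralizer_singleton_iff.2 rfl
      let Z : Subgroup C := zpowers ⟨u, huC⟩
      have hZc : ∀ z ∈ Z, ∀ c : C, Commute z c := by
        rintro z hz c
        obtain ⟨i, rfl⟩ := mem_zpowers_iff.1 hz
        have h1 : Commute (⟨u, huC⟩ : C) c := Subtype.ext (mem_centralizer_singleton_iff.1 c.2).symm
        exact h1.zpow_left i
      have hZn : Z.Normal := ⟨fun z hz c => by rw [← (hZc z hz c).eq, mul_inv_cancel_right]; exact hz⟩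
      have hZ : Nat.card Z = q := by rw [Nat.card_zpowers, orderOf_mk, hu]
      have hcard := Z.card_mul_index
      rw [hZ, index_eq_card] at hcard
      refine ⟨Nat.card (C ⧸ Z), hcard.symm, ?_⟩
      have hlt : Nat.card (C ⧸ Z) < n := by
        refine lt_of_lt_of_le ?_ (hG ▸ C.card_le_card_group)
        rw [← hcard]
        exact lt_mul_left Nat.card_pos (Nat.one_lt_pow (by omega) hp.one_lt)
      have ih := ihn _ hlt (G := C ⧸ Z) rfl (r.gcd (Nat.card (C ⧸ Z))) (Nat.gcd_dvd_right _ _)
      refine ih.trans (dvd_of_eq ?_)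
      refine (Nat.card_congr (Equiv.ofBijective
        (fun v : {v : G // v ∈ C ∧ v ^ r = 1} =>
          (⟨((⟨v.1, v.2.1⟩ : C) : C ⧸ Z), by
            rw [pow_gcd_eq_one, pow_card_eq_one', ← QuotientGroup.mk_pow]
            exact ⟨by rw [show (⟨v.1, v.2.1⟩ : C) ^ r = 1 from Subtype.ext v.2.2, QuotientGroup.mk_one], rfl⟩⟩ :
            {z : C ⧸ Z // z ^ (r.gcd (Nat.card (C ⧸ Z))) = 1})) ⟨?_, ?_⟩)).symm
      · rintro ⟨v, hv, hvr⟩ ⟨w, hw, hwr⟩ hvw
        have h1 := QuotientGroup.eq.1 (congrArg Subtype.val hvw)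
        have hc := hZc _ h1 ⟨v, hv⟩
        have h2 : ((⟨v, hv⟩ : C)⁻¹ * ⟨w, hw⟩) ^ r = 1 := by
          have hc' : Commute (⟨v, hv⟩ : C)⁻¹ ⟨w, hw⟩ := by
            have := hc.inv_right
            have h3 : Commute (⟨v, hv⟩ : C)⁻¹ (⟨v, hv⟩ * ((⟨v, hv⟩ : C)⁻¹ * ⟨w, hw⟩)) :=
              Commute.mul_right ((Commute.refl _).inv_left) this.symm
            rwa [mul_inv_cancel_left] at h3
          rw [hc'.mul_pow, inv_pow, show (⟨v, hv⟩ : C) ^ r = 1 from Subtype.ext hvr,
            show (⟨w, hw⟩ : C) ^ r = 1 from Subtype.ext hwr, inv_one, one_mul]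
        have h4 : ((⟨v, hv⟩ : C)⁻¹ * ⟨w, hw⟩) = 1 := by
          have h5 : ((⟨v, hv⟩ : C)⁻¹ * ⟨w, hw⟩) ^ q = 1 := by
            have := congrArg Subtype.val (pow_card_eq_one' (G := Z) (x := ⟨_, h1⟩))
            rwa [hZ] at this
          rw [← pow_one ((⟨v, hv⟩ : C)⁻¹ * ⟨w, hw⟩), ← hcop.gcd_eq_one]
          exact pow_gcd_eq_one.2 ⟨h5, h2⟩
        have h6 := inv_mul_eq_one.1 h4
        exact Subtype.ext (congrArg Subtype.val h6 : _)
      · rintro ⟨z, hz⟩
        obtain ⟨c, rfl⟩ := QuotientGroup.mk_surjective z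
        have hcr : (c : C ⧸ Z) ^ r = 1 := by
          obtain ⟨d, hd⟩ := Nat.gcd_dvd_left r (Nat.card (C ⧸ Z))
          rw [hd, pow_mul, hz, one_pow]
        have h1 : c ^ r ∈ Z := (QuotientGroup.eq_one_iff _).1 (by rw [QuotientGroup.mk_pow, hcr])
        have h2 : (c ^ r) ^ q = 1 := by
          have := congrArg Subtype.val (pow_card_eq_one' (G := Z) (x := ⟨_, h1⟩))
          rwa [hZ] at this
        refine ⟨⟨((c ^ f : C) : G), (c ^ f).2, ?_⟩, Subtype.ext ?_⟩
        · obtain ⟨d, hd⟩ := hqf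
          have : (c ^ f) ^ r = 1 := by rw [← pow_mul, hd, mul_comm, ← mul_assoc, pow_mul, pow_mul, h2, one_pow]
          exact congrArg Subtype.val this
        · show ((c ^ f : C) : C ⧸ Z) = c
          rw [QuotientGroup.mk_pow]
          conv_rhs => rw [← pow_one (c : C ⧸ Z)]
          exact pow_eq_pow_iff_modEq.2 (hf1.of_dvd (orderOf_dvd_of_pow_eq_one hcr))

end Cfsg.Agent.FGS2
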