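import Cfsg.Agent.Golay.Orbits
import Cfsg.Agent.Linear.Congr
import Cfsg.Agent.Linear.Transvection

/-!
The stabiliser of three points in `M24` is `PSL₃(4)`: the action of `SL₃(4)` on the projective plane, read on
21 of the 24 points, preserves the code.
-/

set_option autoImplicit false
set_option maxRecDepth 20000

namespace Cfsg.Agent.FGS2.M21

open Matrix Cfsg.Agent.Golay

/-- The field with four elements. -/
inductive Q4
  | o | i | w | v
  deriving DecidableEq

namespace Q4

instance : Fintype Q4 := ⟨{o, i, w, v}, fun x => by cases x <;> simp⟩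

/-- Addition. -/
def add : Q4 → Q4 → Q4
  | o, x => x
  | x, o => x
  | i, i => o
  | w, w => o
  | v, v => o
  | i, w => v
  | w, i => v
  | i, v => w
  | v, i => w
  | w, v => i
  | v, w => i

/-- Multiplication. -/
def mul : Q4 → Q4 → Q4
  | o, _ => o
  | _, o => o
  | i, x => x
  | x, i => x
  | w, w => v
  | v, v => w
  | w, v => i
  | v, w => i

/-- Inversion. -/
def inv : Q4 → Q4
  | o => o
  | i => i
  | w => v
  | v => w

instance : Zero Q4 := ⟨o⟩
instance : One Q4 := ⟨i⟩
instance : Neg Q4 := ⟨fun x => x⟩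
instance : Add Q4 := ⟨add⟩
instance : Mul Q4 := ⟨mul⟩

instance : CommRing Q4 where
  add := add
  zero := o
  neg x := x
  mul := mul
  one := i
  add_assoc := by decide
  zero_add := by decide
  add_zero := by decide
  add_comm := by decide
  neg_add_cancel := by decide
  mul_assoc := by decide
  one_mul := by decide
  mul_one := by decide
  mul_comm := by decide
  left_distrib := by decide
  right_distrib := by decide
  zero_mul := by decide
  mul_zero := by decide
  nsmul := nsmulRec
  zsmul := zsmulRec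

instance : Field Q4 where
  inv := inv
  exists_pair_ne := ⟨o, i, by decide⟩
  mul_inv_cancel := by decide
  inv_zero := rfl
  nnqsmul := _
  nnqsmul_def := fun _ _ => rfl
  qsmul := _
  qsmul_def := fun _ _ => rfl

theorem card_eq : Fintype.card Q4 = 4 := by decide

end Q4

/-- Vectors. -/
abbrev Vec := Q4 × Q4 × Q4

/-- Scalar multiples. -/
def sm (c : Q4) (x : Vec) : Vec := (c * x.1, c * x.2.1, c * x.2.2)

/-- The first nonzero coordinate becomes one. -/
def nrm (x : Vec) : Vec :=
  if x.1 ≠ 0 then sm x.1⁻¹ x else if x.2.1 ≠ 0 then sm x.2.1⁻¹ x else sm x.2.2⁻¹ x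

open Q4 in
/-- Representatives of the 21 points. -/
def reps : List Vec :=
  [(o, o, i), (o, i, o), (i, o, o), (o, i, i), (i, w, i), (i, w, w), (i, i, i), (i, v, w), (i, v, i), (i, i, o),
    (i, i, v), (i, o, i), (o, i, w), (i, v, v), (i, o, w), (o, i, v), (i, i, w), (i, w, o), (i, v, o), (i, w, v),
    (i, o, v)]

/-- The vector of an index. -/
def rep (k : ℕ) : Vec := reps.getD k (0, 0, 0)

/-- The index of a vector. -/
def pos (x : Vec) : ℕ := reps.idxOf (nrm x)

theorem pos_sm : ∀ (c : Q4) (x : Vec), c ≠ 0 → x ≠ (0, 0, 0) → pos (sm c x) = pos x := by decide +kernel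

theorem rep_pos : ∀ x : Vec, x ≠ (0, 0, 0) → pos x < 21 ∧ ∃ c : Q4, c ≠ 0 ∧ rep (pos x) = sm c x := by decide +kernel

theorem rep_spec : ∀ k < 21, rep k ≠ (0, 0, 0) ∧ pos (rep k) = k := by decide +kernel

/-- A matrix acting on vectors. -/
def act (A : Matrix (Fin 3) (Fin 3) Q4) (x : Vec) : Vec :=
  (A 0 0 * x.1 + A 0 1 * x.2.1 + A 0 2 * x.2.2, A 1 0 * x.1 + A 1 1 * x.2.1 + A 1 2 * x.2.2,
    A 2 0 * x.1 + A 2 1 * x.2.1 + A 2 2 * x.2.2)

theorem act_mul (A B : Matrix (Fin 3) (Fin 3) Q4) (x : Vec) : act (A * B) x = act A (act B x) := by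
  simp only [act, Matrix.mul_apply, Fin.sum_univ_three, Prod.mk.injEq]
  exact ⟨by ring, by ring, by ring⟩

theorem act_one (x : Vec) : act 1 x = x := by
  simp [act]

theorem act_sm (A : Matrix (Fin 3) (Fin 3) Q4) (c : Q4) (x : Vec) : act A (sm c x) = sm c (act A x) := by
  simp only [act, sm, Prod.mk.injEq]
  exact ⟨by ring, by ring, by ring⟩

theorem act_ne (A : SpecialLinearGroup (Fin 3) Q4) {x : Vec} (hx : x ≠ (0, 0, 0)) : act A.1 x ≠ (0, 0, 0) := by
  intro h
  apply hx
  have h2 := congrArg (act (A⁻¹).1) h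
  have e : (A⁻¹).1 * A.1 = 1 := congrArg Subtype.val (inv_mul_cancel A)
  rw [← act_mul, e, act_one] at h2
  rw [h2]
  simp [act]

/-- The image of an index. -/
def img (A : Matrix (Fin 3) (Fin 3) Q4) (k : ℕ) : ℕ := if k < 21 then pos (act A (rep k)) else k

/-- The action on points. -/
def actPt (A : SpecialLinearGroup (Fin 3) Q4) (p : GolayPt) : GolayPt := pt (img A.1 (idx p))

theorem img_lt (A : SpecialLinearGroup (Fin 3) Q4) {k : ℕ} (hk : k < 24) : img A.1 k < 24 := by
  rw [img]
  split_ifs with h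
  · exact (rep_pos _ (act_ne A (rep_spec k h).1)).1.trans (by norm_num)
  · exact hk

theorem actPt_mul (A B : SpecialLinearGroup (Fin 3) Q4) (p : GolayPt) :
    actPt (A * B) p = actPt A (actPt B p) := by
  rw [actPt, actPt, actPt, idx_pt (img_lt B (idx_lt p)), show (A * B).1 = A.1 * B.1 from rfl]
  congr 1
  rw [img, img, img]
  by_cases h : idx p < 21
  · rw [if_pos h, if_pos h]
    have hne := act_ne B (rep_spec _ h).1
    obtain ⟨hlt, c, hc, hrep⟩ := rep_pos _ hne
    rw [if_pos hlt, hrep, act_sm, pos_sm c _ hc (act_ne A hne), act_mul]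
  · rw [if_neg h, if_neg h, if_neg h]

theorem actPt_one (p : GolayPt) : actPt 1 p = p := by
  rw [actPt, img, show (1 : SpecialLinearGroup (Fin 3) Q4).1 = 1 from rfl]
  split_ifs with h
  · rw [act_one, (rep_spec _ h).2, pt_idx]
  · exact pt_idx p

/-- The permutation of points. -/
def toPerm : SpecialLinearGroup (Fin 3) Q4 →* Equiv.Perm GolayPt where
  toFun A :=
    { toFun := actPt A
      invFun := actPt A⁻¹
      left_inv := fun p => by rw [← actPt_mul, inv_mul_cancel, actPt_one]
      right_inv := fun p => by rw [← actPt_mul, mul_inv_cancel, actPt_one] }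
  map_one' := Equiv.ext actPt_one
  map_mul' A B := Equiv.ext (actPt_mul A B)

/-- Elementary matrices. -/
def elem (a b : Fin 3) (t : Q4) : Matrix (Fin 3) (Fin 3) Q4 :=
  fun k l => if k = l then 1 else if k = a ∧ l = b then t else 0

/-- The packed permutation of a matrix. -/
def code (A : Matrix (Fin 3) (Fin 3) Q4) : ℕ :=
  (List.range 24).foldr (fun k c => img A k * 32 ^ k + c) 0

theorem code_ok : ∀ (a b : Fin 3) (t : Q4), a ≠ b →
    isAut (code (elem a b t)) = true ∧
      (List.range 24).all (fun k => app (code (elem a b t)) k == img (elem a b t) k) = true := by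
  decide +kernel

theorem coe_transvection {a b : Fin 3} (h : a ≠ b) (t : Q4) :
    (SpecialLinearGroup.transvection h t).1 = elem a b t := by
  show Matrix.transvection a b t = elem a b t
  ext k l
  simp only [Matrix.transvection, Matrix.add_apply, Matrix.one_apply, Matrix.single_apply, elem]
  by_cases hkl : k = l
  · subst hkl
    rw [if_pos rfl, if_pos rfl, if_neg (by rintro ⟨rfl, rfl⟩; exact h rfl), add_zero]
  · rw [if_neg hkl, if_neg hkl, zero_add]
    by_cases h2 : k = a ∧ l = b
    · rw [if_pos h2, if_pos ⟨h2.1.symm, h2.2.symm⟩]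
    · rw [if_neg h2, if_neg fun h3 => h2 ⟨h3.1.symm, h3.2.symm⟩]

theorem toPerm_mem (A : SpecialLinearGroup (Fin 3) Q4) : toPerm A ∈ M24 := by
  suffices h : M24.comap toPerm = ⊤ by exact (Subgroup.eq_top_iff' _).1 h A
  refine Linear.eq_top_of_transvection_mem fun a b hab t => ?_
  obtain ⟨h1, h2⟩ := code_ok a b t hab
  have : toPerm (SpecialLinearGroup.transvection hab t) = permOf (code (elem a b t)) := by
    refine eq_permOf (permOK_of_isAut h1) _ fun p => ?_
    show pt (img (SpecialLinearGroup.transvection hab t).1 (idx p)) = pt (app _ (idx p))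
    simp only [List.all_eq_true, beq_iff_eq] at h2
    rw [coe_transvection, h2 _ (List.mem_range.2 (idx_lt p))]
  rw [Subgroup.mem_comap, this]
  exact permOf_mem_M24 h1

theorem toPerm_fix (A : SpecialLinearGroup (Fin 3) Q4) {k : ℕ} (h : 21 ≤ k) (h' : k < 24) :
    toPerm A (pt k) = pt k := by
  show pt (img A.1 (idx (pt k))) = pt k
  rw [idx_pt h', img, if_neg (by omega)]

theorem eq_scalar_of_fix : ∀ (x : Vec), (x.1 ≠ 0 ∨ x.2.1 ≠ 0 ∨ x.2.2 ≠ 0) → ∀ k < 21, pos x = k →
    ∃ c : Q4, x = sm c (rep k) := by decide +kernel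

theorem ker_scalar (A : SpecialLinearGroup (Fin 3) Q4) (h : toPerm A = 1) :
    ∃ r : Q4, A.1 = Matrix.scalar (Fin 3) r := by
  have hfix : ∀ k < 21, ∃ c : Q4, act A.1 (rep k) = sm c (rep k) := by
    intro k hk
    have h1 : pt (img A.1 (idx (pt k))) = pt k := Equiv.congr_fun h (pt k)
    rw [idx_pt (show k < 24 by omega)] at h1
    have h2 := congrArg idx h1
    rw [idx_pt (img_lt A (show k < 24 by omega)), idx_pt (show k < 24 by omega), img, if_pos hk] at h2
    refine eq_scalar_of_fix _ ?_ k hk h2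
    by_contra h3
    push Not at h3
    exact act_ne A (rep_spec k hk).1 (Prod.ext h3.1 (Prod.ext h3.2.1 h3.2.2))
  obtain ⟨c₂, e₂⟩ := hfix 0 (by norm_num)
  obtain ⟨c₁, e₁⟩ := hfix 1 (by norm_num)
  obtain ⟨c₀, e₀⟩ := hfix 2 (by norm_num)
  obtain ⟨d, ed⟩ := hfix 6 (by norm_num)
  have r0 : rep 0 = (0, 0, 1) := rfl
  have r1 : rep 1 = (0, 1, 0) := rfl
  have r2 : rep 2 = (1, 0, 0) := rfl
  have r6 : rep 6 = (1, 1, 1) := rfl
  simp only [act, sm, r0, r1, r2, r6, mul_zero, mul_one, add_zero, zero_add, Prod.mk.injEq] at e₀ e₁ e₂ ed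
  obtain ⟨a02, a12, a22⟩ := e₂
  obtain ⟨a01, a11, a21⟩ := e₁
  obtain ⟨a00, a10, a20⟩ := e₀
  obtain ⟨s0, s1, s2⟩ := ed
  rw [a00, a01, a02, add_zero, add_zero] at s0
  rw [a10, a11, a12, add_zero, zero_add] at s1
  rw [a20, a21, a22, zero_add, zero_add] at s2
  refine ⟨d, ?_⟩
  ext k l
  rw [Matrix.scalar_apply]
  fin_cases k <;> fin_cases l <;> simp [a00, a01, a02, a10, a11, a12, a20, a21, a22, s0, s1, s2]

theorem scalar_fix (r : Q4) (hr : r ≠ 0) (k : ℕ) : img (Matrix.scalar (Fin 3) r) k = k := by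
  rw [img]
  split_ifs with h
  · have : act (Matrix.scalar (Fin 3) r) (rep k) = sm r (rep k) := by
      simp [act, sm, Matrix.scalar_apply]
    rw [this, pos_sm r _ hr (rep_spec k h).1, (rep_spec k h).2]
  · rfl

theorem ker_eq : toPerm.ker = Subgroup.center (SpecialLinearGroup (Fin 3) Q4) := by
  ext A
  rw [MonoidHom.mem_ker, Matrix.SpecialLinearGroup.mem_center_iff]
  constructor
  · intro h
    obtain ⟨r, hr⟩ := ker_scalar A h
    refine ⟨r, ?_, hr.symm⟩
    have := A.2
    rwa [hr, Matrix.scalar_apply, Matrix.det_diagonal, Finset.prod_const, Finset.card_univ] at this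
  · rintro ⟨r, hr, e⟩
    have hr0 : r ≠ 0 := by rintro rfl; simp at hr
    ext1 p
    show pt (img A.1 (idx p)) = p
    rw [← e, scalar_fix r hr0, pt_idx]

/-- The three-point stabiliser inside the symmetric group. -/
abbrev stab3 (p q r : GolayPt) : Subgroup (Equiv.Perm GolayPt) :=
  M24 ⊓ MulAction.stabilizer (Equiv.Perm GolayPt) p ⊓ MulAction.stabilizer (Equiv.Perm GolayPt) q ⊓
    MulAction.stabilizer (Equiv.Perm GolayPt) r

theorem range_eq (hcard : Nat.card (ProjectiveSpecialLinearGroup (Fin 3) Q4) = 20160) :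
    toPerm.range = stab3 (pt 21) (pt 22) (pt 23) := by
  refine Subgroup.eq_of_le_of_card_ge ?_ ?_
  · rintro _ ⟨A, rfl⟩
    exact ⟨⟨⟨toPerm_mem A, toPerm_fix A (by norm_num) (by norm_num)⟩, toPerm_fix A (by norm_num) (by norm_num)⟩,
      toPerm_fix A (by norm_num) (by norm_num)⟩
  · rw [M24_stab3_card (by decide) (by decide) (by decide), ← hcard]
    exact (Nat.card_congr ((QuotientGroup.quotientMulEquivOfEq ker_eq.symm).trans
      (QuotientGroup.quotientKerEquivRange toPerm)).toEquiv).le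

theorem result (p q r : GolayPt) (hpq : p ≠ q) (hpr : p ≠ r) (hqr : q ≠ r) (F : Type) [Field F] [Fintype F]
    (hF : Fintype.card F = 4)
    (hcard : Nat.card (ProjectiveSpecialLinearGroup (Fin 3) Q4) = 20160) :
    Nonempty (↥(MulAction.stabilizer M24 p ⊓ MulAction.stabilizer M24 q ⊓ MulAction.stabilizer M24 r) ≃*
      ProjectiveSpecialLinearGroup (Fin 3) F) := by
  obtain ⟨g, hg, g1, g2, g3⟩ := exists_mem_M24_three hpq hpr hqr
    (show pt 21 ≠ pt 22 by decide) (show pt 21 ≠ pt 23 by decide) (show pt 22 ≠ pt 23 by decide)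
  have hconj : (stab3 p q r).map (MulAut.conj g).toMonoidHom = stab3 (pt 21) (pt 22) (pt 23) := by
    ext x
    rw [Subgroup.mem_map_equiv]
    have hm : g⁻¹ * x * g ∈ M24 ↔ x ∈ M24 :=
      ⟨fun h => by simpa [mul_assoc] using mul_mem (mul_mem hg h) (inv_mem hg),
        fun h => mul_mem (mul_mem (inv_mem hg) h) hg⟩
    simp only [stab3, Subgroup.mem_inf, MulAut.conj_symm_apply, hm, MulAction.mem_stabilizer_iff,
      Equiv.Perm.smul_def, Equiv.Perm.mul_apply, ← g1, ← g2, ← g3, Equiv.Perm.inv_eq_iff_eq]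
  have e4 : Q4 ≃+* F := FiniteField.ringEquivOfCardEq (by rw [Q4.card_eq, hF])
  exact ⟨(stab3Equiv p q r).trans <| ((MulAut.conj g).subgroupMap _).trans <|
    (MulEquiv.subgroupCongr (hconj.trans (range_eq hcard).symm)).trans <|
    (QuotientGroup.quotientKerEquivRange toPerm).symm.trans <|
    (QuotientGroup.quotientMulEquivOfEq ker_eq).trans (Linear.pslCongr e4)⟩

end Cfsg.Agent.FGS2.M21
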