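import Cfsg.Agent.FGS2.Schur
import Cfsg.Agent.FGS2.DivisibleExt

/-! Projective representations and the Schur multiplier. -/

namespace Cfsg.Agent.FGS2

open Subgroup
open scoped commutatorElement

universe u v w

/-- The monomial representation induced from a character of the kernel of `σ`. -/
theorem exists_monomial {Γ : Type v} [Group Γ] [Finite Γ] {Q : Type u} [Group Q] [Finite Q]
    (σ : Γ →* Q) (hσ : Function.Surjective σ) (hc : σ.ker ≤ center Γ) (χ : σ.ker →* ℂˣ) :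
    ∃ ρ : Γ →* GL (Fin (Nat.card Q)) ℂ,
      ∀ z : σ.ker, ρ z = Matrix.GeneralLinearGroup.scalar _ (χ z) := by
  classical
  let e : Fin (Nat.card Q) ≃ Q := (Finite.equivFin Q).symm
  let s : Q → Γ := Function.surjInv hσ
  have hs : ∀ q, σ (s q) = q := Function.surjInv_eq hσ
  let a : Γ → Q → ℂ := fun g q =>
    (χ ⟨(s (σ g * q))⁻¹ * (g * s q), by simp [MonoidHom.mem_ker, hs]⟩ : ℂˣ)
  let M : Γ → Matrix (Fin (Nat.card Q)) (Fin (Nat.card Q)) ℂ :=
    fun g => Matrix.of fun i j => if e i = σ g * e j then a g (e j) else 0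
  have ha : ∀ g h q, a (g * h) q = a g (σ h * q) * a h q := by
    intro g h q
    simp only [a, ← Units.val_mul, ← map_mul]
    congr 2
    apply Subtype.ext
    simp [mul_assoc]
  have hmul : ∀ g h, M (g * h) = M g * M h := by
    intro g h
    ext i j
    rw [Matrix.mul_apply, Finset.sum_eq_single (e.symm (σ h * e j))]
    · by_cases hij : e i = σ g * (σ h * e j)
      · simp [M, hij, mul_assoc, ha]
      · simp [M, hij, mul_assoc]
    · intro l _ hl
      have : e l ≠ σ h * e j := fun h' => hl (by rw [← h', e.symm_apply_apply])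
      simp [M, this]
    · simp
  have hker : ∀ z : σ.ker, M z = Matrix.scalar _ ((χ z : ℂˣ) : ℂ) := by
    intro z
    ext i j
    have hz : σ z = 1 := z.2
    by_cases hij : i = j
    · subst hij
      simp only [M, Matrix.of_apply, hz, one_mul, if_pos, Matrix.scalar_apply, Matrix.diagonal_apply_eq, a]
      congr 2
      apply Subtype.ext
      have := Subgroup.mem_center_iff.1 (hc z.2) (s (e i))
      simp [hz, ← this]
    · simp [M, hz, hij, e.injective.eq_iff]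
  have hone : M 1 = 1 := by
    rw [show (1 : Γ) = ((1 : σ.ker) : Γ) from rfl, hker, map_one, Units.val_one, map_one]
  refine ⟨(MonoidHom.mk ⟨M, hone⟩ hmul).toHomUnits, fun z => Units.ext ?_⟩
  simpa using hker z

theorem center_gl_pow_surjective {m : ℕ} (n : ℕ) (hn : 0 < n) :
    Function.Surjective (fun x : center (GL (Fin m) ℂ) => x ^ n) := by
  rintro ⟨x, hx⟩
  rw [Matrix.GeneralLinearGroup.center_eq_range_scalar] at hx
  obtain ⟨u, rfl⟩ := hx
  obtain ⟨v, rfl⟩ := complex_units_pow_surjective n hn u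
  refine ⟨⟨Matrix.GeneralLinearGroup.scalar _ v, ?_⟩, Subtype.ext (by simp)⟩
  rw [Matrix.GeneralLinearGroup.center_eq_range_scalar]
  exact ⟨v, rfl⟩

variable {Q : Type u} [Group Q]

/-- A projective representation lifts to any stem extension in which `Univ Q` does not lose the
multiplier. -/
theorem proj_lift_of_injective [Finite Q] {Γ : Type v} [Group Γ] {σ : Γ →* Q}
    (hσ : Cfsg.IsStemExtension σ) (ψ : Univ Q →* Γ) (hψ : σ.comp ψ = univProj Q)
    (hinj : ψ.ker ⊓ mult Q = ⊥) (n : ℕ) (γ : Q →* (GL (Fin n) ℂ ⧸ center (GL (Fin n) ℂ))) :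
    ∃ ρ : Γ →* GL (Fin n) ℂ, (QuotientGroup.mk' (center (GL (Fin n) ℂ))).comp ρ = γ.comp σ := by
  let q := QuotientGroup.mk' (center (GL (Fin n) ℂ))
  let P : Subgroup (Q × GL (Fin n) ℂ) :=
    (γ.comp (MonoidHom.fst Q _)).eqLocus (q.comp (MonoidHom.snd Q _))
  let f : P →* Q := (MonoidHom.fst Q _).comp P.subtype
  have hf : Function.Surjective f := fun x => by
    obtain ⟨g, hg⟩ := QuotientGroup.mk'_surjective _ (γ x)
    exact ⟨⟨(x, g), hg.symm⟩, rfl⟩
  have hfc : f.ker ≤ center P := by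
    rintro ⟨⟨x, g⟩, hxg⟩ (h : x = 1)
    subst h
    have hg : g ∈ center (GL (Fin n) ℂ) := by
      have h' : γ 1 = q g := hxg
      rw [map_one, eq_comm, ← MonoidHom.mem_ker, QuotientGroup.ker_mk'] at h'
      exact h'
    rw [mem_center_iff]
    rintro ⟨⟨x', g'⟩, _⟩
    exact Subtype.ext (Prod.ext (by simp) (mem_center_iff.1 hg g'))
  obtain ⟨φ, hφ⟩ := exists_lift f hf hfc
  let r : Univ Q →* GL (Fin n) ℂ := (MonoidHom.snd Q _).comp (P.subtype.comp φ)
  have hr : ∀ e, q (r e) = γ (univProj Q e) := fun e => by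
    rw [← hφ]
    exact (φ e).2.symm
  have hsurj := lift_surjective_of_stem hσ hψ
  have hS : ψ.ker ≤ (univProj Q).ker := fun x hx => by
    rw [MonoidHom.mem_ker, ← hψ, MonoidHom.comp_apply, MonoidHom.mem_ker.1 hx, map_one]
  have hcent : IsMulCommutative ψ.ker :=
    ⟨⟨fun a b => Subtype.ext (Subgroup.mem_center_iff.1 (univProj_ker_central Q (hS b.2)) a)⟩⟩
  have hrS : ∀ s : ψ.ker, r s ∈ center (GL (Fin n) ℂ) := fun s => by
    rw [← QuotientGroup.ker_mk' (center (GL (Fin n) ℂ)), MonoidHom.mem_ker]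
    exact (hr _).trans (by rw [MonoidHom.mem_ker.1 (hS s.2), map_one])
  open IsMulCommutative in
  obtain ⟨g, hg⟩ := exists_extension_divisible (D := center (GL (Fin n) ℂ)) center_gl_pow_surjective
    ((coordHom Q).comp ψ.ker.subtype) (by
      rw [← MonoidHom.ker_eq_bot_iff, Subgroup.eq_bot_iff_forall]
      intro x hx
      have h1 : (x : Univ Q) ∈ commutator (Univ Q) := by rw [← coordHom_ker]; exact hx
      have h2 : (x : Univ Q) ∈ ψ.ker ⊓ mult Q := Subgroup.mem_inf.2 ⟨x.2, Subgroup.mem_inf.2 ⟨hS x.2, h1⟩⟩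
      rw [hinj, Subgroup.mem_bot] at h2
      exact Subtype.ext h2)
    ((r.comp ψ.ker.subtype).codRestrict (center (GL (Fin n) ℂ)) hrS)
  let h : Univ Q →* center (GL (Fin n) ℂ) := g.comp (coordHom Q)
  have hcomm : ∀ e, ∀ x : GL (Fin n) ℂ, x * (h e : GL (Fin n) ℂ) = (h e : GL (Fin n) ℂ) * x :=
    fun e x => Subgroup.mem_center_iff.1 (h e).2 x
  let R : Univ Q →* GL (Fin n) ℂ :=
    MonoidHom.mk' (fun e => r e * ((h e⁻¹ : center (GL (Fin n) ℂ)) : GL (Fin n) ℂ)) (fun a b => by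
      have : h (a * b)⁻¹ = h a⁻¹ * h b⁻¹ := by rw [← map_mul]; simp [map_mul, mul_comm]
      rw [map_mul, this, Subgroup.coe_mul]
      calc r a * r b * ((h a⁻¹ : GL (Fin n) ℂ) * (h b⁻¹ : GL (Fin n) ℂ))
          = r a * (r b * (h a⁻¹ : GL (Fin n) ℂ)) * (h b⁻¹ : GL (Fin n) ℂ) := by group
        _ = r a * ((h a⁻¹ : GL (Fin n) ℂ) * r b) * (h b⁻¹ : GL (Fin n) ℂ) := by rw [hcomm a⁻¹ (r b)]
        _ = _ := by group)
  have hRker : ψ.ker ≤ R.ker := by
    intro s hs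
    have h1 : (h s : GL (Fin n) ℂ) = r s := by
      have := DFunLike.congr_fun hg ⟨s, hs⟩
      exact congrArg Subtype.val this
    show r s * ((h s⁻¹ : center (GL (Fin n) ℂ)) : GL (Fin n) ℂ) = 1
    rw [map_inv, InvMemClass.coe_inv, h1, mul_inv_cancel]
  refine ⟨ψ.liftOfSurjective hsurj ⟨R, hRker⟩, ?_⟩
  ext x
  obtain ⟨e, rfl⟩ := hsurj x
  have hR : ψ.liftOfSurjective hsurj ⟨R, hRker⟩ (ψ e) = R e :=
    ψ.liftOfRightInverse_comp_apply _ _ ⟨R, hRker⟩ e
  show q (ψ.liftOfSurjective hsurj ⟨R, hRker⟩ (ψ e)) = γ (σ (ψ e))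
  rw [hR]
  show q (r e * ((h e⁻¹ : center (GL (Fin n) ℂ)) : GL (Fin n) ℂ)) = _
  rw [map_mul, hr, ← MonoidHom.comp_apply σ ψ, hψ]
  have : q ((h e⁻¹ : center (GL (Fin n) ℂ)) : GL (Fin n) ℂ) = 1 := by
    rw [← MonoidHom.mem_ker, QuotientGroup.ker_mk']; exact (h e⁻¹).2
  rw [this, mul_one]

/-- If all projective representations lift to `Γ`, the multiplier embeds in `Γ`. -/
theorem injective_of_proj_lift [Finite Q] {Γ : Type v} [Group Γ] {σ : Γ →* Q}
    (ψ : Univ Q →* Γ) (hψ : σ.comp ψ = univProj Q)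
    (hlift : ∀ (n : ℕ) (γ : Q →* (GL (Fin n) ℂ ⧸ center (GL (Fin n) ℂ))), ∃ ρ : Γ →* GL (Fin n) ℂ,
      (QuotientGroup.mk' (center (GL (Fin n) ℂ))).comp ρ = γ.comp σ) :
    ψ.ker ⊓ mult Q = ⊥ := by
  rw [Subgroup.eq_bot_iff_forall]
  intro m hm
  obtain ⟨hm1, hm2⟩ := Subgroup.mem_inf.1 hm
  by_contra hne
  obtain ⟨S, h1, h2, -⟩ := exists_complement (1 : Univ Q →* Multiplicative ℤ) (by
    rintro _ ⟨x, -, rfl⟩; simp)
  have := normal_of_le_ker (h2 ▸ le_sup_left : S ≤ _)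
  obtain ⟨τ, hτc, hτ, -, hfin⟩ := cover_of_complement S h1 h2
  let z : τ.ker := ⟨(m : Univ Q ⧸ S), by
    rw [MonoidHom.mem_ker]
    exact (DFunLike.congr_fun hτc m).trans (Subgroup.mem_inf.1 hm2).1⟩
  have hz : z ≠ 1 := fun h => hne (by
    have hS : m ∈ S := (QuotientGroup.eq_one_iff m).1 (congrArg Subtype.val h)
    have := Subgroup.mem_inf.2 ⟨hS, hm2⟩
    rwa [h1, Subgroup.mem_bot] at this)
  have : IsMulCommutative τ.ker :=
    ⟨⟨fun a b => Subtype.ext (Subgroup.mem_center_iff.1 (hτ.2.1 b.2) a)⟩⟩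
  open IsMulCommutative in
  obtain ⟨χ, hχ⟩ := CommGroup.exists_apply_ne_one_of_hasEnoughRootsOfUnity τ.ker ℂ hz
  obtain ⟨ρ₀, hρ₀⟩ := exists_monomial τ hτ.1 hτ.2.1 χ
  let q := QuotientGroup.mk' (center (GL (Fin (Nat.card Q)) ℂ))
  have hqker : τ.ker ≤ (q.comp ρ₀).ker := fun x hx => by
    rw [MonoidHom.mem_ker, MonoidHom.comp_apply, ← MonoidHom.mem_ker, QuotientGroup.ker_mk',
      Matrix.GeneralLinearGroup.center_eq_range_scalar]
    exact ⟨χ ⟨x, hx⟩, (hρ₀ ⟨x, hx⟩).symm⟩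
  let γ := τ.liftOfSurjective hτ.1 ⟨q.comp ρ₀, hqker⟩
  have hγ : ∀ x, γ (τ x) = q (ρ₀ x) := fun x =>
    τ.liftOfRightInverse_comp_apply _ _ ⟨q.comp ρ₀, hqker⟩ x
  obtain ⟨ρ, hρ⟩ := hlift _ γ
  have hagree := lifts_agree_on_commutator q (QuotientGroup.ker_mk' _).le (ρ.comp ψ)
    (ρ₀.comp (QuotientGroup.mk' S)) (by
      rw [← MonoidHom.comp_assoc, hρ, MonoidHom.comp_assoc, hψ, ← hτc]
      ext x
      exact hγ _)
  have h3 : ρ (ψ m) = ρ₀ (m : Univ Q ⧸ S) := hagree (Subgroup.mem_inf.1 hm2).2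
  rw [MonoidHom.mem_ker.1 hm1, map_one, show ρ₀ (m : Univ Q ⧸ S) = _ from hρ₀ z] at h3
  apply hχ
  have hcard : 0 < Nat.card Q := Nat.card_pos
  have := congrArg (fun g : GL (Fin (Nat.card Q)) ℂ =>
    (g : Matrix (Fin (Nat.card Q)) (Fin (Nat.card Q)) ℂ) ⟨0, hcard⟩ ⟨0, hcard⟩) h3.symm
  exact Units.ext (by simpa using this)

/-- The lift into a cover is injective on the multiplier. -/
theorem cover_ker_inf_mult [Finite Q] {Γ : Type v} [Group Γ] {σ : Γ →* Q}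
    (hσ : Cfsg.IsStemExtension σ) (he : Nonempty (σ.ker ≃* Mult Q)) (ψ : Univ Q →* Γ)
    (hψ : σ.comp ψ = univProj Q) : ψ.ker ⊓ mult Q = ⊥ := by
  obtain ⟨e⟩ := he
  have hm : ∀ x : Mult Q, ψ x ∈ σ.ker := fun x =>
    (lift_mult_stem hσ hψ) ▸ Subgroup.mem_map_of_mem ψ x.2
  let f : Mult Q →* σ.ker := (ψ.comp (mult Q).subtype).codRestrict σ.ker hm
  have hf : Function.Surjective f := fun z => by
    obtain ⟨x, hx, hxz⟩ : (z : Γ) ∈ (mult Q).map ψ := (lift_mult_stem hσ hψ).symm ▸ z.2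
    exact ⟨⟨x, hx⟩, Subtype.ext hxz⟩
  have : Finite σ.ker := Finite.of_equiv _ e.toEquiv.symm
  have hb := (Nat.bijective_iff_surjective_and_card f).2 ⟨hf, (Nat.card_congr e.toEquiv).symm⟩
  rw [Subgroup.eq_bot_iff_forall]
  intro x hx
  obtain ⟨hx1, hx2⟩ := Subgroup.mem_inf.1 hx
  exact congrArg Subtype.val (hb.1 (show f ⟨x, hx2⟩ = f 1 from Subtype.ext (by
    show ψ x = ψ 1
    rw [MonoidHom.mem_ker.1 hx1, map_one])))

end Cfsg.Agent.FGS2
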