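import Cfsg.Agent.FGS2.SchurTools

/-! Schur covers above a given stem extension; universal covers of perfect groups. -/

namespace Cfsg.Agent.FGS2

open Subgroup
open scoped commutatorElement

universe u v w

theorem ker_eq_bot_of_mult_eq_bot {Q : Type u} [Group Q] {X : Type v} [Group X] {σ : X →* Q}
    (hσ : Cfsg.IsStemExtension σ) (h : mult Q = ⊥) : σ.ker = ⊥ := by
  rw [Subgroup.eq_bot_iff_forall]
  intro x hx
  obtain ⟨π, hπ⟩ := exists_mult_surj hσ
  obtain ⟨m, hm⟩ := hπ ⟨x, hx⟩
  have : m = 1 := Subtype.ext (by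
    exact Subgroup.mem_bot.1 ((SetLike.ext_iff.1 h (m : Univ Q)).1 m.2))
  rw [this, map_one] at hm
  exact congrArg Subtype.val hm.symm

theorem hasCyclic_one_iff_forall {Q : Type u} [Group Q] [Finite Q] :
    Cfsg.HasCyclicSchurMultiplier Q 1 ↔
      ∀ (Γ : Type u) [Group Γ] [Finite Γ] (σ : Γ →* Q), Cfsg.IsStemExtension σ → σ.ker = ⊥ :=
  ⟨fun h _ _ _ _ hσ => ker_eq_bot_of_mult_eq_bot hσ (hasCyclicSchurMultiplier_one_iff.1 h),
    hasCyclic_one_of_stem_ker_eq_bot⟩

/-- Every stem extension is the image of a cover. -/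
theorem exists_cover_onto {Q : Type u} [Group Q] [Finite Q] {X : Type v} [Group X] {τ : X →* Q}
    (hτ : Cfsg.IsStemExtension τ) :
    ∃ (Γ : Type u) (_ : Group Γ) (_ : Finite Γ) (σ : Γ →* Q), Cfsg.IsStemExtension σ ∧
      Nonempty (σ.ker ≃* Mult Q) ∧ ∃ β : Γ →* X, Function.Surjective β ∧ τ.comp β = σ := by
  obtain ⟨φ, hφ⟩ := exists_lift τ hτ.1 hτ.2.1
  obtain ⟨S, h1, h2, h3⟩ := exists_complement φ (by
    rw [lift_mult_stem hτ hφ]
    rintro _ ⟨x, hx, rfl⟩
    rw [MonoidHom.mem_ker, ← MonoidHom.comp_apply, hφ]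
    exact hx)
  have := normal_of_le_ker (h2 ▸ le_sup_left : S ≤ _)
  obtain ⟨σ, hσ, hst, he, hf⟩ := cover_of_complement S h1 h2
  refine ⟨_, _, hf, σ, hst, he, QuotientGroup.lift S φ h3,
    QuotientGroup.lift_surjective_of_surjective _ _ (lift_surjective_of_stem hτ hφ) _, ?_⟩
  apply QuotientGroup.monoidHom_ext
  rw [MonoidHom.comp_assoc, hσ, ← hφ]
  congr 1

/-- A stem extension with trivial multiplier upstairs is a cover. -/
theorem mulEquiv_of_mult_trivial {Q : Type u} [Group Q] [Finite Q] {X : Type v} [Group X]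
    {σ : X →* Q} (hσ : Cfsg.IsStemExtension σ) (h : mult X = ⊥) : Nonempty (σ.ker ≃* Mult Q) := by
  obtain ⟨Γ, _, _, τ, hτ, ⟨e⟩, β, hβ, hc⟩ := exists_cover_onto hσ
  have hle : β.ker ≤ τ.ker := fun x hx => by
    rw [MonoidHom.mem_ker, ← hc, MonoidHom.comp_apply, MonoidHom.mem_ker.1 hx, map_one]
  have hst : Cfsg.IsStemExtension β := ⟨hβ, hle.trans hτ.2.1, hle.trans hτ.2.2⟩
  have hinj : Function.Injective β := (MonoidHom.ker_eq_bot_iff β).1 (ker_eq_bot_of_mult_eq_bot hst h)
  refine ⟨(MulEquiv.trans ?_ e)⟩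
  refine ((MulEquiv.subgroupMap (MulEquiv.ofBijective β ⟨hinj, hβ⟩) τ.ker).trans
    (MulEquiv.subgroupCongr ?_)).symm
  ext x
  obtain ⟨y, rfl⟩ := hβ x
  subst hc
  refine ⟨?_, fun h => ⟨y, h, rfl⟩⟩
  rintro ⟨z, hz, hzy⟩
  cases hinj (hzy : β z = β y)
  exact hz

theorem commutator_perfect {X : Type u} {Q : Type v} [Group X] [Group Q] (π : X →* Q)
    (hc : π.ker ≤ center X) (h : (commutator X).map π = ⊤) :
    Group.IsPerfect (commutator X) := by
  have hsup : commutator X ⊔ π.ker = ⊤ := by rw [← comap_map_eq, h, comap_top]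
  have := commutator_le_commutator_of_central_sup _ _ hc hsup
  refine ⟨map_injective (commutator X).subtype_injective ?_⟩
  rw [map_subtype_commutator, ← MonoidHom.range_eq_map, range_subtype]
  exact le_antisymm (commutator_mono le_top le_top) this

/-- The universal central extension of a perfect group. -/
theorem perfect_universal {Q : Type u} [Group Q] [Finite Q] (hQ : Group.IsPerfect Q) :
    ∃ (G : Type u) (_ : Group G) (_ : Finite G) (π : G →* Q), Group.IsPerfect G ∧
      Function.Surjective π ∧ π.ker ≤ center G ∧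
      ∀ (X : Type w) [Group X] (ξ : X →* Q), Function.Surjective ξ → ξ.ker ≤ center X →
        ∃! η : G →* X, ξ.comp η = π := by
  have hfin := finite_commutator_of_finite_quotient (univProj Q) (univProj_ker_central Q)
  have hmap : (commutator (Univ Q)).map (univProj Q) = ⊤ := by
    rw [_root_.commutator_def, map_commutator, ← MonoidHom.range_eq_map,
      MonoidHom.range_eq_top.2 (univProj_surjective Q), ← _root_.commutator_def]
    exact hQ.commutator_eq_top
  have hperf := commutator_perfect (univProj Q) (univProj_ker_central Q) hmap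
  refine ⟨_, _, hfin, (univProj Q).comp (commutator (Univ Q)).subtype, hperf, ?_, ?_, ?_⟩
  · rw [← MonoidHom.range_eq_top, MonoidHom.range_comp, range_subtype, hmap]
  · intro x hx
    rw [mem_center_iff]
    intro y
    exact Subtype.ext (mem_center_iff.1 (univProj_ker_central Q (show (x : Univ Q) ∈ _ from hx)) y)
  · intro X _ ξ hs hc
    obtain ⟨φ, hφ⟩ := exists_lift ξ hs hc
    refine ⟨φ.comp (commutator (Univ Q)).subtype, by simp only [← MonoidHom.comp_assoc, hφ],
      fun η hη => ?_⟩
    have := lifts_agree_on_commutator ξ hc η (φ.comp (commutator (Univ Q)).subtype)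
      (by rw [← MonoidHom.comp_assoc, hφ, hη])
    rw [hperf.commutator_eq_top] at this
    ext x
    exact this (mem_top x)

theorem perfect_universal_iff {G : Type u} {Q : Type v} [Group G] [Group Q] [Finite G]
    (hG : Group.IsPerfect G) (π : G →* Q) (hπ : Function.Surjective π) (hker : π.ker ≤ center G) :
    (∀ (X : Type u) [Group X] (ξ : X →* Q), Function.Surjective ξ → ξ.ker ≤ center X →
      ∃ η : G →* X, ξ.comp η = π) ↔ mult G = ⊥ := by
  constructor
  · intro huniv
    rw [← hasCyclicSchurMultiplier_one_iff, hasCyclic_one_iff_forall]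
    intro Γ _ _ σ hσ
    have hperf : commutator Γ = ⊤ := by
      apply stem_eq_top_of_map_eq_top hσ
      rw [_root_.commutator_def, map_commutator, ← MonoidHom.range_eq_map,
        MonoidHom.range_eq_top.2 hσ.1, ← _root_.commutator_def]
      exact hG.commutator_eq_top
    have hc : (π.comp σ).ker ≤ center Γ := by
      intro x hx
      have h1 : σ x ∈ center G := hker hx
      rw [← map_center_of_perfect hperf σ hσ.1 hσ.2.1] at h1
      obtain ⟨z, hz, hzx⟩ := h1
      have h2 : z⁻¹ * x ∈ σ.ker := by simp [MonoidHom.mem_ker, hzx]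
      simpa using mul_mem hz (hσ.2.1 h2)
    obtain ⟨η, hη⟩ := huniv Γ (π.comp σ) (hπ.comp hσ.1) hc
    have hid : σ.comp η = MonoidHom.id G := by
      have := lifts_agree_on_commutator π hker (σ.comp η) (MonoidHom.id G)
        (by rw [← MonoidHom.comp_assoc, hη, MonoidHom.comp_id])
      rw [hG.commutator_eq_top] at this
      ext g
      exact this (mem_top g)
    have hsurj : Function.Surjective η := surjective_of_stem hσ (φ := η) (by
      rw [hid]; exact Function.surjective_id)
    rw [Subgroup.eq_bot_iff_forall]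
    intro x hx
    obtain ⟨g, rfl⟩ := hsurj x
    have : g = 1 := by
      have h3 : σ (η g) = g := DFunLike.congr_fun hid g
      rwa [MonoidHom.mem_ker.1 hx, eq_comm] at h3
    rw [this, map_one]
  · intro hM X _ ξ hs hc
    let P : Subgroup (G × X) := (π.comp (MonoidHom.fst G X)).eqLocus (ξ.comp (MonoidHom.snd G X))
    let f : P →* G := (MonoidHom.fst G X).comp P.subtype
    have hf : Function.Surjective f := fun g => by
      obtain ⟨x, hx⟩ := hs (π g)
      exact ⟨⟨(g, x), hx.symm⟩, rfl⟩
    have hfc : f.ker ≤ center P := by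
      rintro ⟨⟨g, x⟩, hgx⟩ (h : g = 1)
      subst h
      have hx : x ∈ ξ.ker := by
        have hgx' : π 1 = ξ x := hgx
        rw [map_one] at hgx'
        exact hgx'.symm
      rw [mem_center_iff]
      rintro ⟨⟨g', x'⟩, _⟩
      exact Subtype.ext (Prod.ext (by simp) (mem_center_iff.1 (hc hx) x'))
    obtain ⟨φ, hφ⟩ := exists_lift f hf hfc
    let r : commutator (Univ G) →* G := (univProj G).comp (commutator (Univ G)).subtype
    have hr : Function.Bijective r := by
      constructor
      · rw [← MonoidHom.ker_eq_bot_iff, Subgroup.eq_bot_iff_forall]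
        intro x hx
        have : (x : Univ G) ∈ mult G := Subgroup.mem_inf.2 ⟨hx, x.2⟩
        rw [hM, Subgroup.mem_bot] at this
        exact Subtype.ext this
      · rw [← MonoidHom.range_eq_top, MonoidHom.range_comp, range_subtype, _root_.commutator_def,
          map_commutator, ← MonoidHom.range_eq_map,
          MonoidHom.range_eq_top.2 (univProj_surjective G), ← _root_.commutator_def]
        exact hG.commutator_eq_top
    let e := MulEquiv.ofBijective r hr
    refine ⟨(MonoidHom.snd G X).comp (P.subtype.comp (φ.comp ((commutator (Univ G)).subtype.comp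
      e.symm.toMonoidHom))), ?_⟩
    ext g
    have h1 : ((φ (e.symm g : Univ G) : P) : G × X).1 = g := by
      have := DFunLike.congr_fun hφ (e.symm g : Univ G)
      exact this.trans (e.apply_symm_apply g)
    have h2 : π ((φ (e.symm g : Univ G) : P) : G × X).1 = ξ ((φ (e.symm g : Univ G) : P) : G × X).2 :=
      (φ (e.symm g : Univ G)).2
    rw [h1] at h2
    exact h2.symm

end Cfsg.Agent.FGS2
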