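import Cfsg.Agent.FGS2.ProjRep

/-! The square of the exponent of the multiplier divides the group order. -/

namespace Cfsg.Agent.FGS2

open Subgroup
open scoped commutatorElement

universe u v

theorem trace_pi_scalar {ι : Type*} [Fintype ι] (V : ι → Type*)
    [∀ i, AddCommGroup (V i)] [∀ i, Module ℂ (V i)] [∀ i, Module.Finite ℂ (V i)]
    [∀ i, Module.Free ℂ (V i)] (c : ι → ℂ) :
    LinearMap.trace ℂ (∀ i, V i) (LinearMap.pi fun i => c i • LinearMap.proj i) =
      ∑ i, c i * (Module.finrank ℂ (V i) : ℂ) := by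
  classical
  have h : (LinearMap.pi fun i => c i • LinearMap.proj i : (∀ i, V i) →ₗ[ℂ] ∀ i, V i) =
      ∑ i, c i • (LinearMap.single ℂ V i).comp (LinearMap.proj i) := by
    refine LinearMap.ext fun x => funext fun j => ?_
    simp only [LinearMap.sum_apply, LinearMap.pi_apply, LinearMap.smul_apply, LinearMap.proj_apply,
      LinearMap.comp_apply, Finset.sum_apply, Pi.smul_apply, LinearMap.coe_single]
    rw [Finset.sum_eq_single j (fun b _ hb => by rw [Pi.single_eq_of_ne' hb, smul_zero]) (by simp),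
      Pi.single_eq_same]
  rw [h, map_sum]
  refine Finset.sum_congr rfl fun i _ => ?_
  rw [map_smul, LinearMap.trace_comp_comm', LinearMap.proj_comp_single_same, LinearMap.trace_id,
    smul_eq_mul]

theorem trace_mulLeft_single {Γ : Type v} [Group Γ] [Fintype Γ] [DecidableEq Γ] (z : Γ) :
    LinearMap.trace ℂ (MonoidAlgebra ℂ Γ)
      (LinearMap.mulLeft ℂ (MonoidAlgebra.single z (1 : ℂ))) =
        if z = 1 then (Fintype.card Γ : ℂ) else 0 := by
  rw [LinearMap.trace_eq_matrix_trace ℂ (MonoidAlgebra.basis Γ ℂ), Matrix.trace]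
  simp only [Matrix.diag_apply, LinearMap.toMatrix_apply]
  have : ∀ g : Γ, (MonoidAlgebra.basis Γ ℂ).repr
      ((LinearMap.mulLeft ℂ (MonoidAlgebra.single z (1 : ℂ))) (MonoidAlgebra.basis Γ ℂ g)) g =
        if z = 1 then 1 else 0 := by
    intro g
    simp only [MonoidAlgebra.basis_apply, LinearMap.mulLeft_apply, MonoidAlgebra.single_mul_single, one_mul]
    show (MonoidAlgebra.single (z * g) (1 : ℂ)).coeff g = _
    simp [MonoidAlgebra.coeff_single, Finsupp.single_apply]
  rw [Finset.sum_congr rfl (fun g _ => this g)]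
  split <;> simp

/-- A central subgroup inside the commutator subgroup: the square of any element order divides the
index. -/
theorem orderOf_sq_dvd_index {Γ : Type v} [Group Γ] [Finite Γ] (K : Subgroup Γ) (hc : K ≤ center Γ)
    (hd : K ≤ commutator Γ) (χ : K →* ℂˣ) : orderOf χ ^ 2 ∣ K.index := by
  classical
  have := Fintype.ofFinite Γ
  obtain ⟨n, d, hd0, ⟨Φ⟩⟩ :=
    IsSemisimpleRing.exists_algEquiv_pi_matrix_of_isAlgClosed ℂ (MonoidAlgebra ℂ Γ)
  let emb : K →* MonoidAlgebra ℂ Γ := (MonoidAlgebra.of ℂ Γ).comp K.subtype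
  let blk : ∀ i, MonoidAlgebra ℂ Γ →ₐ[ℂ] Matrix (Fin (d i)) (Fin (d i)) ℂ :=
    fun i => (Pi.evalAlgHom ℂ (fun i => Matrix (Fin (d i)) (Fin (d i)) ℂ) i).comp Φ.toAlgHom
  have hcentral : ∀ (i) (z : K) (M : Matrix (Fin (d i)) (Fin (d i)) ℂ),
      Commute (blk i (emb z)) M := by
    intro i z M
    obtain ⟨x, hx⟩ : ∃ x, blk i x = M := ⟨Φ.symm (Pi.single i M), by simp [blk]⟩
    subst hx
    refine Commute.map ?_ (blk i)
    have : ∀ g : Γ, Commute (z : Γ) g := fun g => (Subgroup.mem_center_iff.1 (hc z.2) g).symm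
    induction x using MonoidAlgebra.induction_on with
    | of g => exact (this g).map (MonoidAlgebra.of ℂ Γ)
    | add a b ha hb => exact ha.add_right hb
    | smul r a ha => exact ha.smul_right r
  have hsc : ∀ (i) (z : K), ∃ c : ℂ, blk i (emb z) = Matrix.scalar _ c := by
    intro i z
    obtain ⟨c, hc'⟩ := Matrix.mem_range_scalar_of_commute_single (M := blk i (emb z))
      fun a b _ => ((hcentral i z _).symm)
    exact ⟨c, hc'.symm⟩
  choose lam hlam using hsc
  have : ∀ i, Nonempty (Fin (d i)) := fun i => by have := hd0 i; exact ⟨⟨0, Nat.pos_of_ne_zero this.out⟩⟩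
  have hlamhom : ∀ i, ∃ f : K →* ℂ, ∀ z, f z = lam i z := fun i => by
    refine ⟨⟨⟨lam i, ?_⟩, ?_⟩, fun _ => rfl⟩
    · exact Matrix.scalar_inj.1 ((hlam i 1).symm.trans (by rw [map_one, map_one, map_one]))
    · intro a b
      exact Matrix.scalar_inj.1 ((hlam i (a * b)).symm.trans (by
        rw [map_mul, map_mul, hlam, hlam, ← map_mul]))
  choose f hf using hlamhom
  let L : Fin n → (K →* ℂˣ) := fun i => (f i).toHomUnits
  have hL : ∀ i z, ((L i z : ℂˣ) : ℂ) = lam i z := fun i z => by simp [L, hf]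
  have hdet : ∀ i, L i ^ d i = 1 := by
    intro i
    let D : Γ →* ℂˣ := (Matrix.detMonoidHom.comp
      ((blk i : MonoidAlgebra ℂ Γ →* Matrix (Fin (d i)) (Fin (d i)) ℂ).comp
        (MonoidAlgebra.of ℂ Γ))).toHomUnits
    ext z
    have h1 : D z = 1 := Abelianization.commutator_subset_ker D (hd z.2)
    have h2 := congrArg Units.val h1
    simp only [D, MonoidHom.coe_toHomUnits, MonoidHom.comp_apply, Units.val_one] at h2
    have h3 : blk i (MonoidAlgebra.of ℂ Γ z) = Matrix.scalar _ (lam i z) := hlam i z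
    change (blk i (MonoidAlgebra.of ℂ Γ z)).det = 1 at h2
    rw [h3, Matrix.scalar_apply, Matrix.det_diagonal, Finset.prod_const, Finset.card_univ,
      Fintype.card_fin] at h2
    simpa [hL] using h2
  have htrace : ∀ z : K, ∑ i, lam i z * ((d i ^ 2 : ℕ) : ℂ) =
      if z = 1 then (Fintype.card Γ : ℂ) else 0 := by
    intro z
    have hz1 : ((z : Γ) = 1) ↔ z = 1 := by simp
    simp only [← hz1]
    rw [← trace_mulLeft_single, ← LinearMap.trace_conj' _ Φ.toLinearEquiv]
    have : Φ.toLinearEquiv.conj (LinearMap.mulLeft ℂ (MonoidAlgebra.single (z : Γ) (1 : ℂ))) =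
        LinearMap.pi fun i => lam i z • LinearMap.proj i := by
      refine LinearMap.ext fun x => funext fun i => ?_
      have h3 : Φ (MonoidAlgebra.single (z : Γ) (1 : ℂ)) i = Matrix.scalar _ (lam i z) := hlam i z
      simp only [LinearEquiv.conj_apply, LinearMap.comp_apply, LinearEquiv.coe_coe,
        AlgEquiv.toLinearEquiv_apply, LinearMap.mulLeft_apply, map_mul, LinearMap.pi_apply,
        LinearMap.smul_apply, LinearMap.proj_apply]
      show Φ (MonoidAlgebra.single (z : Γ) (1 : ℂ)) i * Φ (Φ.symm x) i = lam i z • x i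
      rw [h3, Φ.apply_symm_apply, Matrix.scalar_apply, ← Matrix.smul_eq_diagonal_mul]
    rw [this, trace_pi_scalar]
    simp [Module.finrank_matrix, pow_two]
  have hKc : IsMulCommutative K :=
    ⟨⟨fun a b => Subtype.ext (Subgroup.mem_center_iff.1 (hc b.2) a)⟩⟩
  have horth : ∀ i, ∑ z : K, ((χ z)⁻¹ : ℂˣ).val * lam i z =
      if L i = χ then (Fintype.card K : ℂ) else 0 := by
    intro i
    open IsMulCommutative in
    by_cases h : L i = χ
    · rw [if_pos h]
      simp [← hL, h]
    · rw [if_neg h]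
      have hne : χ⁻¹ * L i ≠ 1 := fun h' => h (inv_mul_eq_one.1 h').symm
      have := sum_hom_units_eq_zero ((Units.coeHom ℂ).comp (χ⁻¹ * L i)) (fun h' => hne (by
        ext z
        exact DFunLike.congr_fun h' z))
      rw [← this]
      simp [hL]
  have hsum : ((∑ i with L i = χ, d i ^ 2 : ℕ) : ℂ) * Fintype.card K = Fintype.card Γ := by
    have h1 : ∑ z : K, ((χ z)⁻¹ : ℂˣ).val * ∑ i, lam i z * ((d i ^ 2 : ℕ) : ℂ) =
        Fintype.card Γ := by
      simp only [htrace]; simp
    rw [← h1]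
    simp only [Finset.mul_sum, ← mul_assoc]
    rw [Finset.sum_comm]
    simp only [← Finset.sum_mul, horth, ite_mul, zero_mul]
    rw [← Finset.sum_filter, Nat.cast_sum, Finset.sum_mul]
    exact Finset.sum_congr rfl fun i _ => mul_comm _ _
  have hidx : (∑ i with L i = χ, d i ^ 2) = K.index := by
    have h := Subgroup.card_mul_index K
    rw [Nat.card_eq_fintype_card, Nat.card_eq_fintype_card] at h
    have hsum' : (∑ i with L i = χ, d i ^ 2) * Fintype.card K = Fintype.card Γ := by exact_mod_cast hsum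
    rw [← h, mul_comm] at hsum'
    exact Nat.eq_of_mul_eq_mul_left Fintype.card_pos hsum'
  rw [← hidx]
  refine Finset.dvd_sum fun i hi => pow_dvd_pow_of_dvd ?_ 2
  rw [orderOf_dvd_iff_pow_eq_one, ← (Finset.mem_filter.1 hi).2]
  exact hdet i

theorem exponent_sq_dvd {Q : Type u} [Group Q] [Finite Q] {Γ : Type v} [Group Γ] [Finite Γ]
    {σ : Γ →* Q} (hσ : Cfsg.IsStemExtension σ) : Monoid.exponent σ.ker ^ 2 ∣ Nat.card Q := by
  have hKc : IsMulCommutative σ.ker :=
    ⟨⟨fun a b => Subtype.ext (Subgroup.mem_center_iff.1 (hσ.2.1 b.2) a)⟩⟩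
  open IsMulCommutative in
  obtain ⟨e⟩ := CommGroup.monoidHom_mulEquiv_of_hasEnoughRootsOfUnity σ.ker ℂ
  open IsMulCommutative in
  obtain ⟨χ, hχ⟩ : ∃ χ : σ.ker →* ℂˣ, orderOf χ = Monoid.exponent σ.ker := by
    obtain ⟨z, hz⟩ := Monoid.exists_orderOf_eq_exponent (G := σ.ker) Monoid.ExponentExists.of_finite
    exact ⟨e.symm z, by rw [MulEquiv.orderOf_eq]; exact hz⟩
  rw [← hχ, ← Nat.card_congr (QuotientGroup.quotientKerEquivOfSurjective σ hσ.1).toEquiv]
  exact orderOf_sq_dvd_index σ.ker hσ.2.1 hσ.2.2 χ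

end Cfsg.Agent.FGS2
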