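import Cfsg.Agent.FGS2.SchurTools

/-! The multiplier of a metacyclic group. -/

namespace Cfsg.Agent.FGS2

open Subgroup
open scoped commutatorElement

/-- The automorphism "multiplication by a unit" of `ZMod M`, written multiplicatively. -/
def unitAut (M : ℕ) : (ZMod M)ˣ →* MulAut (Multiplicative (ZMod M)) where
  toFun u :=
    { toFun := fun x => Multiplicative.ofAdd ((u : ZMod M) * x.toAdd)
      invFun := fun x => Multiplicative.ofAdd ((↑u⁻¹ : ZMod M) * x.toAdd)
      left_inv := fun x => by simp [← mul_assoc]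
      right_inv := fun x => by simp [← mul_assoc]
      map_mul' := fun x y => by simp [mul_add] }
  map_one' := by ext x; simp
  map_mul' u v := by ext x; simp [mul_assoc]

theorem unitAut_apply (M : ℕ) (u : (ZMod M)ˣ) (x : ZMod M) :
    unitAut M u (Multiplicative.ofAdd x) = Multiplicative.ofAdd ((u : ZMod M) * x) := rfl

/-- The metacyclic extension `⟨A,B | A^M = 1, B A B⁻¹ = A^r, B^n = A^t⟩` exists with `A` of order `M`. -/
theorem exists_metacyclic_model (M n r t : ℕ) (hM : 0 < M) (hn : 0 < n) (hr : (r ^ n : ZMod M) = 1)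
    (ht : (t : ZMod M) * r = t) :
    ∃ (Γ : Type) (_ : Group Γ) (_ : Finite Γ) (A B : Γ),
      orderOf A = M ∧ B * A * B⁻¹ = A ^ r ∧ B ^ n = A ^ t ∧ closure ({A, B} : Set Γ) = ⊤ ∧
      ∀ (H : Type) [Group H] (a b : H), a ^ M = 1 → b * a * b⁻¹ = a ^ r → b ^ n = a ^ t →
        ∃ f : Γ →* H, f A = a ∧ f B = b := by
  have : NeZero M := ⟨hM.ne'⟩
  let u : (ZMod M)ˣ := Units.ofPowEqOne (r : ZMod M) n hr hn.ne'
  let φ : Multiplicative ℤ →* MulAut (Multiplicative (ZMod M)) := zpowersHom _ (unitAut M u)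
  have hφ1 : ∀ x : ZMod M, φ (Multiplicative.ofAdd 1) (Multiplicative.ofAdd x) =
      Multiplicative.ofAdd ((r : ZMod M) * x) := fun x => by
    simp [φ, unitAut_apply, u]
  have hu : u ^ n = 1 := Units.pow_ofPowEqOne hr hn.ne'
  have hφn : φ (Multiplicative.ofAdd (n : ℤ)) = 1 := by
    simp only [φ, zpowersHom_apply, toAdd_ofAdd, zpow_natCast, ← map_pow, hu, map_one]
  let G₀ := SemidirectProduct (Multiplicative (ZMod M)) (Multiplicative ℤ) φ
  let w : G₀ := ⟨Multiplicative.ofAdd (-(t : ZMod M)), Multiplicative.ofAdd (n : ℤ)⟩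
  have hfix : ∀ k : Multiplicative ℤ, φ k (Multiplicative.ofAdd (-(t : ZMod M))) =
      Multiplicative.ofAdd (-(t : ZMod M)) := by
    intro k
    have h1 : φ (Multiplicative.ofAdd 1) (Multiplicative.ofAdd (-(t : ZMod M))) =
        Multiplicative.ofAdd (-(t : ZMod M)) := by
      rw [hφ1, mul_neg, mul_comm, ht]
    have hk : k = Multiplicative.ofAdd (1 : ℤ) ^ k.toAdd := by
      apply Multiplicative.toAdd.injective; simp
    rw [hk, map_zpow]
    exact MulAction.mem_stabilizer_iff.1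
      (zpow_mem (MulAction.mem_stabilizer_iff.2 h1 : φ (Multiplicative.ofAdd 1) ∈
        MulAction.stabilizer (MulAut (Multiplicative (ZMod M))) (Multiplicative.ofAdd (-(t : ZMod M)))) _)
  have hwc : w ∈ center G₀ := by
    rw [mem_center_iff]
    intro g
    refine SemidirectProduct.ext ?_ (mul_comm _ _)
    show g.left * φ g.right (Multiplicative.ofAdd (-(t : ZMod M))) =
      Multiplicative.ofAdd (-(t : ZMod M)) * φ (Multiplicative.ofAdd (n : ℤ)) g.left
    rw [hφn, hfix, MulAut.one_apply, mul_comm]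
  have : (zpowers w).Normal := ⟨fun x hx g => by
    have := mem_center_iff.1 ((zpowers_le.2 hwc) hx) g
    rw [this, mul_inv_cancel_right]; exact hx⟩
  let Γ := G₀ ⧸ zpowers w
  let A : Γ := QuotientGroup.mk' _ (SemidirectProduct.inl (Multiplicative.ofAdd (1 : ZMod M)) : G₀)
  let B : Γ := QuotientGroup.mk' _ (SemidirectProduct.inr (Multiplicative.ofAdd (1 : ℤ)) : G₀)
  have hAk : ∀ k : ℕ, A ^ k =
      QuotientGroup.mk' _ (SemidirectProduct.inl (Multiplicative.ofAdd (k : ZMod M)) : G₀) := fun k => by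
    rw [← map_pow, ← map_pow, ← ofAdd_nsmul, nsmul_one]
  have hA : orderOf A = M := by
    rw [orderOf_eq_iff hM]
    refine ⟨by rw [hAk, ZMod.natCast_self, ofAdd_zero, map_one, map_one], fun k hk hk0 h => ?_⟩
    rw [hAk, ← MonoidHom.mem_ker, QuotientGroup.ker_mk'] at h
    obtain ⟨j, hj⟩ := Subgroup.mem_zpowers_iff.1 h
    have h2 := congrArg (fun x : G₀ => x.right) hj
    simp only [SemidirectProduct.right_inl] at h2
    change (SemidirectProduct.rightHom (φ := φ)) (w ^ j) = 1 at h2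
    rw [map_zpow, SemidirectProduct.rightHom_eq_right] at h2
    have hj0 : j = 0 := by
      have := congrArg Multiplicative.toAdd h2
      simp [w, hn.ne'] at this
      exact this
    rw [hj0, zpow_zero] at hj
    have h3 : (k : ZMod M) = 0 := by
      have := congrArg (fun x : G₀ => x.left.toAdd) hj
      simpa using this.symm
    rw [ZMod.natCast_eq_zero_iff] at h3
    exact absurd (Nat.le_of_dvd hk0 h3) (not_le.2 hk)
  have hBA : B * A * B⁻¹ = A ^ r := by
    rw [hAk, ← map_inv, ← map_mul, ← map_mul, ← map_inv (SemidirectProduct.inr (φ := φ)), ← SemidirectProduct.inl_aut, hφ1, mul_one]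
  have hBn : B ^ n = A ^ t := by
    rw [hAk, ← map_pow, ← map_pow]
    refine (QuotientGroup.eq.2 ?_).symm
    refine Subgroup.mem_zpowers_iff.2 ⟨1, ?_⟩
    rw [zpow_one, ← map_inv]
    apply SemidirectProduct.ext
    · show Multiplicative.ofAdd (-(t : ZMod M)) = _
      rw [SemidirectProduct.mul_left]
      simp [← map_pow]
    · show Multiplicative.ofAdd (n : ℤ) = _
      rw [SemidirectProduct.mul_right]
      simp [← map_pow, ← ofAdd_nsmul]
  have hgen : closure ({A, B} : Set Γ) = ⊤ := by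
    rw [eq_top_iff]
    intro x _
    obtain ⟨g, rfl⟩ := QuotientGroup.mk'_surjective _ x
    rw [← SemidirectProduct.inl_left_mul_inr_right g, map_mul]
    refine mul_mem ?_ ?_
    · have : g.left = Multiplicative.ofAdd ((g.left.toAdd.val : ℕ) : ZMod M) := by simp
      rw [this, ← hAk]
      exact pow_mem (subset_closure (by simp)) _
    · have : g.right = Multiplicative.ofAdd (1 : ℤ) ^ g.right.toAdd := by
        apply Multiplicative.toAdd.injective; simp
      rw [this, map_zpow, map_zpow]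
      exact zpow_mem (subset_closure (by simp [B])) _
  have hfin : Finite Γ := by
    have hsurj : Function.Surjective fun p : ZMod M × Fin n =>
        A ^ p.1.val * B ^ (p.2 : ℕ) := by
      intro x
      obtain ⟨g, rfl⟩ := QuotientGroup.mk'_surjective _ x
      have hn' : (n : ℤ) ≠ 0 := by exact_mod_cast hn.ne'
      let q := g.right.toAdd / (n : ℤ)
      refine ⟨((g.left.toAdd + (q : ZMod M) * t),
        ⟨(g.right.toAdd % (n : ℤ)).toNat, by
          have := Int.emod_lt_of_pos g.right.toAdd (by exact_mod_cast hn : (0 : ℤ) < n)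
          have := Int.emod_nonneg g.right.toAdd hn'
          omega⟩), ?_⟩
      have hd : g.right.toAdd = (n : ℤ) * q + g.right.toAdd % (n : ℤ) := (Int.mul_ediv_add_emod _ _).symm
      have hBz : B ^ g.right.toAdd = A ^ ((q * (t : ℤ))) * B ^ (g.right.toAdd % (n : ℤ)).toNat := by
        conv_lhs => rw [hd]
        rw [zpow_add, zpow_mul, zpow_natCast, hBn, ← zpow_natCast A t, ← zpow_mul, mul_comm (t : ℤ),
          ← zpow_natCast B, Int.toNat_of_nonneg (Int.emod_nonneg _ hn')]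
      have hgdec : QuotientGroup.mk' (zpowers w) g = A ^ (g.left.toAdd.val) * B ^ g.right.toAdd := by
        conv_lhs => rw [← SemidirectProduct.inl_left_mul_inr_right g, map_mul]
        rw [hAk, ← map_zpow, ← map_zpow]
        congr 3
        · simp
        · apply Multiplicative.toAdd.injective; simp
      rw [hgdec, hBz, ← mul_assoc, ← zpow_natCast A g.left.toAdd.val, ← zpow_add]
      show A ^ (g.left.toAdd + (q : ZMod M) * t).val * _ = _
      congr 1
      rw [← zpow_natCast, zpow_eq_zpow_iff_modEq, hA, ← ZMod.intCast_eq_intCast_iff]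
      simp
    exact Finite.of_surjective _ hsurj
  refine ⟨Γ, _, hfin, A, B, hA, hBA, hBn, hgen, fun H _ a b ha hb hbn => ?_⟩
  let fA : Multiplicative (ZMod M) →* H := AddMonoidHom.toMultiplicativeLeft
    (ZMod.lift M ⟨zmultiplesHom (Additive H) (Additive.ofMul a), by
      show (M : ℤ) • Additive.ofMul a = 0
      rw [natCast_zsmul, ← ofMul_pow, ha]; rfl⟩)
  have hfA : ∀ k : ℕ, fA (Multiplicative.ofAdd (k : ZMod M)) = a ^ k := fun k => by
    rw [← Int.cast_natCast (R := ZMod M) k]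
    show Additive.toMul ((ZMod.lift M _) ((k : ℤ) : ZMod M)) = a ^ k
    rw [ZMod.lift_coe]
    simp
  let f0 : G₀ →* H := SemidirectProduct.lift fA (zpowersHom H b) (by
    intro g
    have key : fA.comp (φ (Multiplicative.ofAdd 1)).toMonoidHom = (MulAut.conj b).toMonoidHom.comp fA := by
      refine MonoidHom.ext fun x => ?_
      obtain ⟨k, rfl⟩ : ∃ k : ℕ, x = Multiplicative.ofAdd (k : ZMod M) := ⟨x.toAdd.val, by simp⟩
      show fA (φ (Multiplicative.ofAdd 1) (Multiplicative.ofAdd (k : ZMod M))) = b * fA _ * b⁻¹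
      rw [hφ1, ← Nat.cast_mul, hfA, hfA, ← conj_pow, hb, ← pow_mul]
    refine MonoidHom.ext fun x => ?_
    have hg : g = Multiplicative.ofAdd (1 : ℤ) ^ g.toAdd := by
      apply Multiplicative.toAdd.injective; simp
    rw [hg]
    generalize g.toAdd = j
    induction j using Int.induction_on generalizing x with
    | zero => simp
    | succ i ih =>
      rw [zpow_add, zpow_one]
      simp only [MonoidHom.comp_apply, MulEquiv.coe_toMonoidHom, map_mul, MulAut.mul_apply] at ih ⊢
      rw [ih]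
      have h1 := DFunLike.congr_fun key x
      simp only [MonoidHom.comp_apply, MulEquiv.coe_toMonoidHom] at h1
      rw [h1]
      simp
    | pred i ih =>
      rw [zpow_sub, zpow_one]
      simp only [MonoidHom.comp_apply, MulEquiv.coe_toMonoidHom, map_mul, map_inv, MulAut.mul_apply] at ih ⊢
      rw [ih]
      congr 1
      have h1 := DFunLike.congr_fun key ((φ (Multiplicative.ofAdd 1))⁻¹ x)
      simp only [MonoidHom.comp_apply, MulEquiv.coe_toMonoidHom, MulAut.apply_inv_self] at h1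
      rw [h1]
      simp [mul_assoc])
  have hf0A : f0 (SemidirectProduct.inl (Multiplicative.ofAdd (1 : ZMod M))) = a := by
    rw [SemidirectProduct.lift_inl]
    simpa using hfA 1
  have hf0B : f0 (SemidirectProduct.inr (Multiplicative.ofAdd (1 : ℤ))) = b := by
    rw [SemidirectProduct.lift_inr]; simp
  have hf0w : zpowers w ≤ f0.ker := by
    rw [zpowers_le, MonoidHom.mem_ker]
    show fA (Multiplicative.ofAdd (-(t : ZMod M))) * zpowersHom H b (Multiplicative.ofAdd (n : ℤ)) = 1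
    rw [ofAdd_neg, map_inv, hfA, zpowersHom_apply, toAdd_ofAdd, zpow_natCast, hbn, inv_mul_cancel]
  exact ⟨QuotientGroup.lift _ f0 hf0w, hf0A, hf0B⟩

/-- Choosing a lift of `r` with the right gcd. -/
theorem exists_lift_exponent (m μ r : ℕ) (hm : 0 < m) (hμ : 0 < μ) (hr : 0 < r) :
    ∃ r' : ℕ, 0 < r' ∧ r' ≡ r [MOD m] ∧ Nat.gcd m (r - 1) ∣ r' - 1 ∧
      Nat.gcd (m * μ) (r' - 1) ∣ Nat.gcd m (r - 1) := by
  set g := Nat.gcd m (r - 1) with hg
  have hg0 : 0 < g := Nat.gcd_pos_of_pos_left _ hm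
  have hco : Nat.Coprime ((r - 1) / g) (m / g) := (Nat.coprime_div_gcd_div_gcd hg0).symm
  have hm' : 0 < m / g := Nat.div_pos (Nat.gcd_le_left _ hm) hg0
  have : NeZero (m / g * μ) := ⟨by positivity⟩
  have : NeZero (m / g) := ⟨hm'.ne'⟩
  obtain ⟨u, hu⟩ := ZMod.unitsMap_surjective (dvd_mul_right (m / g) μ) (ZMod.unitOfCoprime _ hco)
  refine ⟨g * (u : ZMod (m / g * μ)).val + 1, by omega, ?_, by simp, ?_⟩
  · have h1 : (u : ZMod (m / g * μ)).val ≡ (r - 1) / g [MOD m / g] := by
      rw [← ZMod.natCast_eq_natCast_iff]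
      have h2 := congrArg Units.val hu
      simp only [ZMod.unitsMap_def, Units.coe_map, ZMod.coe_unitOfCoprime] at h2
      rw [← h2]
      simp
    have h3 : g * (u : ZMod (m / g * μ)).val ≡ g * ((r - 1) / g) [MOD g * (m / g)] :=
      Nat.ModEq.mul_left' g h1
    rw [Nat.mul_div_cancel' (Nat.gcd_dvd_left _ _), Nat.mul_div_cancel' (Nat.gcd_dvd_right _ _)] at h3
    have := h3.add_right 1
    rwa [Nat.sub_add_cancel hr] at this
  · have hc := ZMod.val_coe_unit_coprime u
    rw [Nat.add_sub_cancel, show m * μ = g * (m / g * μ) by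
      rw [← mul_assoc, Nat.mul_div_cancel' (Nat.gcd_dvd_left _ _)], Nat.gcd_mul_left,
      hc.symm.gcd_eq_one, mul_one]

theorem exists_presented_model {m n r t : ℕ} {rels : Set (FreeGroup Bool)}
    (hrels : rels = {FreeGroup.of true ^ m, (FreeGroup.of false) ^ n * (FreeGroup.of true ^ t)⁻¹,
      FreeGroup.of false * FreeGroup.of true * (FreeGroup.of false)⁻¹ * (FreeGroup.of true ^ r)⁻¹}) :
    let a : PresentedGroup rels := PresentedGroup.of true
    let b : PresentedGroup rels := PresentedGroup.of false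
    a ^ m = 1 ∧ b ^ n = a ^ t ∧ b * a * b⁻¹ = a ^ r ∧ closure {a, b} = ⊤ := by
  intro a b
  have h : ∀ x ∈ rels, PresentedGroup.mk rels x = 1 := fun x hx => PresentedGroup.one_of_mem hx
  refine ⟨?_, ?_, ?_, ?_⟩
  · have := h (FreeGroup.of true ^ m) (by simp [hrels])
    rwa [map_pow] at this
  · have := h ((FreeGroup.of false) ^ n * (FreeGroup.of true ^ t)⁻¹) (by simp [hrels])
    rw [map_mul, map_inv, map_pow, map_pow, mul_inv_eq_one] at this
    exact this
  · have := h (FreeGroup.of false * FreeGroup.of true * (FreeGroup.of false)⁻¹ *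
      (FreeGroup.of true ^ r)⁻¹) (by simp [hrels])
    rw [map_mul, map_mul, map_mul, map_inv, map_inv, map_pow, mul_inv_eq_one] at this
    exact this
  · have e : ({a, b} : Set (PresentedGroup rels)) = Set.range PresentedGroup.of := by
      ext x
      constructor
      · rintro (rfl | rfl) <;> exact ⟨_, rfl⟩
      · rintro ⟨_ | _, rfl⟩ <;> simp [a, b]
    rw [e, PresentedGroup.closure_range_of]

theorem sum_range_succ_mul (r i : ℕ) :
    ∑ j ∈ Finset.range (i + 1), r ^ j = 1 + r * ∑ j ∈ Finset.range i, r ^ j := by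
  rw [Finset.sum_range_succ', Finset.mul_sum, add_comm, pow_zero]
  exact congrArg (1 + ·) (Finset.sum_congr rfl fun x _ => pow_succ' r x)

theorem pred_mul_geom_sum (r k : ℕ) (hr : 0 < r) :
    (r - 1) * (∑ i ∈ Finset.range k, r ^ i) + 1 = r ^ k := by
  induction k with
  | zero => simp
  | succ k ih =>
    rw [Finset.sum_range_succ, mul_add, pow_succ]
    obtain ⟨s, rfl⟩ := Nat.exists_eq_add_of_le' hr
    simp only [Nat.add_sub_cancel] at ih ⊢
    calc s * ∑ i ∈ Finset.range k, (s + 1) ^ i + s * (s + 1) ^ k + 1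
        = (s * ∑ i ∈ Finset.range k, (s + 1) ^ i + 1) + s * (s + 1) ^ k := by ring
      _ = _ := by rw [ih]; ring

/-- The multiplier of the metacyclic group. -/
theorem metacyclic_multiplier (m n r l : ℕ) (hm : 0 < m) (hn : 0 < n) (hr : 0 < r)
    (hrn : r ^ n ≡ 1 [MOD m]) :
    Cfsg.HasCyclicSchurMultiplier
      (PresentedGroup ({FreeGroup.of true ^ m, (FreeGroup.of false) ^ n *
        (FreeGroup.of true ^ (m * l / Nat.gcd m (r - 1)))⁻¹,
        FreeGroup.of false * FreeGroup.of true * (FreeGroup.of false)⁻¹ * (FreeGroup.of true ^ r)⁻¹} :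
          Set (FreeGroup Bool)))
      (Nat.gcd l (Nat.gcd m (r - 1) * Nat.gcd m (∑ i ∈ Finset.range n, r ^ i) / m)) := by
  set g₁ := Nat.gcd m (r - 1) with hg₁
  set S := ∑ i ∈ Finset.range n, r ^ i with hS
  set g₂ := Nat.gcd m S with hg₂
  set t := m * l / g₁ with ht
  set μ := Nat.gcd l (g₁ * g₂ / m) with hμ
  have hg₁0 : 0 < g₁ := Nat.gcd_pos_of_pos_left _ hm
  have hg₂0 : 0 < g₂ := Nat.gcd_pos_of_pos_left _ hm
  have hmg : g₁ ∣ m := Nat.gcd_dvd_left _ _
  have hmS : m ∣ (r - 1) * S := by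
    have h1 := pred_mul_geom_sum r n hr
    rw [← hS] at h1
    replace hrn := (Nat.modEq_iff_dvd' (Nat.one_le_pow _ _ hr)).1 hrn.symm
    have : r ^ n - 1 = (r - 1) * S := by omega
    rwa [this] at hrn
  have hm12 : m ∣ g₁ * g₂ := (Nat.dvd_gcd (dvd_refl m) hmS).trans (Nat.gcd_mul_right_dvd_mul_gcd _ _ _)
  have hq0 : 0 < g₁ * g₂ / m := Nat.div_pos (Nat.le_of_dvd (by positivity) hm12) hm
  have hμ0 : 0 < μ := Nat.gcd_pos_of_pos_right _ hq0
  have hμg : μ ∣ g₁ := by
    refine (Nat.gcd_dvd_right _ _).trans ?_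
    rw [Nat.div_dvd_iff_dvd_mul hm12 hm]
    exact (mul_dvd_mul_left g₁ (Nat.gcd_dvd_left m S)).trans (by rw [mul_comm])
  have hmμ : m * μ ∣ g₁ * g₂ :=
    (mul_dvd_mul_left m (Nat.gcd_dvd_right _ _)).trans (by rw [Nat.mul_div_cancel' hm12])
  have htg : t * g₁ = m * l := Nat.div_mul_cancel (hmg.mul_right l)
  obtain ⟨r', hr'0, hr'm, hr'g, hr'gcd⟩ := exists_lift_exponent m μ r hm hμ0 hr
  set M := m * μ with hM
  have hM0 : 0 < M := by positivity
  have hr'n : ((r' : ZMod M) ^ n) = 1 := by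
    rw [← Nat.cast_pow, ← pred_mul_geom_sum r' n hr'0, Nat.cast_add, Nat.cast_one, add_eq_right,
      ZMod.natCast_eq_zero_iff]
    refine hmμ.trans (mul_dvd_mul hr'g ?_)
    have h1 : (∑ i ∈ Finset.range n, r' ^ i) ≡ S [MOD m] := by
      rw [hS, ← ZMod.natCast_eq_natCast_iff, Nat.cast_sum, Nat.cast_sum]
      refine Finset.sum_congr rfl fun i _ => ?_
      rw [Nat.cast_pow, Nat.cast_pow, (ZMod.natCast_eq_natCast_iff _ _ _).2 hr'm]
    exact ((h1.of_dvd (Nat.gcd_dvd_left m S)).dvd_iff dvd_rfl).2 (Nat.gcd_dvd_right m S)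
  have ht' : (t : ZMod M) * r' = t := by
    have h1 : (((t * (r' - 1)) : ℕ) : ZMod M) = 0 := by
      rw [ZMod.natCast_eq_zero_iff]
      obtain ⟨q, hq⟩ := hr'g
      rw [hq, ← mul_assoc, htg]
      exact (mul_dvd_mul_left m (Nat.gcd_dvd_left _ _)).mul_right q
    rw [Nat.cast_mul, Nat.cast_sub (by omega : 1 ≤ r'), Nat.cast_one, mul_sub, mul_one, sub_eq_zero] at h1
    exact h1
  obtain ⟨Γ, _, _, A, B, hA, hBA, hBn, hgenΓ, hmap⟩ := exists_metacyclic_model M n r' t hM0 hn hr'n ht'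
  obtain ⟨ham, hbn, hba, hgenQ⟩ := exists_presented_model (m := m) (n := n) (r := r) (t := t)
    (rels := {FreeGroup.of true ^ m, (FreeGroup.of false) ^ n * (FreeGroup.of true ^ t)⁻¹,
      FreeGroup.of false * FreeGroup.of true * (FreeGroup.of false)⁻¹ * (FreeGroup.of true ^ r)⁻¹}) rfl
  set rels : Set (FreeGroup Bool) := {FreeGroup.of true ^ m,
    (FreeGroup.of false) ^ n * (FreeGroup.of true ^ t)⁻¹,
    FreeGroup.of false * FreeGroup.of true * (FreeGroup.of false)⁻¹ * (FreeGroup.of true ^ r)⁻¹} with hrels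
  set a : PresentedGroup rels := PresentedGroup.of true with haDef
  set b : PresentedGroup rels := PresentedGroup.of false with hbDef
  have hpowr : a ^ r' = a ^ r := by
    rw [pow_eq_pow_iff_modEq]
    exact hr'm.of_dvd (orderOf_dvd_of_pow_eq_one ham)
  obtain ⟨σ, hσA, hσB⟩ := hmap _ a b (by rw [hM, pow_mul, ham, one_pow]) (by rw [hpowr, hba]) hbn
  have hσs : Function.Surjective σ := by
    rw [← MonoidHom.range_eq_top, MonoidHom.range_eq_map, ← hgenΓ, MonoidHom.map_closure,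
      Set.image_pair, hσA, hσB, hgenQ]
  have hAmc : A ^ m ∈ center Γ := by
    rw [← Subgroup.zpowers_le]
    have hconjA : B * A ^ m * B⁻¹ = A ^ m := by
      rw [← conj_pow, hBA, ← pow_mul, pow_eq_pow_iff_modEq, hA]
      refine ((Nat.modEq_iff_dvd' (Nat.le_mul_of_pos_left m hr'0)).2 ?_).symm
      have : r' * m - m = m * (r' - 1) := by rw [Nat.mul_sub, mul_one, mul_comm]
      rw [this]
      exact mul_dvd_mul_left m (hμg.trans hr'g)
    have : (closure ({A, B} : Set Γ)) ≤ Subgroup.centralizer {A ^ m} := by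
      rw [closure_le]
      intro x hx
      rw [SetLike.mem_coe, Subgroup.mem_centralizer_singleton_iff]
      simp only [Set.mem_insert_iff, Set.mem_singleton_iff] at hx
      rcases hx with h | h <;> rw [h] <;> first
        | exact ((Commute.refl A).pow_left m).eq
        | exact ((Commute.refl A).pow_right m).eq
        | exact (mul_inv_eq_iff_eq_mul.1 hconjA)
        | exact (mul_inv_eq_iff_eq_mul.1 hconjA).symm
    rw [zpowers_le, mem_center_iff]
    intro g
    exact (this (hgenΓ ▸ mem_top g) _ rfl).symm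
  have : (zpowers (A ^ m)).Normal := ⟨fun x hx g => by
    have := mem_center_iff.1 ((zpowers_le.2 hAmc) hx) g
    rw [this, mul_inv_cancel_right]; exact hx⟩
  let qm := QuotientGroup.mk' (zpowers (A ^ m))
  have hqA : qm A ^ m = 1 := by
    rw [← map_pow, ← MonoidHom.mem_ker, QuotientGroup.ker_mk']; exact mem_zpowers _
  have hqr : qm A ^ r' = qm A ^ r := by
    rw [pow_eq_pow_iff_modEq]
    exact hr'm.of_dvd (orderOf_dvd_of_pow_eq_one hqA)
  let f : Bool → Γ ⧸ zpowers (A ^ m) := fun x => if x then qm A else qm B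
  let ρ : PresentedGroup rels →* Γ ⧸ zpowers (A ^ m) := PresentedGroup.toGroup (f := f) (by
    rintro x (rfl | rfl | rfl)
    · simp [f, hqA]
    · simp only [map_mul, map_inv, map_pow, FreeGroup.lift_apply_of, f]
      rw [mul_inv_eq_one]
      simp only [Bool.false_eq_true, if_false, if_true, ← map_pow, hBn]
    · simp only [map_mul, map_inv, map_pow, FreeGroup.lift_apply_of, f]
      simp only [Bool.false_eq_true, if_false, if_true]
      rw [mul_inv_eq_one, ← hqr, ← map_pow, ← hBA, map_mul, map_mul, map_inv])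
  have hρσ : ρ.comp σ = qm := by
    refine MonoidHom.eq_of_eqOn_dense hgenΓ ?_
    rintro x (rfl | rfl)
    · simp only [MonoidHom.comp_apply, hσA, haDef, ρ, PresentedGroup.toGroup.of, f]
      simp
    · simp only [MonoidHom.comp_apply, hσB, hbDef, ρ, PresentedGroup.toGroup.of, f]
      simp
  have hker : σ.ker = zpowers (A ^ m) := by
    refine le_antisymm (fun x hx => ?_) ?_
    · rw [← QuotientGroup.ker_mk' (zpowers (A ^ m)), MonoidHom.mem_ker]
      show qm x = 1
      rw [← hρσ, MonoidHom.comp_apply, MonoidHom.mem_ker.1 hx, map_one]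
    · rw [zpowers_le, MonoidHom.mem_ker, map_pow, hσA, ham]
  have hAmd : A ^ g₁ ∈ zpowers (A ^ (r' - 1)) := by
    have hb := Nat.gcd_eq_gcd_ab M (r' - 1)
    have h1 : A ^ (Nat.gcd M (r' - 1)) ∈ zpowers (A ^ (r' - 1)) := by
      refine Subgroup.mem_zpowers_iff.2 ⟨Nat.gcdB M (r' - 1), ?_⟩
      rw [← zpow_natCast A (r' - 1), ← zpow_mul, ← zpow_natCast A (Nat.gcd M (r' - 1)), hb, zpow_add,
        zpow_mul A (M : ℤ), zpow_natCast, ← hA, pow_orderOf_eq_one, one_zpow, one_mul]
    obtain ⟨k, hk⟩ := hr'gcd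
    rw [show g₁ = Nat.gcd M (r' - 1) * k from hk, pow_mul]
    exact pow_mem h1 k
  have hst : Cfsg.IsStemExtension σ := by
    refine ⟨hσs, hker ▸ zpowers_le.2 hAmc, ?_⟩
    rw [hker, zpowers_le]
    have hc : A ^ (r' - 1) ∈ commutator Γ := by
      have hA' : A ^ (r' - 1) = ⁅B, A⁆ := by
        rw [commutatorElement_def, hBA, eq_mul_inv_iff_mul_eq, ← pow_succ, Nat.sub_add_cancel hr'0]
      rw [hA']
      exact commutator_mem_commutator (mem_top _) (mem_top _)
    obtain ⟨k, hk⟩ := hmg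
    rw [hk, pow_mul]
    exact pow_mem ((zpowers_le.2 hc) hAmd) k
  have hcard : Nat.card σ.ker = μ := by
    rw [hker, Nat.card_zpowers, orderOf_pow' _ hm.ne', hA, hM, Nat.gcd_eq_right (dvd_mul_right m μ),
      Nat.mul_div_cancel_left _ hm]
  have hcyc : IsCyclic σ.ker := by rw [hker]; infer_instance
  refine ⟨⟨Γ, _, inferInstance, σ, hst, ?_⟩, fun Δ _ _ τ hτ => ?_⟩
  · have e := zmodCyclicMulEquiv (G := σ.ker) hcyc
    rw [hcard] at e
    exact ⟨e.symm⟩
  have hord : orderOf a = m := by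
    refine Nat.dvd_antisymm (orderOf_dvd_of_pow_eq_one ham) ?_
    have h1 : orderOf (qm A) ∣ orderOf a := by
      have : ρ a = qm A := by rw [← hσA, ← MonoidHom.comp_apply, hρσ]
      rw [← this]
      exact orderOf_map_dvd ρ a
    refine dvd_trans ?_ h1
    have h2 : qm (A ^ orderOf (qm A)) = 1 := by rw [map_pow, pow_orderOf_eq_one]
    rw [← MonoidHom.mem_ker, QuotientGroup.ker_mk'] at h2
    obtain ⟨j, hj⟩ := Subgroup.mem_zpowers_iff.1 h2
    replace hj : A ^ ((m : ℤ) * j) = A ^ ((orderOf (qm A) : ℕ) : ℤ) := by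
      rw [zpow_mul, zpow_natCast, zpow_natCast]; exact hj
    rw [zpow_eq_zpow_iff_modEq, hA] at hj
    have h3 : (m : ℤ) ∣ (orderOf (qm A) : ℤ) - (m : ℤ) * j :=
      (Int.natCast_dvd_natCast.2 (dvd_mul_right m μ)).trans (Int.modEq_iff_dvd.1 hj)
    have := dvd_add h3 (dvd_mul_right (m : ℤ) j)
    rw [sub_add_cancel] at this
    exact Int.natCast_dvd_natCast.1 this
  -- the upper bound
  obtain ⟨X, hX⟩ := hτ.1 a
  obtain ⟨Y, hY⟩ := hτ.1 b
  have hc : ∀ z ∈ τ.ker, ∀ y, y * z = z * y := fun z hz y => mem_center_iff.1 (hτ.2.1 hz) y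
  obtain ⟨z, hz, hYX⟩ : ∃ z ∈ τ.ker, Y * X * Y⁻¹ = X ^ r * z :=
    ⟨(X ^ r)⁻¹ * (Y * X * Y⁻¹), by simp [MonoidHom.mem_ker, hX, hY, hba], by group⟩
  have hzc : ∀ y, Commute y z := hc z hz
  have hcY : ⁅Y, X⁆ = X ^ (r - 1) * z := by
    rw [commutatorElement_def, hYX, mul_assoc, ← (hzc X⁻¹).eq, ← mul_assoc]
    congr 1
    rw [mul_inv_eq_iff_eq_mul, ← pow_succ, Nat.sub_add_cancel hr]
  have hpow : ∀ k, Y * (X ^ k) * Y⁻¹ = X ^ (r * k) * z ^ k := fun k => by
    rw [← conj_pow, hYX, (hzc (X ^ r)).mul_pow, ← pow_mul]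
  have hle : commutator Δ ≤ zpowers ⁅Y, X⁆ := by
    refine commutator_le_zpowers (closure_pair_of_stem hτ (by rw [hX, hY, hgenQ])) ?_ ?_
    · rw [hcY, ← mul_assoc X, ← pow_succ', mul_assoc, ← (hzc X⁻¹).eq, ← mul_assoc]
      rw [pow_succ, mul_inv_cancel_right]
      exact mem_zpowers _
    · have : Y * ⁅Y, X⁆ * Y⁻¹ = ⁅Y, X⁆ ^ r := by
        rw [hcY, (hzc (X ^ (r - 1))).mul_pow, ← pow_mul, ← mul_assoc Y,
          mul_assoc (Y * X ^ (r - 1)) z Y⁻¹, ← (hzc Y⁻¹).eq, ← mul_assoc, hpow, mul_assoc, ← pow_succ,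
          Nat.sub_add_cancel hr, mul_comm r]
      rw [this]
      exact pow_mem (mem_zpowers _) _
  have hfixpow : ∀ k, Commute (X ^ k) Y → ⁅Y, X⁆ ^ k = 1 := by
    intro k hk
    rw [hcY, (hzc (X ^ (r - 1))).mul_pow, ← pow_mul]
    have h1 := hpow k
    rw [← hk.eq, mul_inv_cancel_right] at h1
    have h2 : X ^ (r * k) = X ^ ((r - 1) * k) * X ^ k := by
      rw [← pow_add, ← Nat.succ_mul, Nat.succ_eq_add_one, Nat.sub_add_cancel hr]
    rw [h2, mul_assoc, ((hzc (X ^ k)).pow_right k).eq, ← mul_assoc, eq_comm, mul_eq_right] at h1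
    exact h1
  have hXm : Commute (X ^ m) Y := (hc (X ^ m) (by rw [MonoidHom.mem_ker, map_pow, hX, ham]) Y).symm
  have hXt : Commute (X ^ t) Y := by
    have hv : (X ^ t)⁻¹ * Y ^ n ∈ τ.ker := by
      simp [MonoidHom.mem_ker, hX, hY, hbn]
    have e : X ^ t = Y ^ n * ((X ^ t)⁻¹ * Y ^ n)⁻¹ := by group
    rw [e]
    exact ((Commute.refl Y).pow_left n).mul_left (Commute.inv_left (hc _ hv Y).symm)
  have hcS : ⁅Y, X⁆ ^ S = 1 := by
    have hit : ∀ i, Y ^ i * X * (Y ^ i)⁻¹ = X ^ (r ^ i) * z ^ (∑ j ∈ Finset.range i, r ^ j) := by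
      intro i
      induction i with
      | zero => simp
      | succ i ih =>
        calc Y ^ (i + 1) * X * (Y ^ (i + 1))⁻¹ = Y * (Y ^ i * X * (Y ^ i)⁻¹) * Y⁻¹ := by
              rw [pow_succ']; group
          _ = Y * X ^ (r ^ i) * Y⁻¹ * z ^ (∑ j ∈ Finset.range i, r ^ j) := by
              rw [ih, ← mul_assoc, mul_assoc (Y * X ^ r ^ i), ← ((hzc Y⁻¹).pow_right _).eq, ← mul_assoc]
          _ = _ := by
              rw [hpow, mul_assoc, ← pow_add, ← pow_succ']
              congr 2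
              clear ih
              induction i with
              | zero => simp
              | succ i ih2 => rw [Finset.sum_range_succ, Finset.sum_range_succ _ (i + 1), ← ih2]; ring
    have hv : (X ^ t)⁻¹ * Y ^ n ∈ τ.ker := by
      simp [MonoidHom.mem_ker, hX, hY, hbn]
    have h1 : Y ^ n * X * (Y ^ n)⁻¹ = X := by
      have e : Y ^ n = X ^ t * ((X ^ t)⁻¹ * Y ^ n) := by group
      have hcomm : Commute (Y ^ n) X := by
        rw [e]; exact ((Commute.refl X).pow_left t).mul_left (hc _ hv X).symm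
      rw [hcomm.eq, mul_inv_cancel_right]
    rw [hit, ← hS] at h1
    rw [hcY, (hzc (X ^ (r - 1))).mul_pow, ← pow_mul]
    have h2 : r ^ n = (r - 1) * S + 1 := by rw [hS]; exact (pred_mul_geom_sum r n hr).symm
    rw [h2, pow_succ, mul_assoc, ((hzc X).pow_right S).eq, ← mul_assoc] at h1
    exact mul_eq_right.1 h1
  have hdvd : orderOf ⁅Y, X⁆ ∣ Nat.gcd (t) g₂ :=
    Nat.dvd_gcd (orderOf_dvd_of_pow_eq_one (hfixpow t hXt))
      (Nat.dvd_gcd (orderOf_dvd_of_pow_eq_one (hfixpow m hXm)) (orderOf_dvd_of_pow_eq_one hcS))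
  have hσc : orderOf (τ ⁅Y, X⁆) = m / g₁ := by
    rw [hcY, map_mul, map_pow, hX, MonoidHom.mem_ker.1 hz, mul_one]
    by_cases h0 : r - 1 = 0
    · have hg : g₁ = m := by rw [hg₁, h0, Nat.gcd_zero_right]
      rw [h0, pow_zero, orderOf_one, hg, Nat.div_self hm]
    · rw [orderOf_pow' _ h0, hord, ← hg₁]
  refine exists_surj_zmod (d := ⁅Y, X⁆ ^ (m / g₁)) (fun x hx =>
    mem_zpowers_pow_of_map_eq_one τ (hle (hτ.2.2 hx)) hx hσc) ?_
  rw [← pow_mul, ← orderOf_dvd_iff_pow_eq_one]
  refine hdvd.trans (dvd_of_eq ?_)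
  rw [hμ, ← Nat.gcd_mul_left]
  congr 1
  · rw [ht, Nat.mul_div_right_comm hmg]
  · obtain ⟨q, hq⟩ := hm12
    rw [hq, Nat.mul_div_cancel_left _ hm]
    have : g₂ * g₁ = m / g₁ * q * g₁ := by
      rw [mul_comm g₂, hq, mul_comm _ g₁, ← mul_assoc, Nat.mul_div_cancel' hmg]
    exact Nat.eq_of_mul_eq_mul_right hg₁0 this

end Cfsg.Agent.FGS2
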