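import Cfsg.Agent.FGS2.Schur

/-! The multiplier of a finitely presented finite group. -/

namespace Cfsg.Agent.FGS2

open Subgroup
open scoped commutatorElement IsMulCommutative

universe u v

/-- If a group is the torsion part of an abelian group spanned by `r` elements, with quotient a
sublattice of full rank `n`, it is generated by `r - n` elements. -/
theorem rank_le_of_surj {M : Type u} [CommGroup M] [Finite M] {r n : ℕ} {K : Type v} [CommGroup K]
    (ν : (Fin r → ℤ) →+ Additive K) (hν : Function.Surjective ν)
    (g : Additive K →+ (Fin n → ℤ)) (d : ℤ) (hd : d ≠ 0) (hg : ∀ x, d • x ∈ g.range)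
    (i : M →* K) (hi : Function.Injective i) (hker : ∀ k, g k = 0 ↔ Additive.toMul k ∈ i.range) :
    Group.rank M ≤ r - n := by
  classical
  let f : (Fin r → ℤ) →ₗ[ℤ] (Fin n → ℤ) := (g.comp ν).toIntLinearMap
  have hrange : n ≤ Module.finrank ℤ (LinearMap.range f) := by
    let j : (Fin n → ℤ) →ₗ[ℤ] LinearMap.range f :=
      LinearMap.codRestrict _ (d • LinearMap.id) (fun x => by
        obtain ⟨k, hk⟩ := hg x
        obtain ⟨y, rfl⟩ := hν k
        exact ⟨y, hk⟩)
    have hj : Function.Injective j := by
      intro a b h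
      have h' : d • a = d • b := congrArg Subtype.val h
      exact smul_right_injective (Fin n → ℤ) hd h'
    have := LinearMap.finrank_le_finrank_of_injective hj
    simpa [Module.finrank_fin_fun] using this
  have hsum : Module.finrank ℤ (LinearMap.range f) + Module.finrank ℤ (LinearMap.ker f) = r := by
    rw [← f.quotKerEquivRange.finrank_eq, Submodule.finrank_quotient_add_finrank, Module.finrank_fin_fun]
  let b := Module.finBasis ℤ (LinearMap.ker f)
  have hmem : ∀ l : LinearMap.ker f, Additive.toMul (ν l) ∈ i.range := fun l => (hker _).1 l.2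
  choose m hm using hmem
  have hgen : Subgroup.closure (Set.range (fun j => m (b j))) = ⊤ := by
    rw [eq_top_iff]
    intro x _
    obtain ⟨y, hy⟩ := hν (Additive.ofMul (i x))
    have hyk : y ∈ LinearMap.ker f := by
      show g (ν y) = 0
      rw [hy, hker]
      exact ⟨x, rfl⟩
    have key : ∀ l : LinearMap.ker f, m l ∈ Subgroup.closure (Set.range (fun j => m (b j))) := by
      let mh : LinearMap.ker f →+ Additive M :=
        { toFun := fun l => Additive.ofMul (m l)
          map_zero' := by
            apply congrArg Additive.ofMul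
            apply hi
            rw [hm, map_one]; simp
          map_add' := fun a c => by
            show Additive.ofMul (m (a + c)) = Additive.ofMul (m a * m c)
            apply congrArg Additive.ofMul
            apply hi
            rw [map_mul, hm, hm, hm]; simp }
      let P : Submodule ℤ (LinearMap.ker f) := AddSubgroup.toIntSubmodule
        ((Subgroup.closure (Set.range (fun j => m (b j)))).toAddSubgroup.comap mh)
      have hP : Submodule.span ℤ (Set.range b) ≤ P := by
        rw [Submodule.span_le]
        rintro _ ⟨j, rfl⟩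
        exact Subgroup.subset_closure ⟨j, rfl⟩
      intro l
      exact hP (b.span_eq ▸ Submodule.mem_top (x := l))
    have hx : m ⟨y, hyk⟩ = x := hi (by rw [hm]; exact congrArg Additive.toMul hy)
    exact hx ▸ key ⟨y, hyk⟩
  calc Group.rank M ≤ (Finset.univ.image (fun j => m (b j))).card :=
        Group.rank_le (by rw [Finset.coe_image, Finset.coe_univ, Set.image_univ]; exact hgen)
    _ ≤ _ := Finset.card_image_le.trans (by
        rw [Finset.card_univ, Fintype.card_fin]; omega)

variable {n : ℕ}

theorem rank_mult_presented (rels : Finset (FreeGroup (Fin n)))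
    [Finite (PresentedGroup (rels : Set (FreeGroup (Fin n))))] :
    Group.rank (Mult (PresentedGroup (rels : Set (FreeGroup (Fin n))))) ≤ rels.card - n := by
  classical
  let Q := PresentedGroup (rels : Set (FreeGroup (Fin n)))
  let p : (FreeGroup (Fin n)) →* Q := PresentedGroup.mk _
  have hp : Function.Surjective p := QuotientGroup.mk'_surjective _
  let N : Subgroup (FreeGroup (Fin n)) := ⁅p.ker, (⊤ : Subgroup (FreeGroup (Fin n)))⁆
  let E := (FreeGroup (Fin n)) ⧸ N
  let q : (FreeGroup (Fin n)) →* E := QuotientGroup.mk' N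
  let pE : E →* Q := QuotientGroup.lift N p (commutator_le_left _ _)
  have hq : Function.Surjective q := QuotientGroup.mk'_surjective _
  have hpE : Function.Surjective pE := fun x => by
    obtain ⟨f, rfl⟩ := hp x
    exact ⟨q f, rfl⟩
  have hkerE : pE.ker = p.ker.map q := QuotientGroup.ker_lift N p _
  have hc : pE.ker ≤ center E := by
    rw [hkerE]
    rintro _ ⟨f, hf, rfl⟩
    rw [mem_center_iff]
    intro y
    obtain ⟨g, rfl⟩ := hq y
    rw [← map_mul, ← map_mul]
    apply (QuotientGroup.eq).2
    have := commutator_mem_commutator (p.ker.inv_mem hf) (mem_top g⁻¹)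
    rw [commutatorElement_def] at this
    simpa [mul_assoc, N] using this
  have hKc : IsMulCommutative pE.ker :=
    ⟨⟨fun a b => Subtype.ext (mem_center_iff.1 (hc b.2) a)⟩⟩
  obtain ⟨φ, hφ⟩ := exists_lift pE hpE hc
  -- a map back
  let s : Fin n → Univ Q := fun i => Function.surjInv (univProj_surjective Q) (p (FreeGroup.of i))
  have hs : (univProj Q).comp (FreeGroup.lift s) = p := by
    ext i
    simp [s, Function.surjInv_eq (univProj_surjective Q)]
  let ψ : E →* Univ Q := QuotientGroup.lift N (FreeGroup.lift s) (by
    show N ≤ _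
    rw [commutator_le]
    intro a ha b _
    have : FreeGroup.lift s a ∈ (univProj Q).ker := by
      rw [MonoidHom.mem_ker, ← MonoidHom.comp_apply, hs]; exact ha
    have := mem_center_iff.1 (univProj_ker_central Q this) (FreeGroup.lift s b)
    simp [MonoidHom.mem_ker, commutatorElement_def, this.symm])
  have hψ : (univProj Q).comp ψ = pE := QuotientGroup.monoidHom_ext _ hs
  have hleft : ∀ m : Mult Q, ψ (φ m) = m := by
    have h := lifts_agree_on_commutator (univProj Q) (univProj_ker_central Q) (ψ.comp φ)
      (MonoidHom.id _) (by rw [← MonoidHom.comp_assoc, hψ, hφ, MonoidHom.comp_id])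
    exact fun m => h (Subgroup.mem_inf.1 m.2).2
  let coord : E →* Multiplicative (Fin n → ℤ) :=
    QuotientGroup.lift N (FreeGroup.lift fun i => Multiplicative.ofAdd (Pi.single i (1 : ℤ))) (by
      show N ≤ _
      rw [commutator_le]
      intro a _ b _
      simp [MonoidHom.mem_ker, commutatorElement_def])
  have hcoord : coord.ker = commutator E := by
    refine le_antisymm ?_ (Abelianization.commutator_subset_ker _)
    let dd : Multiplicative (Fin n → ℤ) →* Abelianization E :=
      MonoidHom.mk' (fun v => ∏ i, (Abelianization.of (q (FreeGroup.of i))) ^ (v.toAdd i))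
        (fun a b => by simp [zpow_add, Finset.prod_mul_distrib])
    have h : dd.comp coord = Abelianization.of := by
      refine QuotientGroup.monoidHom_ext _ (FreeGroup.ext_hom _ _ fun i => ?_)
      show dd (FreeGroup.lift (fun i => Multiplicative.ofAdd (Pi.single i (1 : ℤ))) (FreeGroup.of i)) =
        Abelianization.of (q (FreeGroup.of i))
      simp [dd, Pi.single_apply]
    intro x hx
    rw [← Abelianization.ker_of, MonoidHom.mem_ker, ← h]
    simp [MonoidHom.mem_ker.1 hx]
  have hcoord_surj : Function.Surjective coord := by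
    rw [← MonoidHom.range_eq_top, eq_top_iff]
    intro v _
    refine ⟨q (((List.finRange n).map fun i => FreeGroup.of i ^ (v.toAdd i)).prod), ?_⟩
    show FreeGroup.lift _ _ = v
    rw [map_list_prod, List.map_map, ← List.ofFn_eq_map, List.prod_ofFn]
    apply Multiplicative.toAdd.injective
    ext j
    simp [Pi.single_apply]
  let g : Additive pE.ker →+ (Fin n → ℤ) := MonoidHom.toAdditiveLeft (coord.comp pE.ker.subtype)
  have hi : ∀ m : Mult Q, φ m ∈ pE.ker := fun m => by
    rw [MonoidHom.mem_ker, ← MonoidHom.comp_apply, hφ]; exact (Subgroup.mem_inf.1 m.2).1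
  let i : Mult Q →* pE.ker := (φ.comp (mult Q).subtype).codRestrict pE.ker hi
  have hi_inj : Function.Injective i := fun a b h => by
    apply Subtype.ext
    rw [← hleft a, ← hleft b]
    exact congrArg ψ (congrArg Subtype.val h)
  have hker : ∀ k, g k = 0 ↔ Additive.toMul k ∈ i.range := by
    intro k
    constructor
    · intro h
      have h1 : ((Additive.toMul k : pE.ker) : E) ∈ pE.ker ⊓ commutator E :=
        Subgroup.mem_inf.2 ⟨(Additive.toMul k : pE.ker).2, hcoord ▸ (Multiplicative.ofAdd.injective.eq_iff.2 h : _)⟩
      rw [← lift_mult_eq pE hc φ hφ] at h1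
      obtain ⟨m, hm, hmk⟩ := h1
      exact ⟨⟨m, hm⟩, Subtype.ext hmk⟩
    · rintro ⟨m, hm⟩
      have : φ m ∈ coord.ker := by
        rw [hcoord]
        exact (Subgroup.mem_inf.1 (lift_mult_le pE φ hφ (Subgroup.mem_map_of_mem φ m.2))).2
      show (coord ((Additive.toMul k : pE.ker) : E)).toAdd = 0
      rw [← hm]
      exact congrArg Multiplicative.toAdd this
  let e : Fin rels.card ≃ rels := rels.equivFin.symm
  have hrel : ∀ j, q (e j : (FreeGroup (Fin n))) ∈ pE.ker := fun j => by
    rw [hkerE]
    exact Subgroup.mem_map_of_mem q (PresentedGroup.one_of_mem (e j).2)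
  let ν : (Fin rels.card → ℤ) →+ Additive pE.ker :=
    AddMonoidHom.mk' (fun v => ∑ j, v j • Additive.ofMul (⟨q (e j : (FreeGroup (Fin n))), hrel j⟩ : pE.ker))
      (fun a b => by simp [add_smul, Finset.sum_add_distrib])
  have hν : Function.Surjective ν := by
    have key : pE.ker ≤ (AddSubgroup.toSubgroup' ν.range).map pE.ker.subtype := by
      let W := (AddSubgroup.toSubgroup' ν.range).map pE.ker.subtype
      have hW : W.Normal := ⟨by
        rintro x ⟨y, hy, rfl⟩ g
        refine ⟨y, hy, ?_⟩
        show (y : E) = g * (y : E) * g⁻¹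
        rw [mem_center_iff.1 (hc y.2) g, mul_inv_cancel_right]⟩
      refine hkerE.trans_le ?_
      rw [Subgroup.map_le_iff_le_comap]
      have hpk : p.ker = Subgroup.normalClosure (rels : Set (FreeGroup (Fin n))) := QuotientGroup.ker_mk' _
      refine hpk.trans_le ?_
      refine Subgroup.normalClosure_le_normal (N := W.comap q) (fun r hr => ?_)
      refine ⟨⟨q r, hkerE ▸ Subgroup.mem_map_of_mem q (PresentedGroup.one_of_mem hr)⟩,
        ⟨Pi.single (e.symm ⟨r, hr⟩) 1, ?_⟩, rfl⟩
      simp [ν, Pi.single_apply]
      rfl
    intro y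
    obtain ⟨z, hz, hzy⟩ := key (Additive.toMul y : pE.ker).2
    obtain ⟨v, hv⟩ := hz
    exact ⟨v, hv.trans (congrArg Additive.ofMul (Subtype.ext hzy))⟩
  refine rank_le_of_surj ν hν g (Nat.card Q) (by simp [Nat.card_pos.ne']) ?_ i hi_inj hker
  intro x
  obtain ⟨y, hy⟩ := hcoord_surj (Multiplicative.ofAdd x)
  have hyk : y ^ Nat.card Q ∈ pE.ker := by rw [MonoidHom.mem_ker, map_pow, pow_card_eq_one']
  refine ⟨Additive.ofMul ⟨_, hyk⟩, ?_⟩
  show (coord (y ^ Nat.card Q)).toAdd = _
  rw [map_pow, hy]
  simp

end Cfsg.Agent.FGS2
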