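import Cfsg.Agent.FGS2.CExt

/-! The multiplier of a direct product. -/

namespace Cfsg.Agent.FGS2

open Subgroup
open scoped commutatorElement TensorProduct

universe u v w z

/-- The tensor product of the abelianizations, written multiplicatively. -/
abbrev abTensor (Q₁ : Type u) (Q₂ : Type v) [Group Q₁] [Group Q₂] : Type max u v :=
  Multiplicative (TensorProduct ℤ (Additive (Abelianization Q₁)) (Additive (Abelianization Q₂)))

theorem abTensor_finite (Q₁ : Type u) (Q₂ : Type v) [Group Q₁] [Group Q₂] [Finite Q₁] [Finite Q₂] :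
    Finite (abTensor Q₁ Q₂) := by
  have : Finite (Abelianization Q₁) := Finite.of_surjective _ (QuotientGroup.mk'_surjective (commutator _))
  have : Finite (Abelianization Q₂) := Finite.of_surjective _ (QuotientGroup.mk'_surjective (commutator _))
  have : Finite (TensorProduct ℤ (Additive (Abelianization Q₁)) (Additive (Abelianization Q₂))) := by
    have : Module.Finite ℤ (Additive (Abelianization Q₁)) := Module.Finite.of_finite
    have : Module.Finite ℤ (Additive (Abelianization Q₂)) := Module.Finite.of_finite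
    have : Module.Finite ℤ (TensorProduct ℤ (Additive (Abelianization Q₁)) (Additive (Abelianization Q₂))) :=
      Module.Finite.tensorProduct ..
    refine Module.finite_of_fg_torsion _ fun {x} => ?_
    refine ⟨⟨(Nat.card (Additive (Abelianization Q₁)) : ℤ), mem_nonZeroDivisors_of_ne_zero
      (by exact_mod_cast (Nat.card_pos (α := Additive (Abelianization Q₁))).ne')⟩, ?_⟩
    show (Nat.card (Additive (Abelianization Q₁)) : ℤ) • x = 0
    induction x using TensorProduct.induction_on with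
    | zero => simp
    | tmul a b => rw [TensorProduct.smul_tmul', natCast_zsmul, card_nsmul_eq_zero', TensorProduct.zero_tmul]
    | add a b ha hb => rw [smul_add, ha, hb, add_zero]
  infer_instance

/-- The cocycle of the product cover. -/
noncomputable def prodCocycle {Q₁ : Type u} {Q₂ : Type v} [Group Q₁] [Group Q₂] {X Y : Type*}
    [Group X] [Group Y] (σ₁ : X →* Q₁) (σ₂ : Y →* Q₂) :
    X × Y →* X × Y →* abTensor Q₁ Q₂ :=
  MonoidHom.mk' (fun g => MonoidHom.mk' (fun h =>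
      Multiplicative.ofAdd (Additive.ofMul (Abelianization.of (σ₁ g.1)) ⊗ₜ[ℤ]
        Additive.ofMul (Abelianization.of (σ₂ h.2))))
    (fun a b => by simp [TensorProduct.tmul_add]))
    (fun a b => by ext h; simp [TensorProduct.add_tmul])

theorem exists_prod_cover {Q₁ : Type u} {Q₂ : Type v} [Group Q₁] [Group Q₂] [Finite Q₁] [Finite Q₂] :
    ∃ (Λ : Type max u v) (_ : Group Λ) (_ : Finite Λ) (τ : Λ →* Q₁ × Q₂), Cfsg.IsStemExtension τ ∧
      Nonempty (τ.ker ≃* Mult Q₁ × Mult Q₂ × abTensor Q₁ Q₂) := by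
  obtain ⟨X, _, _, σ₁, hσ₁, ⟨e₁⟩⟩ := exists_cover (Q := Q₁)
  obtain ⟨Y, _, _, σ₂, hσ₂, ⟨e₂⟩⟩ := exists_cover (Q := Q₂)
  have := abTensor_finite Q₁ Q₂
  let β := prodCocycle σ₁ σ₂
  have hT : Cfsg.IsStemExtension (CExt.proj (β := β)) := by
    apply CExt.isStem
    rw [eq_top_iff]
    intro k _
    obtain ⟨t, rfl⟩ := Multiplicative.ofAdd.surjective k
    induction t using TensorProduct.induction_on with
    | zero => exact one_mem _
    | tmul a b =>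
      obtain ⟨q₁, hq₁⟩ := QuotientGroup.mk'_surjective (commutator Q₁) (Additive.toMul a)
      obtain ⟨q₂, hq₂⟩ := QuotientGroup.mk'_surjective (commutator Q₂) (Additive.toMul b)
      replace hq₁ : Abelianization.of q₁ = Additive.toMul a := hq₁
      replace hq₂ : Abelianization.of q₂ = Additive.toMul b := hq₂
      obtain ⟨x, rfl⟩ := hσ₁.1 q₁
      obtain ⟨y, rfl⟩ := hσ₂.1 q₂
      exact subset_closure ⟨(x, 1), (1, y), by simp, by simp [β, prodCocycle, hq₁, hq₂]⟩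
    | add a b ha hb =>
      rw [ofAdd_add]
      exact mul_mem (ha trivial) (hb trivial)
  let τ : CExt β →* Q₁ × Q₂ := (σ₁.prodMap σ₂).comp CExt.proj
  have hker : ∀ x : CExt β, x ∈ τ.ker ↔ x.base.1 ∈ σ₁.ker ∧ x.base.2 ∈ σ₂.ker := fun x => by
    simp only [MonoidHom.mem_ker]
    exact Prod.ext_iff
  have hzero : ∀ x ∈ τ.ker, ∀ y, β x.base y = 1 ∧ β y x.base = 1 := fun x hx y => by
    obtain ⟨h1, h2⟩ := (hker x).1 hx
    simp [β, prodCocycle, MonoidHom.mem_ker.1 h1, MonoidHom.mem_ker.1 h2]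
  have hst : Cfsg.IsStemExtension τ := by
    refine ⟨?_, ?_, ?_⟩
    · exact (Function.Surjective.prodMap hσ₁.1 hσ₂.1).comp CExt.proj_surjective
    · intro x hx
      rw [mem_center_iff]
      intro y
      refine CExt.ext ?_ ?_
      · obtain ⟨h1, h2⟩ := (hker x).1 hx
        exact Prod.ext (mem_center_iff.1 (hσ₁.2.1 h1) y.base.1) (mem_center_iff.1 (hσ₂.2.1 h2) y.base.2)
      · obtain ⟨h1, h2⟩ := hzero x hx y.base
        rw [CExt.fib_mul, CExt.fib_mul, h1, h2, mul_comm y.fib]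
    · intro x hx
      have hb : x.base ∈ (commutator (CExt β)).map CExt.proj := by
        obtain ⟨h1, h2⟩ := (hker x).1 hx
        rw [_root_.commutator_def, map_commutator, ← MonoidHom.range_eq_map,
          MonoidHom.range_eq_top.2 CExt.proj_surjective, ← Subgroup.top_prod_top,
          commutator_prod_prod, Subgroup.mem_prod]
        exact ⟨hσ₁.2.2 h1, hσ₂.2.2 h2⟩
      obtain ⟨y, hy, hyx⟩ := hb
      have : y⁻¹ * x ∈ (CExt.proj (β := β)).ker := by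
        rw [MonoidHom.mem_ker, map_mul, map_inv, hyx]
        exact inv_mul_cancel _
      simpa using mul_mem hy (hT.2.2 this)
  let f : τ.ker →* σ₁.ker × σ₂.ker × abTensor Q₁ Q₂ :=
    MonoidHom.mk' (fun x => (⟨x.1.base.1, ((hker x.1).1 x.2).1⟩, ⟨x.1.base.2, ((hker x.1).1 x.2).2⟩, x.1.fib))
      (fun a b => by
        refine Prod.ext rfl (Prod.ext rfl ?_)
        show (a.1 * b.1).fib = a.1.fib * b.1.fib
        rw [CExt.fib_mul, (hzero a.1 a.2 b.1.base).1, mul_one])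
  have hf : Function.Bijective f := by
    constructor
    · intro a b h
      simp only [f, MonoidHom.mk'_apply, Prod.mk.injEq, Subtype.mk.injEq] at h
      exact Subtype.ext (CExt.ext (Prod.ext h.1 h.2.1) h.2.2)
    · rintro ⟨a, b, t⟩
      exact ⟨⟨⟨(a, b), t⟩, (hker _).2 ⟨a.2, b.2⟩⟩, rfl⟩
  exact ⟨_, _, inferInstance, τ, hst, ⟨(MulEquiv.ofBijective f hf).trans
    (e₁.prodCongr (e₂.prodCongr (MulEquiv.refl _)))⟩⟩

theorem commutator_le_of_normal {Γ : Type u} [Group Γ] (R : Subgroup Γ) [R.Normal] (S : Set Γ)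
    (hS : closure S = ⊤) (hc : ∀ a ∈ S, ∀ b ∈ S, ⁅a, b⁆ ∈ R) : commutator Γ ≤ R := by
  have htop : closure ((QuotientGroup.mk' R) '' S) = ⊤ := by
    rw [← MonoidHom.map_closure, hS, ← MonoidHom.range_eq_map, QuotientGroup.range_mk']
  have := Subgroup.isMulCommutative_closure (k := (QuotientGroup.mk' R) '' S) (by
    rintro _ ⟨x, hx, rfl⟩ _ ⟨y, hy, rfl⟩
    rw [← commutatorElement_eq_one_iff_mul_comm, ← map_commutatorElement, ← MonoidHom.mem_ker,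
      QuotientGroup.ker_mk']
    exact hc x hx y hy)
  rw [commutator_eq_closure, closure_le]
  rintro _ ⟨x, y, rfl⟩
  rw [SetLike.mem_coe, ← QuotientGroup.ker_mk' R, MonoidHom.mem_ker, map_commutatorElement,
    commutatorElement_eq_one_iff_mul_comm]
  exact congrArg Subtype.val (this.is_comm.comm
    ⟨_, htop ▸ mem_top (QuotientGroup.mk' R x)⟩ ⟨_, htop ▸ mem_top (QuotientGroup.mk' R y)⟩)

theorem exists_prod_surj {Q₁ : Type u} {Q₂ : Type v} [Group Q₁] [Group Q₂] {Δ : Type z} [Group Δ]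
    {τ : Δ →* Q₁ × Q₂} (hτ : Cfsg.IsStemExtension τ) :
    ∃ π : Mult Q₁ × Mult Q₂ × abTensor Q₁ Q₂ →* τ.ker, Function.Surjective π := by
  have hc : ∀ x ∈ τ.ker, ∀ y : Δ, y * x = x * y := fun x hx y => mem_center_iff.1 (hτ.2.1 hx) y
  let H₁ : Subgroup Δ := ((MonoidHom.snd Q₁ Q₂).comp τ).ker
  let H₂ : Subgroup Δ := ((MonoidHom.fst Q₁ Q₂).comp τ).ker
  let t₁ : H₁ →* Q₁ := (MonoidHom.fst Q₁ Q₂).comp (τ.comp H₁.subtype)
  let t₂ : H₂ →* Q₂ := (MonoidHom.snd Q₁ Q₂).comp (τ.comp H₂.subtype)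
  have ht₁ : Function.Surjective t₁ := fun q => by
    obtain ⟨x, hx⟩ := hτ.1 (q, 1)
    exact ⟨⟨x, show (τ x).2 = 1 by rw [hx]⟩, show (τ x).1 = q by rw [hx]⟩
  have ht₂ : Function.Surjective t₂ := fun q => by
    obtain ⟨x, hx⟩ := hτ.1 (1, q)
    exact ⟨⟨x, show (τ x).1 = 1 by rw [hx]⟩, show (τ x).2 = q by rw [hx]⟩
  have hk₁ : t₁.ker ≤ center H₁ := fun x hx => mem_center_iff.2 fun y => Subtype.ext
    (hc x (Prod.ext hx x.2) y)
  have hk₂ : t₂.ker ≤ center H₂ := fun x hx => mem_center_iff.2 fun y => Subtype.ext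
    (hc x (Prod.ext x.2 hx) y)
  obtain ⟨ψ₁, hψ₁⟩ := exists_lift t₁ ht₁ hk₁
  obtain ⟨ψ₂, hψ₂⟩ := exists_lift t₂ ht₂ hk₂
  let φ₁ : Univ Q₁ →* Δ := H₁.subtype.comp ψ₁
  let φ₂ : Univ Q₂ →* Δ := H₂.subtype.comp ψ₂
  have hφ₁ : ∀ e, τ (φ₁ e) = (univProj Q₁ e, 1) := fun e =>
    Prod.ext (DFunLike.congr_fun hψ₁ e) (ψ₁ e).2
  have hφ₂ : ∀ e, τ (φ₂ e) = (1, univProj Q₂ e) := fun e =>
    Prod.ext (ψ₂ e).2 (DFunLike.congr_fun hψ₂ e)
  have hkc : IsMulCommutative τ.ker := ⟨⟨fun a b => Subtype.ext (hc b.1 b.2 a)⟩⟩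
  have hmem : ∀ (a b : Δ), (τ a).2 = 1 → (τ b).1 = 1 → ⁅a, b⁆ ∈ τ.ker := fun a b ha hb => by
    rw [MonoidHom.mem_ker, map_commutatorElement, commutatorElement_eq_one_iff_mul_comm]
    exact Prod.ext (by simp [hb]) (by simp [ha])
  have hinv : ∀ a b a' b' : Δ, τ a = τ a' → τ b = τ b' → ⁅a, b⁆ = ⁅a', b'⁆ := by
    intro a b a' b' ha hb
    obtain ⟨k, hk, rfl⟩ : ∃ k ∈ τ.ker, a = a' * k := ⟨a'⁻¹ * a, by simp [MonoidHom.mem_ker, ha], by group⟩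
    obtain ⟨l, hl, rfl⟩ : ∃ l ∈ τ.ker, b = b' * l := ⟨b'⁻¹ * b, by simp [MonoidHom.mem_ker, hb], by group⟩
    simp only [commutatorElement_def, mul_inv_rev]
    calc a' * k * (b' * l) * (k⁻¹ * a'⁻¹) * (l⁻¹ * b'⁻¹)
        = a' * (k * (b' * l)) * (k⁻¹ * a'⁻¹) * (l⁻¹ * b'⁻¹) := by group
      _ = a' * ((b' * l) * k) * (k⁻¹ * a'⁻¹) * (l⁻¹ * b'⁻¹) := by rw [hc k hk (b' * l)]
      _ = a' * b' * (l * a'⁻¹) * (l⁻¹ * b'⁻¹) := by group
      _ = a' * b' * (a'⁻¹ * l) * (l⁻¹ * b'⁻¹) := by rw [hc l hl a'⁻¹]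
      _ = _ := by group
  let s₁ : Q₁ → Δ := fun q => φ₁ (Function.surjInv (univProj_surjective Q₁) q)
  let s₂ : Q₂ → Δ := fun q => φ₂ (Function.surjInv (univProj_surjective Q₂) q)
  have hs₁ : ∀ q, τ (s₁ q) = (q, 1) := fun q => by
    rw [hφ₁, Function.surjInv_eq (univProj_surjective Q₁)]
  have hs₂ : ∀ q, τ (s₂ q) = (1, q) := fun q => by
    rw [hφ₂, Function.surjInv_eq (univProj_surjective Q₂)]
  let b : Q₁ → Q₂ → τ.ker := fun p q => ⟨⁅s₁ p, s₂ q⁆, hmem _ _ (by rw [hs₁]) (by rw [hs₂])⟩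
  have hb₁ : ∀ p p' q, b (p * p') q = b p q * b p' q := fun p p' q => Subtype.ext (by
    show ⁅s₁ (p * p'), s₂ q⁆ = ⁅s₁ p, s₂ q⁆ * ⁅s₁ p', s₂ q⁆
    rw [hinv (s₁ (p * p')) (s₂ q) (s₁ p * s₁ p') (s₂ q) (by simp [hs₁]) rfl]
    have h := hc _ (b p' q).2
    change ∀ y, y * ⁅s₁ p', s₂ q⁆ = ⁅s₁ p', s₂ q⁆ * y at h
    rw [show ⁅s₁ p * s₁ p', s₂ q⁆ = s₁ p * ⁅s₁ p', s₂ q⁆ * (s₁ p)⁻¹ * ⁅s₁ p, s₂ q⁆ by
      simp only [commutatorElement_def]; group, h, mul_inv_cancel_right, ← h])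
  have hb₂ : ∀ p q q', b p (q * q') = b p q * b p q' := fun p q q' => Subtype.ext (by
    show ⁅s₁ p, s₂ (q * q')⁆ = ⁅s₁ p, s₂ q⁆ * ⁅s₁ p, s₂ q'⁆
    rw [hinv (s₁ p) (s₂ (q * q')) (s₁ p) (s₂ q * s₂ q') rfl (by simp [hs₂])]
    have h := hc _ (b p q').2
    change ∀ y, y * ⁅s₁ p, s₂ q'⁆ = ⁅s₁ p, s₂ q'⁆ * y at h
    rw [show ⁅s₁ p, s₂ q * s₂ q'⁆ = ⁅s₁ p, s₂ q⁆ * (s₂ q * ⁅s₁ p, s₂ q'⁆ * (s₂ q)⁻¹) by
      simp only [commutatorElement_def]; group, h, mul_inv_cancel_right])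
  open IsMulCommutative in
  let B : Abelianization Q₁ →* Abelianization Q₂ →* τ.ker :=
    Abelianization.lift (MonoidHom.mk' (fun p => Abelianization.lift (MonoidHom.mk' (b p) (hb₂ p)))
      (fun p p' => Abelianization.hom_ext _ _ (MonoidHom.ext fun q => by
        show b (p * p') q = b p q * b p' q
        exact hb₁ p p' q)))
  open IsMulCommutative in
  let Bt : TensorProduct ℤ (Additive (Abelianization Q₁)) (Additive (Abelianization Q₂)) →+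
      Additive τ.ker :=
    TensorProduct.liftAddHom
      (AddMonoidHom.mk' (fun a => MonoidHom.toAdditive (B (Additive.toMul a)))
        (fun a c => by ext x; simp [toMul_add]))
      (fun r a c => by
        show Additive.ofMul (B ((Additive.toMul a) ^ r) (Additive.toMul c)) =
          Additive.ofMul (B (Additive.toMul a) ((Additive.toMul c) ^ r))
        rw [map_zpow, map_zpow]
        rfl)
  let Tm : abTensor Q₁ Q₂ →* τ.ker := AddMonoidHom.toMultiplicativeLeft Bt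
  have hTm : ∀ p q, Tm (Multiplicative.ofAdd (Additive.ofMul (Abelianization.of p) ⊗ₜ[ℤ]
      Additive.ofMul (Abelianization.of q))) = b p q := fun p q => by
    simp [Tm, Bt, B]
  have hcomm12 : ∀ c ∈ commutator (Univ Q₁), ∀ y, Commute (φ₁ c) (φ₂ y) := by
    intro c hc'
    have : commutator (Univ Q₁) ≤ (Subgroup.centralizer (Set.range φ₂)).comap φ₁ := by
      rw [commutator_eq_closure, closure_le]
      rintro _ ⟨x, x', rfl⟩
      rintro _ ⟨y, rfl⟩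
      rw [map_commutatorElement]
      have key : ∀ x, ∃ k ∈ τ.ker, φ₂ y * φ₁ x * (φ₂ y)⁻¹ = φ₁ x * k := fun x =>
        ⟨(φ₁ x)⁻¹ * (φ₂ y * φ₁ x * (φ₂ y)⁻¹), by
          simp [MonoidHom.mem_ker, hφ₁, hφ₂], by group⟩
      obtain ⟨k, hk, hkx⟩ := key x
      obtain ⟨l, hl, hlx⟩ := key x'
      show φ₂ y * ⁅φ₁ x, φ₁ x'⁆ = ⁅φ₁ x, φ₁ x'⁆ * φ₂ y
      rw [← mul_inv_eq_iff_eq_mul, show φ₂ y * ⁅φ₁ x, φ₁ x'⁆ * (φ₂ y)⁻¹ =
        ⁅φ₂ y * φ₁ x * (φ₂ y)⁻¹, φ₂ y * φ₁ x' * (φ₂ y)⁻¹⁆ by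
          simp only [commutatorElement_def]; group, hkx, hlx]
      exact hinv _ _ _ _ (by simp [MonoidHom.mem_ker.1 hk]) (by simp [MonoidHom.mem_ker.1 hl])
    exact fun y => (this hc' _ ⟨y, rfl⟩).symm
  have hcT : ∀ (x : Δ) (t : abTensor Q₁ Q₂), Commute x (Tm t : Δ) := fun x t => hc _ (Tm t).2 x
  let Ψ : commutator (Univ Q₁) × commutator (Univ Q₂) × abTensor Q₁ Q₂ →* Δ :=
    MonoidHom.mk' (fun x => φ₁ x.1 * (φ₂ x.2.1 * (Tm x.2.2 : Δ))) (fun x y => by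
      simp only [Prod.fst_mul, Prod.snd_mul, Subgroup.coe_mul, map_mul]
      have h1 := hcomm12 y.1 y.1.2 x.2.1
      have h2 := hcT (φ₁ y.1) x.2.2
      have h3 := hcT (φ₂ y.2.1) x.2.2
      rw [mul_assoc (φ₁ x.1), mul_assoc (φ₁ x.1)]
      congr 1
      rw [← mul_assoc (φ₂ x.2.1 * (Tm x.2.2 : Δ)), mul_assoc (φ₂ x.2.1) (Tm x.2.2 : Δ) (φ₁ y.1),
        ← h2.eq, ← mul_assoc (φ₂ x.2.1), ← h1.eq]
      simp only [mul_assoc]
      congr 2
      rw [← mul_assoc (Tm x.2.2 : Δ), ← h3.eq, mul_assoc])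
  have hΨ₁ : ∀ c : commutator (Univ Q₁), φ₁ c ∈ Ψ.range := fun c => ⟨(c, 1, 1), by simp [Ψ]⟩
  have hΨ₂ : ∀ c : commutator (Univ Q₂), φ₂ c ∈ Ψ.range := fun c => ⟨(1, c, 1), by simp [Ψ]⟩
  have hΨT : ∀ t, (Tm t : Δ) ∈ Ψ.range := fun t => ⟨(1, 1, t), by simp [Ψ]⟩
  have hgen : closure (Set.range φ₁ ∪ Set.range φ₂) = ⊤ := by
    apply stem_eq_top_of_map_eq_top hτ
    rw [MonoidHom.map_closure, eq_top_iff]
    rintro ⟨p, q⟩ -
    obtain ⟨e, rfl⟩ := univProj_surjective Q₁ p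
    obtain ⟨f, rfl⟩ := univProj_surjective Q₂ q
    have : ((univProj Q₁ e, univProj Q₂ f) : Q₁ × Q₂) = τ (φ₁ e) * τ (φ₂ f) := by simp [hφ₁, hφ₂]
    rw [this]
    exact mul_mem (subset_closure ⟨_, Or.inl ⟨e, rfl⟩, rfl⟩) (subset_closure ⟨_, Or.inr ⟨f, rfl⟩, rfl⟩)
  have hnorm : Ψ.range.Normal := by
    rw [← Subgroup.normalizer_eq_top_iff, eq_top_iff, ← hgen, closure_le]
    have key : ∀ g : Δ, (∀ c : commutator (Univ Q₁) × commutator (Univ Q₂) × abTensor Q₁ Q₂,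
        g * Ψ c * g⁻¹ ∈ Ψ.range) → (∀ c : commutator (Univ Q₁) × commutator (Univ Q₂) × abTensor Q₁ Q₂,
        g⁻¹ * Ψ c * g ∈ Ψ.range) → g ∈ Subgroup.normalizer (Ψ.range : Set Δ) := by
      intro g h h'
      rw [Subgroup.mem_normalizer_iff]
      intro x
      constructor
      · rintro ⟨c, rfl⟩; exact h c
      · rintro ⟨c, hc'⟩
        have := h' c
        rwa [hc', show g⁻¹ * (g * x * g⁻¹) * g = x by group] at this
    have conj₁ : ∀ (e : Univ Q₁) c, φ₁ e * Ψ c * (φ₁ e)⁻¹ ∈ Ψ.range := by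
      rintro e ⟨c₁, c₂, t⟩
      refine ⟨(⟨e * c₁ * e⁻¹, (inferInstance : (commutator (Univ Q₁)).Normal).conj_mem _ c₁.2 e⟩, c₂, t), ?_⟩
      show φ₁ (e * c₁ * e⁻¹) * (φ₂ c₂ * (Tm t : Δ)) = φ₁ e * (φ₁ c₁ * (φ₂ c₂ * (Tm t : Δ))) * (φ₁ e)⁻¹
      have h2 : Commute (φ₁ e)⁻¹ (φ₂ c₂) := by
        have : commutator (Univ Q₂) ≤ (Subgroup.centralizer {(φ₁ e)⁻¹}).comap φ₂ := by
          rw [commutator_eq_closure, closure_le]
          rintro _ ⟨x, x', rfl⟩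
          rintro _ (rfl : _ = (φ₁ e)⁻¹)
          rw [map_commutatorElement]
          show (φ₁ e)⁻¹ * ⁅φ₂ x, φ₂ x'⁆ = ⁅φ₂ x, φ₂ x'⁆ * (φ₁ e)⁻¹
          rw [← mul_inv_eq_iff_eq_mul, show (φ₁ e)⁻¹ * ⁅φ₂ x, φ₂ x'⁆ * ((φ₁ e)⁻¹)⁻¹ =
            ⁅(φ₁ e)⁻¹ * φ₂ x * φ₁ e, (φ₁ e)⁻¹ * φ₂ x' * φ₁ e⁆ by
              simp only [commutatorElement_def]; group]
          refine hinv _ _ _ _ ?_ ?_ <;> simp [hφ₁, hφ₂]
        exact this c₂.2 _ rfl
      rw [map_mul, map_mul, map_inv, mul_assoc (φ₁ e * φ₁ c₁), ← mul_assoc _ (φ₂ c₂) (Tm t : Δ),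
        h2.eq]
      simp only [mul_assoc]
      rw [(hcT (φ₁ e)⁻¹ t).eq]
    have conj₂ : ∀ (f : Univ Q₂) c, φ₂ f * Ψ c * (φ₂ f)⁻¹ ∈ Ψ.range := by
      rintro f ⟨c₁, c₂, t⟩
      refine ⟨(c₁, ⟨f * c₂ * f⁻¹, (inferInstance : (commutator (Univ Q₂)).Normal).conj_mem _ c₂.2 f⟩, t), ?_⟩
      show φ₁ c₁ * (φ₂ (f * c₂ * f⁻¹) * (Tm t : Δ)) = φ₂ f * (φ₁ c₁ * (φ₂ c₂ * (Tm t : Δ))) * (φ₂ f)⁻¹
      rw [← mul_assoc (φ₂ f), ← (hcomm12 c₁ c₁.2 f).eq, map_mul, map_mul, map_inv]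
      simp only [mul_assoc]
      rw [(hcT (φ₂ f)⁻¹ t).eq]
    rintro _ (⟨e, rfl⟩ | ⟨f, rfl⟩)
    · exact key _ (conj₁ e) fun c => by simpa using conj₁ e⁻¹ c
    · exact key _ (conj₂ f) fun c => by simpa using conj₂ f⁻¹ c
  have hle : commutator Δ ≤ Ψ.range := by
    refine commutator_le_of_normal _ _ hgen ?_
    have hbm : ∀ e f, ⁅φ₁ e, φ₂ f⁆ ∈ Ψ.range := fun e f => by
      rw [hinv (φ₁ e) (φ₂ f) (s₁ (univProj Q₁ e)) (s₂ (univProj Q₂ f)) (by rw [hφ₁, hs₁])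
        (by rw [hφ₂, hs₂])]
      show ((b (univProj Q₁ e) (univProj Q₂ f) : τ.ker) : Δ) ∈ _
      rw [← hTm]
      exact hΨT _
    rintro _ (⟨a, rfl⟩ | ⟨a, rfl⟩) _ (⟨c, rfl⟩ | ⟨c, rfl⟩)
    · rw [← map_commutatorElement]
      exact hΨ₁ ⟨_, commutator_mem_commutator (mem_top a) (mem_top c)⟩
    · exact hbm a c
    · rw [← commutatorElement_inv]; exact inv_mem (hbm c a)
    · rw [← map_commutatorElement]
      exact hΨ₂ ⟨_, commutator_mem_commutator (mem_top a) (mem_top c)⟩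
  have hm₁ : ∀ m : Mult Q₁, φ₁ m ∈ τ.ker := fun m => by
    rw [MonoidHom.mem_ker, hφ₁, MonoidHom.mem_ker.1 (Subgroup.mem_inf.1 m.2).1]; rfl
  have hm₂ : ∀ m : Mult Q₂, φ₂ m ∈ τ.ker := fun m => by
    rw [MonoidHom.mem_ker, hφ₂, MonoidHom.mem_ker.1 (Subgroup.mem_inf.1 m.2).1]; rfl
  open IsMulCommutative in
  let π : Mult Q₁ × Mult Q₂ × abTensor Q₁ Q₂ →* τ.ker :=
    ((φ₁.comp (mult Q₁).subtype).codRestrict τ.ker hm₁).coprod
      (((φ₂.comp (mult Q₂).subtype).codRestrict τ.ker hm₂).coprod Tm)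
  refine ⟨π, fun z => ?_⟩
  obtain ⟨⟨c₁, c₂, t⟩, hz⟩ := hle (hτ.2.2 z.2)
  change φ₁ c₁ * (φ₂ c₂ * (Tm t : Δ)) = z at hz
  have h0 : τ (φ₁ c₁ * (φ₂ c₂ * (Tm t : Δ))) = 1 := by rw [hz]; exact z.2
  rw [map_mul, map_mul, hφ₁, hφ₂, MonoidHom.mem_ker.1 (Tm t).2, mul_one] at h0
  simp only [Prod.mk_mul_mk, mul_one, one_mul, Prod.mk_eq_one] at h0
  exact ⟨(⟨c₁, Subgroup.mem_inf.2 ⟨h0.1, c₁.2⟩⟩, ⟨c₂, Subgroup.mem_inf.2 ⟨h0.2, c₂.2⟩⟩, t), Subtype.ext hz⟩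

theorem hasSchurMultiplier_prod {Q₁ : Type u} {Q₂ : Type v} [Group Q₁] [Group Q₂] [Finite Q₁]
    [Finite Q₂] {A B : Type w} [CommGroup A] [CommGroup B] (hA : Cfsg.HasSchurMultiplier Q₁ A)
    (hB : Cfsg.HasSchurMultiplier Q₂ B) :
    Cfsg.HasSchurMultiplier (Q₁ × Q₂) (A × B × abTensor Q₁ Q₂) := by
  obtain ⟨eA⟩ := hasSchurMultiplier_iff.1 hA
  obtain ⟨eB⟩ := hasSchurMultiplier_iff.1 hB
  let e := eA.prodCongr (eB.prodCongr (MulEquiv.refl (abTensor Q₁ Q₂)))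
  obtain ⟨Λ, iG, iF, τ, hτ, ⟨k⟩⟩ := exists_prod_cover (Q₁ := Q₁) (Q₂ := Q₂)
  refine ⟨⟨Λ, iG, iF, τ, hτ, ⟨k.trans e.symm⟩⟩, fun Γ _ _ σ hσ => ?_⟩
  obtain ⟨π, hπ⟩ := exists_prod_surj hσ
  exact ⟨π.comp e.toMonoidHom, hπ.comp e.surjective⟩

theorem hasSchurMultiplier_prod_coprime {Q₁ : Type u} {Q₂ : Type v} [Group Q₁] [Group Q₂] [Finite Q₁]
    [Finite Q₂] {A B : Type w} [CommGroup A] [CommGroup B] (hA : Cfsg.HasSchurMultiplier Q₁ A)
    (hB : Cfsg.HasSchurMultiplier Q₂ B)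
    (hcop : Nat.Coprime (Nat.card (Abelianization Q₁)) (Nat.card (Abelianization Q₂))) :
    Cfsg.HasSchurMultiplier (Q₁ × Q₂) (A × B) := by
  have hzero : ∀ x : TensorProduct ℤ (Additive (Abelianization Q₁)) (Additive (Abelianization Q₂)),
      x = 0 := by
    intro x
    induction x using TensorProduct.induction_on with
    | zero => rfl
    | tmul a b =>
      have h1 : (Nat.card (Abelianization Q₁) : ℤ) • a = 0 := by
        rw [natCast_zsmul]; exact card_nsmul_eq_zero' (G := Additive (Abelianization Q₁))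
      have h2 : (Nat.card (Abelianization Q₂) : ℤ) • b = 0 := by
        rw [natCast_zsmul]; exact card_nsmul_eq_zero' (G := Additive (Abelianization Q₂))
      have hbez := Nat.gcd_eq_gcd_ab (Nat.card (Abelianization Q₁)) (Nat.card (Abelianization Q₂))
      rw [hcop.gcd_eq_one, Nat.cast_one] at hbez
      rw [← one_smul ℤ (a ⊗ₜ[ℤ] b), hbez, add_smul]
      conv_lhs => arg 1; rw [mul_comm, mul_smul, TensorProduct.smul_tmul', h1, TensorProduct.zero_tmul, smul_zero]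
      conv_lhs => arg 2; rw [mul_comm, mul_smul, ← TensorProduct.tmul_smul, h2, TensorProduct.tmul_zero, smul_zero]
      simp
    | add a b ha hb => rw [ha, hb, add_zero]
  have : Subsingleton (abTensor Q₁ Q₂) := ⟨fun a b =>
    Multiplicative.toAdd.injective ((hzero _).trans (hzero _).symm)⟩
  obtain ⟨⟨Γ, iG, iF, σ, hσ, ⟨e⟩⟩, h⟩ := hasSchurMultiplier_prod hA hB
  let j : A × B × abTensor Q₁ Q₂ ≃* A × B :=
    { toFun := fun x => (x.1, x.2.1)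
      invFun := fun x => (x.1, x.2, 1)
      left_inv := fun x => Prod.ext rfl (Prod.ext rfl (Subsingleton.elim _ _))
      right_inv := fun _ => rfl
      map_mul' := fun _ _ => rfl }
  refine ⟨⟨Γ, iG, iF, σ, hσ, ⟨e.trans j⟩⟩, fun Δ _ _ τ hτ => ?_⟩
  obtain ⟨π, hπ⟩ := h Δ τ hτ
  exact ⟨π.comp j.symm.toMonoidHom, hπ.comp j.symm.surjective⟩

end Cfsg.Agent.FGS2
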