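import Cfsg.Agent.FGS2.SchurTransfer

/-! Restriction and corestriction of multipliers. -/

namespace Cfsg.Agent.FGS2

open Subgroup
open scoped commutatorElement IsMulCommutative

universe u v w

variable {Q : Type u} [Group Q] [Finite Q]

/-- Restriction followed by corestriction is the index-th power. -/
theorem exists_res_cor (U : Subgroup Q) :
    ∃ (res : Mult Q →* Mult U) (cor : Mult U →* Mult Q), ∀ x, cor (res x) = x ^ U.index := by
  classical
  let p : FreeGroup Q →* Q := FreeGroup.lift id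
  let H : Subgroup (FreeGroup Q) := U.comap p
  have hps : Function.Surjective p := fun q => ⟨FreeGroup.of q, by simp [p]⟩
  have hidx : H.index = U.index := U.index_comap_of_surjective hps
  have : H.FiniteIndex := ⟨by rw [hidx]; exact Subgroup.FiniteIndex.index_ne_zero⟩
  let pH : H →* U := (p.comp H.subtype).codRestrict U (fun x => x.2)
  have hpH : Function.Surjective pH := fun u => by
    obtain ⟨f, hf⟩ := hps u
    exact ⟨⟨f, show p f ∈ U from hf ▸ u.2⟩, Subtype.ext hf⟩
  let N : Subgroup H := ⁅pH.ker, (⊤ : Subgroup H)⁆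
  let mk : H →* H ⧸ N := QuotientGroup.mk' N
  let pX : H ⧸ N →* U := QuotientGroup.lift N pH (commutator_le_left _ _)
  have hmkc : ∀ r ∈ pH.ker, ∀ h : H, mk h * mk r = mk r * mk h := by
    intro r hr h
    rw [← map_mul, ← map_mul]
    apply (QuotientGroup.eq).2
    have := commutator_mem_commutator (inv_mem hr) (mem_top h⁻¹) (H₂ := ⊤)
    rw [← SetLike.mem_coe] at this
    have h2 := inv_mem (this : ⁅r⁻¹, h⁻¹⁆ ∈ N)
    rw [commutatorElement_def] at this h2
    first
      | simpa [mul_assoc] using this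
      | simpa [mul_assoc] using h2
  have hXc : pX.ker ≤ center (H ⧸ N) := by
    intro x hx
    obtain ⟨r, rfl⟩ := QuotientGroup.mk'_surjective N x
    rw [mem_center_iff]
    intro y
    obtain ⟨h, rfl⟩ := QuotientGroup.mk'_surjective N y
    exact hmkc r hx h
  have hXs : Function.Surjective pX := fun u => by
    obtain ⟨h, rfl⟩ := hpH u; exact ⟨mk h, rfl⟩
  have : IsMulCommutative pX.ker :=
    ⟨⟨fun a b => Subtype.ext (mem_center_iff.1 (hXc b.2) a)⟩⟩
  -- lift `X → Univ U`
  let L : H →* Univ U := IsFreeGroup.lift fun x =>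
    Function.surjInv (univProj_surjective U) (pH (IsFreeGroup.of x))
  have hL : (univProj U).comp L = pH := by
    refine IsFreeGroup.ext_hom fun x => ?_
    simp [L, Function.surjInv_eq (univProj_surjective U)]
  let ψ : H ⧸ N →* Univ U := QuotientGroup.lift N L (by
    show N ≤ _
    rw [commutator_le]
    intro a ha b _
    have h1 : L a ∈ (univProj U).ker := by
      rw [MonoidHom.mem_ker, ← MonoidHom.comp_apply, hL]; exact ha
    have := mem_center_iff.1 (univProj_ker_central U h1) (L b)
    simp [MonoidHom.mem_ker, commutatorElement_def, this.symm])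
  have hψ : (univProj U).comp ψ = pX := QuotientGroup.monoidHom_ext _ hL
  -- the natural map `X → Univ Q` and the natural map `Univ U → Univ Q`
  let mkQ : FreeGroup Q →* Univ Q := QuotientGroup.mk' (univRel Q)
  let χ : H ⧸ N →* Univ Q := QuotientGroup.lift N (mkQ.comp H.subtype) (by
    show N ≤ _
    rw [commutator_le]
    intro a ha b _
    rw [MonoidHom.mem_ker, MonoidHom.comp_apply, ← MonoidHom.mem_ker, QuotientGroup.ker_mk']
    have h2 : (a : FreeGroup Q) ∈ presKer Q := congrArg Subtype.val ha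
    exact commutator_mem_commutator h2 (mem_top (b : FreeGroup Q)))
  let V : Subgroup (Univ Q) := U.comap (univProj Q)
  let τ : V →* U := ((univProj Q).comp V.subtype).codRestrict U (fun x => x.2)
  have hτs : Function.Surjective τ := fun u => by
    obtain ⟨e, he⟩ := univProj_surjective Q u
    exact ⟨⟨e, show univProj Q e ∈ U from he ▸ u.2⟩, Subtype.ext he⟩
  have hτc : τ.ker ≤ center V := fun x hx => mem_center_iff.2 fun y => Subtype.ext
    (mem_center_iff.1 (univProj_ker_central Q (congrArg Subtype.val hx)) y)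
  obtain ⟨θ, hθ⟩ := exists_lift τ hτs hτc
  let Θ : Univ U →* Univ Q := V.subtype.comp θ
  have hΘp : ∀ e, univProj Q (Θ e) = (univProj U e : Q) := fun e =>
    congrArg Subtype.val (DFunLike.congr_fun hθ e)
  have hagree : commutator (H ⧸ N) ≤ (Θ.comp ψ).eqLocus χ := by
    refine lifts_agree_on_commutator (univProj Q) (univProj_ker_central Q) _ _ ?_
    refine QuotientGroup.monoidHom_ext _ (MonoidHom.ext fun h => ?_)
    show univProj Q (Θ (ψ (mk h))) = p h
    rw [hΘp, ← MonoidHom.comp_apply, hψ]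
    rfl
  have hcorm : ∀ m : Mult U, Θ m ∈ mult Q := fun m => by
    have h := Subgroup.mem_inf.1 m.2
    refine Subgroup.mem_inf.2 ⟨?_, ?_⟩
    · rw [MonoidHom.mem_ker, hΘp, MonoidHom.mem_ker.1 h.1]; rfl
    · have := Subgroup.mem_map_of_mem Θ h.2
      rw [_root_.commutator_def, map_commutator] at this
      exact commutator_mono le_top le_top this
  let cor : Mult U →* Mult Q := (Θ.comp (mult U).subtype).codRestrict _ hcorm
  -- the norm map
  have hconj : ∀ (r : presKer Q) (t : FreeGroup Q), t⁻¹ * r * t ∈ H := fun r t => by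
    show p (t⁻¹ * r * t) ∈ U
    rw [map_mul, map_mul, MonoidHom.mem_ker.1 (r.2 : (r : FreeGroup Q) ∈ p.ker), map_inv, mul_one,
      inv_mul_cancel]
    exact one_mem U
  have hconjker : ∀ (r : presKer Q) (t : FreeGroup Q), (⟨_, hconj r t⟩ : H) ∈ pH.ker := fun r t => by
    refine Subtype.ext ?_
    show p (t⁻¹ * r * t) = 1
    rw [map_mul, map_mul, MonoidHom.mem_ker.1 (r.2 : (r : FreeGroup Q) ∈ p.ker), map_inv, mul_one,
      inv_mul_cancel]
  let g : presKer Q → FreeGroup Q ⧸ H → pX.ker := fun r => Quotient.lift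
    (fun t => (⟨mk ⟨_, hconj r t⟩, hconjker r t⟩ : pX.ker)) (by
      intro a b hab
      have hab' : a⁻¹ * b ∈ H := QuotientGroup.leftRel_apply.1 hab
      apply Subtype.ext
      show mk ⟨_, hconj r a⟩ = mk ⟨_, hconj r b⟩
      have e : (⟨_, hconj r b⟩ : H) = (⟨_, hab'⟩ : H)⁻¹ * ⟨_, hconj r a⟩ * ⟨_, hab'⟩ := by
        apply Subtype.ext
        simp [mul_assoc]
      rw [e, map_mul, map_mul, hmkc _ (hconjker r a), map_inv, inv_mul_cancel_right])
  have hgval : ∀ r (t : FreeGroup Q), (g r (t : FreeGroup Q ⧸ H) : H ⧸ N) = mk ⟨_, hconj r t⟩ := fun r t => rfl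
  let Nm : presKer Q →* pX.ker := MonoidHom.mk'
    (fun r => ∏ᶠ c : FreeGroup Q ⧸ H, g r c) (fun r s => by
      have := H.fintypeQuotientOfFiniteIndex
      simp only [finprod_eq_prod_of_fintype, ← Finset.prod_mul_distrib]
      refine Finset.prod_congr rfl fun c _ => ?_
      induction c using QuotientGroup.induction_on with
      | H t =>
        apply Subtype.ext
        rw [Subgroup.coe_mul, hgval, hgval, hgval, ← map_mul]
        congr 1
        exact Subtype.ext (by simp [mul_assoc]))
  let πK : presKer Q →* (univProj Q).ker := (mkQ.comp (presKer Q).subtype).codRestrict _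
    (fun r => (r.2 : (r : FreeGroup Q) ∈ presKer Q))
  have hπK : Function.Surjective πK := by
    rintro ⟨x, hx⟩
    obtain ⟨f, rfl⟩ := QuotientGroup.mk'_surjective (univRel Q) x
    exact ⟨⟨f, hx⟩, rfl⟩
  have hNm : πK.ker ≤ Nm.ker := by
    intro r hr
    have hr' : (r : FreeGroup Q) ∈ univRel Q := (QuotientGroup.eq_one_iff _).1 (congrArg Subtype.val hr)
    have key : ∀ (a : presKer Q) (b : FreeGroup Q),
        Nm ⟨b * a * b⁻¹, (presKer_normal Q).conj_mem _ a.2 b⟩ = Nm a := by
      intro a b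
      have := H.fintypeQuotientOfFiniteIndex
      simp only [Nm, MonoidHom.mk'_apply, finprod_eq_prod_of_fintype]
      refine Fintype.prod_equiv (MulAction.toPerm b⁻¹) _ _ fun c => ?_
      induction c using QuotientGroup.induction_on with
      | H t =>
        apply Subtype.ext
        show mk _ = mk _
        congr 1
        exact Subtype.ext (by simp [mul_assoc])
    have hle : univRel Q ≤ Nm.ker.map (presKer Q).subtype := by
      rw [univRel, commutator_le]
      intro a ha b _
      refine ⟨⟨a, ha⟩ * (⟨b * a * b⁻¹, (presKer_normal Q).conj_mem _ ha b⟩ : presKer Q)⁻¹, ?_, ?_⟩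
      · rw [SetLike.mem_coe, MonoidHom.mem_ker, map_mul, map_inv, key ⟨a, ha⟩ b, mul_inv_cancel]
      · simp [commutatorElement_def, mul_assoc]
    obtain ⟨x, hx, hxr⟩ := hle hr'
    exact (Subtype.ext hxr : x = r) ▸ hx
  let NK : (univProj Q).ker →* pX.ker := πK.liftOfSurjective hπK ⟨Nm, hNm⟩
  have hNKc : ∀ m : Mult Q, (NK ⟨m, (Subgroup.mem_inf.1 m.2).1⟩ : H ⧸ N) ∈ commutator (H ⧸ N) ∧
      χ (NK ⟨m, (Subgroup.mem_inf.1 m.2).1⟩ : H ⧸ N) = (m : Univ Q) ^ U.index := by
    intro m
    obtain ⟨hm1, hm2⟩ := Subgroup.mem_inf.1 m.2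
    obtain ⟨f, hf, hfm⟩ : (m : Univ Q) ∈ (commutator (FreeGroup Q)).map mkQ := by
      rw [_root_.commutator_def, map_commutator, ← MonoidHom.range_eq_map, QuotientGroup.range_mk',
        ← _root_.commutator_def]
      exact hm2
    have hfR : f ∈ presKer Q := by
      have : univProj Q (mkQ f) = 1 := by rw [hfm]; exact hm1
      exact this
    have hval : (⟨m, hm1⟩ : (univProj Q).ker) = πK ⟨f, hfR⟩ := Subtype.ext hfm.symm
    have hNK : NK (πK ⟨f, hfR⟩) = Nm ⟨f, hfR⟩ := πK.liftOfRightInverse_comp_apply _ _ ⟨Nm, hNm⟩ _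
    rw [hval, hNK]
    have hft := H.fintypeQuotientOfFiniteIndex
    constructor
    · let ϕ : H →* Abelianization (H ⧸ N) := Abelianization.of.comp mk
      have h1 : MonoidHom.transfer ϕ f = 1 := Abelianization.commutator_subset_ker _ hf
      let T : H.LeftTransversal := default
      rw [MonoidHom.transfer_def ϕ T f, Subgroup.leftTransversals.diff] at h1
      rw [← Abelianization.ker_of, MonoidHom.mem_ker, ← h1]
      show (Abelianization.of.comp pX.ker.subtype) (Nm ⟨f, hfR⟩) = _
      rw [show Nm ⟨f, hfR⟩ = ∏ c, g ⟨f, hfR⟩ c from finprod_eq_prod_of_fintype (g ⟨f, hfR⟩), map_prod]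
      refine Finset.prod_congr (Finset.ext fun _ => by simp) fun c _ => ?_
      have hfix : f⁻¹ • c = c := by
        induction c using QuotientGroup.induction_on with
        | H t =>
          show ((f⁻¹ * t : FreeGroup Q) : FreeGroup Q ⧸ H) = t
          rw [QuotientGroup.eq]
          show p ((f⁻¹ * t)⁻¹ * t) ∈ U
          rw [map_mul, map_inv, map_mul, map_inv, MonoidHom.mem_ker.1 (hfR : f ∈ p.ker), inv_one,
            one_mul, inv_mul_cancel]
          exact one_mem U
      have hc : ((T.2.leftQuotientEquiv c : FreeGroup Q) : FreeGroup Q ⧸ H) = c :=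
        T.2.leftQuotientEquiv.symm_apply_apply c
      conv_lhs => rw [← hc]
      show Abelianization.of (mk ⟨_, hconj ⟨f, hfR⟩ _⟩) = Abelianization.of (mk _)
      congr 2
      apply Subtype.ext
      show _ = ((T.2.leftQuotientEquiv c : FreeGroup Q))⁻¹ * ((f • T).2.leftQuotientEquiv c : FreeGroup Q)
      rw [Subgroup.smul_apply_eq_smul_apply_inv_smul, hfix, smul_eq_mul]
      exact mul_assoc _ _ _
    · show (χ.comp pX.ker.subtype) (Nm ⟨f, hfR⟩) = _
      have hval' : ∀ c, (χ.comp pX.ker.subtype) (g ⟨f, hfR⟩ c) = (m : Univ Q) := by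
        intro c
        induction c using QuotientGroup.induction_on with
        | H t =>
          show mkQ (t⁻¹ * f * t) = _
          rw [map_mul, map_mul, hfm, map_inv, mul_assoc,
            ← mem_center_iff.1 (univProj_ker_central Q hm1) (mkQ t), inv_mul_cancel_left]
      let χ' : pX.ker →* center (Univ Q) := (χ.comp pX.ker.subtype).codRestrict _ (fun x => by
        refine univProj_ker_central Q ?_
        obtain ⟨h, hh⟩ := QuotientGroup.mk'_surjective N (x : H ⧸ N)
        have : pH h = 1 := by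
          have := x.2
          rw [MonoidHom.mem_ker, ← hh] at this
          exact this
        show univProj Q (χ (x : H ⧸ N)) = 1
        rw [← hh]
        exact congrArg Subtype.val this)
      have hpw : χ' (Nm ⟨f, hfR⟩) = ⟨m, univProj_ker_central Q hm1⟩ ^ U.index := by
        rw [show Nm ⟨f, hfR⟩ = ∏ c, g ⟨f, hfR⟩ c from finprod_eq_prod_of_fintype (g ⟨f, hfR⟩), map_prod,
          Finset.prod_congr rfl (fun c _ => (Subtype.ext (hval' c) : χ' (g ⟨f, hfR⟩ c) = ⟨m, univProj_ker_central Q hm1⟩)),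
          Finset.prod_const, Finset.card_univ, ← Nat.card_eq_fintype_card, ← Subgroup.index_eq_card, hidx]
      exact congrArg Subtype.val hpw
  have hres : ∀ m : Mult Q, ψ (NK ⟨m, (Subgroup.mem_inf.1 m.2).1⟩ : H ⧸ N) ∈ mult U := fun m => by
    refine Subgroup.mem_inf.2 ⟨?_, ?_⟩
    · rw [MonoidHom.mem_ker, ← MonoidHom.comp_apply, hψ]
      exact (NK _).2
    · have := Subgroup.mem_map_of_mem ψ (hNKc m).1
      rw [_root_.commutator_def, map_commutator] at this
      exact commutator_mono le_top le_top this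
  let incl : Mult Q →* (univProj Q).ker := Subgroup.inclusion inf_le_left
  let res : Mult Q →* Mult U :=
    ((ψ.comp pX.ker.subtype).comp (NK.comp incl)).codRestrict (mult U) hres
  refine ⟨res, cor, fun m => Subtype.ext ?_⟩
  show Θ (ψ (NK ⟨m, _⟩ : H ⧸ N)) = ((m ^ U.index : Mult Q) : Univ Q)
  rw [SubmonoidClass.coe_pow]
  exact (hagree (hNKc m).1).trans (hNKc m).2

theorem primary_direct_factor (p : ℕ) [Fact p.Prime] (P : Sylow p Q) {A : Type v} {B : Type w}
    [CommGroup A] [CommGroup B] (hA : Cfsg.HasSchurMultiplier Q A)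
    (hB : Cfsg.HasSchurMultiplier P B) :
    ∃ C D : Subgroup B, C ⊓ D = ⊥ ∧ C ⊔ D = ⊤ ∧ Nonempty (CommGroup.primaryComponent A p ≃* C) := by
  obtain ⟨eA⟩ := hasSchurMultiplier_iff.1 hA
  obtain ⟨eB⟩ := hasSchurMultiplier_iff.1 hB
  obtain ⟨res, cor, hrc⟩ := exists_res_cor (P : Subgroup Q)
  have : Finite A := Finite.of_equiv _ eA.toEquiv.symm
  let r : A →* B := eB.symm.toMonoidHom.comp (res.comp eA.toMonoidHom)
  let c : B →* A := eA.symm.toMonoidHom.comp (cor.comp eB.toMonoidHom)
  have hrc' : ∀ a, c (r a) = a ^ (P : Subgroup Q).index := fun a => by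
    simp [r, c, hrc]
  let Ap := CommGroup.primaryComponent A p
  obtain ⟨k, m, hm, hAm⟩ := Nat.exists_eq_pow_mul_and_not_dvd (Nat.card_pos (α := A)).ne' p
    (Fact.out : p.Prime).ne_one
  have hpm : (p ^ k).Coprime m :=
    ((Nat.Prime.coprime_iff_not_dvd Fact.out).2 hm).pow_left _
  have hmem : ∀ b : B, c b ^ m ∈ Ap := fun b => by
    have h1 : (c b ^ m) ^ (p ^ k) = 1 := by
      rw [← pow_mul, mul_comm m, ← hAm]; exact pow_card_eq_one'
    exact ⟨k, h1⟩
  let F : B →* Ap := ((powMonoidHom m).comp c).codRestrict Ap hmem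
  have hidx : ¬ p ∣ (P : Subgroup Q).index := P.not_dvd_index'
    (by exact Subgroup.index_ne_zero_of_finite)
  have hcop : (Nat.card Ap).Coprime ((P : Subgroup Q).index * m) := by
    have hpg : IsPGroup p Ap := CommGroup.primaryComponent.isPGroup
    obtain ⟨e, he⟩ := IsPGroup.iff_card.1 hpg
    rw [he]
    exact Nat.Coprime.pow_left _ ((Nat.Prime.coprime_iff_not_dvd Fact.out).2
      (fun h => ((Nat.Prime.dvd_mul Fact.out).1 h).elim hidx hm))
  have hFr : ∀ x : Ap, F (r x) = x ^ ((P : Subgroup Q).index * m) := fun x => Subtype.ext (by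
    show c (r (x : A)) ^ m = ((x ^ ((P : Subgroup Q).index * m) : Ap) : A)
    rw [hrc', ← pow_mul, SubmonoidClass.coe_pow])
  let r' : Ap →* B := r.comp Ap.subtype
  have hr' : Function.Injective r' := fun a b h => (powCoprime hcop).injective (by
    show a ^ _ = b ^ _
    rw [← hFr a, ← hFr b]
    exact congrArg F h)
  refine ⟨r'.range, F.ker, ?_, ?_, ⟨MonoidHom.ofInjective hr'⟩⟩
  · rw [Subgroup.eq_bot_iff_forall]
    intro b hb
    obtain ⟨⟨x, rfl⟩, hx⟩ := Subgroup.mem_inf.1 hb
    have : powCoprime hcop x = powCoprime hcop 1 := by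
      show x ^ _ = (1 : Ap) ^ _
      rw [← hFr x, one_pow]
      exact hx
    rw [(powCoprime hcop).injective this, map_one]
  · rw [eq_top_iff]
    intro b _
    obtain ⟨x, hx⟩ := (powCoprime hcop).surjective (F b)
    have h2 : (r' x)⁻¹ * b ∈ F.ker := by
      rw [MonoidHom.mem_ker, map_mul, map_inv, show F (r' x) = _ from hFr x]
      rw [show x ^ ((P : Subgroup Q).index * m) = F b from hx, inv_mul_cancel]
    have h3 : r' x ∈ r'.range := ⟨x, rfl⟩
    simpa using Subgroup.mul_mem_sup h3 h2

end Cfsg.Agent.FGS2
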