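import Cfsg.Agent.FGS2.ProjRep

/-! Uniqueness of Schur covers. -/

namespace Cfsg.Agent.FGS2

open Subgroup
open scoped commutatorElement

universe u v

theorem exists_surj_zmod_of_dvd {A : Type*} [CommGroup A] [Finite A] {p : ℕ} (hp : p.Prime)
    (h : p ∣ Nat.card A) : ∃ f : A →* Multiplicative (ZMod p), Function.Surjective f := by
  classical
  obtain ⟨ι, _, n, hn, ⟨e⟩⟩ := CommGroup.equiv_prod_multiplicative_zmod_of_finite A
  rw [Nat.card_congr e.toEquiv, Nat.card_pi] at h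
  simp only [Nat.card_congr Multiplicative.toAdd, Nat.card_zmod] at h
  obtain ⟨i, -, hi⟩ := (Prime.dvd_finsetProd_iff hp.prime n).1 h
  refine ⟨(AddMonoidHom.toMultiplicative (ZMod.castHom hi (ZMod p)).toAddMonoidHom).comp
    ((Pi.evalMonoidHom (fun k => Multiplicative (ZMod (n k))) i).comp e.toMonoidHom), ?_⟩
  intro y
  obtain ⟨x, hx⟩ := ZMod.castHom_surjective hi y.toAdd
  exact ⟨e.symm (Pi.mulSingle i (Multiplicative.ofAdd x)), by simpa using congrArg Multiplicative.ofAdd hx⟩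

variable {Q : Type u} [Group Q] [Finite Q]

theorem cover_ker_complement {Γ : Type v} [Group Γ] {σ : Γ →* Q} (hσ : Cfsg.IsStemExtension σ)
    (he : Nonempty (σ.ker ≃* Mult Q)) (φ : Univ Q →* Γ) (hφ : σ.comp φ = univProj Q) :
    φ.ker ⊓ mult Q = ⊥ ∧ φ.ker ⊔ mult Q = (univProj Q).ker := by
  have hS : φ.ker ≤ (univProj Q).ker := fun x hx => by
    rw [MonoidHom.mem_ker, ← hφ, MonoidHom.comp_apply, MonoidHom.mem_ker.1 hx, map_one]
  refine ⟨cover_ker_inf_mult hσ he φ hφ, le_antisymm (sup_le hS inf_le_left) fun x hx => ?_⟩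
  have h : φ x ∈ σ.ker := by rw [MonoidHom.mem_ker, ← MonoidHom.comp_apply, hφ]; exact hx
  rw [← lift_mult_stem hσ hφ] at h
  obtain ⟨m, hm, hmx⟩ := h
  have h2 : x * m⁻¹ ∈ φ.ker := by simp [MonoidHom.mem_ker, hmx]
  simpa using mul_mem_sup h2 hm

/-- The relation lattice has index dividing a power of `#Qᵃᵇ`. -/
theorem coord_pow_mem (S : Subgroup (Univ Q)) (h2 : S ⊔ mult Q = (univProj Q).ker) (e : Univ Q) :
    ∃ s ∈ S, coordHom Q s = coordHom Q (e ^ Nat.card (Abelianization Q)) := by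
  have h : univProj Q (e ^ Nat.card (Abelianization Q)) ∈ commutator Q := by
    rw [← Abelianization.ker_of, MonoidHom.mem_ker, map_pow, map_pow, pow_card_eq_one']
  have hmap : commutator Q = (commutator (Univ Q)).map (univProj Q) := by
    rw [_root_.commutator_def (Univ Q), map_commutator, ← MonoidHom.range_eq_map,
      MonoidHom.range_eq_top.2 (univProj_surjective Q), ← _root_.commutator_def]
  rw [hmap] at h
  obtain ⟨c, hc, hce⟩ := h
  have hk : c⁻¹ * e ^ Nat.card (Abelianization Q) ∈ (univProj Q).ker := by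
    rw [MonoidHom.mem_ker, map_mul, map_inv, hce, inv_mul_cancel]
  rw [← h2] at hk
  obtain ⟨s, hs, m, hm, hsm⟩ := (Subgroup.mem_sup_of_normal_right).1 hk
  refine ⟨s, hs, ?_⟩
  have hc' : coordHom Q c = 1 := by rw [← MonoidHom.mem_ker, coordHom_ker]; exact hc
  have hm' : coordHom Q m = 1 := by
    rw [← MonoidHom.mem_ker, coordHom_ker]; exact (Subgroup.mem_inf.1 hm).2
  have := congrArg (coordHom Q) hsm
  rwa [map_mul, map_mul, map_inv, hc', hm', mul_one, inv_one, one_mul] at this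

theorem coord_inj_on (S : Subgroup (Univ Q)) (h1 : S ⊓ mult Q = ⊥)
    (h2 : S ⊔ mult Q = (univProj Q).ker) {s t : Univ Q} (hs : s ∈ S) (ht : t ∈ S)
    (h : coordHom Q s = coordHom Q t) : s = t := by
  have hd : t⁻¹ * s ∈ commutator (Univ Q) := by
    rw [← coordHom_ker, MonoidHom.mem_ker, map_mul, map_inv, h, inv_mul_cancel]
  have hmem : t⁻¹ * s ∈ S := S.mul_mem (S.inv_mem ht) hs
  have : t⁻¹ * s ∈ S ⊓ mult Q :=
    Subgroup.mem_inf.2 ⟨hmem, Subgroup.mem_inf.2 ⟨h2 ▸ Subgroup.mem_sup_left hmem, hd⟩⟩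
  rw [h1, Subgroup.mem_bot, inv_mul_eq_one] at this
  exact this.symm

theorem exists_extension_coprime (S : Subgroup (Univ Q)) (h1 : S ⊓ mult Q = ⊥)
    (h2 : S ⊔ mult Q = (univProj Q).ker) {C : Type v} [CommGroup C] [Finite C]
    (hcop : (Nat.card (Abelianization Q)).Coprime (Nat.card C)) (f : S →* C) :
    ∃ h : Univ Q →* C, ∀ s : S, h s = f s := by
  choose t ht htc using coord_pow_mem S h2
  let k : Univ Q →* C := MonoidHom.mk' (fun e => f ⟨t e, ht e⟩) (fun a b => by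
    rw [← map_mul]
    congr 1
    refine Subtype.ext (coord_inj_on S h1 h2 (ht _) (S.mul_mem (ht a) (ht b)) ?_)
    show coordHom Q (t (a * b)) = coordHom Q (t a * t b)
    rw [htc, map_mul, htc, htc, map_pow, map_pow, map_pow, map_mul, mul_pow])
  let pw : C ≃* C := MulEquiv.ofBijective (powMonoidHom (Nat.card (Abelianization Q)))
    (powCoprime hcop.symm).bijective
  refine ⟨pw.symm.toMonoidHom.comp k, fun s => ?_⟩
  apply pw.injective
  show pw (pw.symm (k s)) = _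
  rw [MulEquiv.apply_symm_apply]
  show f ⟨t s, ht s⟩ = f s ^ Nat.card (Abelianization Q)
  rw [← map_pow]
  congr 1
  exact Subtype.ext (coord_inj_on S h1 h2 (ht _) (S.pow_mem s.2 _) (htc s))

theorem covers_unique {Γ₁ Γ₂ : Type v} [Group Γ₁] [Finite Γ₁] [Group Γ₂] [Finite Γ₂]
    {σ₁ : Γ₁ →* Q} {σ₂ : Γ₂ →* Q} (h₁ : Cfsg.IsStemExtension σ₁) (h₂ : Cfsg.IsStemExtension σ₂)
    (e₁ : Nonempty (σ₁.ker ≃* Mult Q)) (e₂ : Nonempty (σ₂.ker ≃* Mult Q))
    (hcop : (Nat.card (Abelianization Q)).Coprime (Nat.card (Mult Q))) :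
    ∃ e : Γ₁ ≃* Γ₂, σ₂.comp e.toMonoidHom = σ₁ := by
  obtain ⟨φ₁, hφ₁⟩ := exists_lift σ₁ h₁.1 h₁.2.1
  obtain ⟨φ₂, hφ₂⟩ := exists_lift σ₂ h₂.1 h₂.2.1
  obtain ⟨hS1, hS2⟩ := cover_ker_complement h₁ e₁ φ₁ hφ₁
  have hcl : IsMulCommutative σ₂.ker :=
    ⟨⟨fun a b => Subtype.ext (Subgroup.mem_center_iff.1 (h₂.2.1 b.2) a)⟩⟩
  have hf : ∀ s : φ₁.ker, φ₂ s ∈ σ₂.ker := fun s => by
    rw [MonoidHom.mem_ker, ← MonoidHom.comp_apply, hφ₂]
    exact (le_sup_left.trans hS2.le) s.2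
  open IsMulCommutative in
  obtain ⟨h, hh⟩ := exists_extension_coprime φ₁.ker hS1 hS2 (C := σ₂.ker)
    (by rw [Nat.card_congr e₂.some.toEquiv]; exact hcop)
    ((φ₂.comp φ₁.ker.subtype).codRestrict σ₂.ker hf)
  let ψ : Univ Q →* Γ₂ := MonoidHom.mk' (fun e => φ₂ e * (h e : Γ₂)⁻¹) (fun a b => by
    rw [map_mul, map_mul, Subgroup.coe_mul, mul_inv_rev]
    have := Subgroup.mem_center_iff.1 (inv_mem (h₂.2.1 (h a).2) : (h a : Γ₂)⁻¹ ∈ center Γ₂)
    calc φ₂ a * φ₂ b * ((h b : Γ₂)⁻¹ * (h a : Γ₂)⁻¹)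
        = φ₂ a * ((φ₂ b * (h b : Γ₂)⁻¹) * (h a : Γ₂)⁻¹) := by group
      _ = φ₂ a * ((h a : Γ₂)⁻¹ * (φ₂ b * (h b : Γ₂)⁻¹)) := by rw [this (φ₂ b * (h b : Γ₂)⁻¹)]
      _ = _ := by group)
  have hψ : σ₂.comp ψ = univProj Q := by
    refine MonoidHom.ext fun e => ?_
    show σ₂ (φ₂ e * (h e : Γ₂)⁻¹) = _
    rw [map_mul, map_inv, MonoidHom.mem_ker.1 (h e).2, inv_one, mul_one, ← MonoidHom.comp_apply, hφ₂]
  have hker : φ₁.ker ≤ ψ.ker := fun s hs => by
    show φ₂ s * (h s : Γ₂)⁻¹ = 1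
    have := congrArg Subtype.val (hh ⟨s, hs⟩)
    rw [this]
    exact mul_inv_cancel _
  have hsurj := lift_surjective_of_stem h₁ hφ₁
  let β : Γ₁ →* Γ₂ := φ₁.liftOfSurjective hsurj ⟨ψ, hker⟩
  have hβ : ∀ e, β (φ₁ e) = ψ e := fun e => φ₁.liftOfRightInverse_comp_apply _ _ ⟨ψ, hker⟩ e
  have hc : σ₂.comp β = σ₁ := by
    ext x
    obtain ⟨e, rfl⟩ := hsurj x
    rw [MonoidHom.comp_apply, hβ, ← MonoidHom.comp_apply σ₂, hψ, ← MonoidHom.comp_apply σ₁, hφ₁]
  have hs : Function.Surjective β := surjective_of_stem h₂ (φ := β) (by rw [hc]; exact h₁.1)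
  have hcard : Nat.card Γ₁ = Nat.card Γ₂ := by
    rw [Subgroup.card_eq_card_quotient_mul_card_subgroup σ₁.ker,
      Subgroup.card_eq_card_quotient_mul_card_subgroup σ₂.ker,
      Nat.card_congr (QuotientGroup.quotientKerEquivOfSurjective σ₁ h₁.1).toEquiv,
      Nat.card_congr (QuotientGroup.quotientKerEquivOfSurjective σ₂ h₂.1).toEquiv,
      Nat.card_congr e₁.some.toEquiv, Nat.card_congr e₂.some.toEquiv]
  exact ⟨MulEquiv.ofBijective β ((Nat.bijective_iff_surjective_and_card β).2 ⟨hs, hcard⟩), hc⟩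

theorem coprime_of_unique
    (H : ∀ (Γ₁ Γ₂ : Type u) [Group Γ₁] [Finite Γ₁] [Group Γ₂] [Finite Γ₂]
      (σ₁ : Γ₁ →* Q) (σ₂ : Γ₂ →* Q), Cfsg.IsStemExtension σ₁ → Cfsg.IsStemExtension σ₂ →
      Nonempty (σ₁.ker ≃* Mult Q) → Nonempty (σ₂.ker ≃* Mult Q) →
      ∃ e : Γ₁ ≃* Γ₂, σ₂.comp e.toMonoidHom = σ₁) :
    (Nat.card (Abelianization Q)).Coprime (Nat.card (Mult Q)) := by
  classical
  have := Fintype.ofFinite Q
  by_contra hnc
  obtain ⟨p, hp, hpQ, hpM⟩ := Nat.Prime.not_coprime_iff_dvd.1 hnc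
  have : Fact p.Prime := ⟨hp⟩
  open IsMulCommutative in
  obtain ⟨ρ, hρ⟩ := exists_surj_zmod_of_dvd (A := Mult Q) hp hpM
  have : Finite (Abelianization Q) := Finite.of_surjective _ (QuotientGroup.mk'_surjective (commutator Q))
  obtain ⟨χ, hχ⟩ := exists_surj_zmod_of_dvd (A := Abelianization Q) hp hpQ
  obtain ⟨S, h1, h2, -⟩ := exists_complement (1 : Univ Q →* Multiplicative ℤ) (by
    rintro _ ⟨x, -, rfl⟩; simp)
  have hSK : S ≤ (univProj Q).ker := le_sup_left.trans h2.le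
  have := normal_of_le_ker hSK
  let L : Submodule ℤ (Q →₀ ℤ) := AddSubgroup.toIntSubmodule (Subgroup.toAddSubgroup' (S.map (coordHom Q)))
  let b := Module.Free.chooseBasis ℤ L
  let R : (Q → ZMod p) → (Module.Free.ChooseBasisIndex ℤ L → ZMod p) :=
    fun v i => Finsupp.linearCombination ℤ v (b i : Q →₀ ℤ)
  have hd0 : (Nat.card (Abelianization Q) : ℤ) ≠ 0 := by exact_mod_cast Nat.card_pos.ne'
  have hLpow : ∀ x : Q →₀ ℤ, (Nat.card (Abelianization Q) : ℤ) • x ∈ L := by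
    intro x
    obtain ⟨e, he⟩ : ∃ e, coordHom Q e = Multiplicative.ofAdd x := by
      induction x using Finsupp.induction_linear with
      | zero => exact ⟨1, by simp⟩
      | add f g hf hg =>
        obtain ⟨a, ha⟩ := hf; obtain ⟨c, hc⟩ := hg
        exact ⟨a * c, by simp [ha, hc]⟩
      | single q k =>
        refine ⟨((FreeGroup.of q : FreeGroup Q) : Univ Q) ^ k, ?_⟩
        rw [map_zpow]
        show (FreeGroup.lift (fun q => Multiplicative.ofAdd (Finsupp.single q (1 : ℤ))) (FreeGroup.of q)) ^ k = _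
        rw [FreeGroup.lift_apply_of, ← ofAdd_zsmul, Finsupp.smul_single', mul_one]
    obtain ⟨s, hs, hse⟩ := coord_pow_mem S h2 e
    refine ⟨s, hs, ?_⟩
    rw [hse, map_pow, he, ← ofAdd_nsmul, natCast_zsmul]
    rfl
  have hrank : Fintype.card (Module.Free.ChooseBasisIndex ℤ L) = Fintype.card Q := by
    refine le_antisymm ?_ ?_
    · have := Submodule.finrank_le L
      rwa [Module.finrank_eq_card_chooseBasisIndex, Module.finrank_finsupp_self ℤ] at this
    · let j : (Q →₀ ℤ) →ₗ[ℤ] L := LinearMap.codRestrict L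
        ((Nat.card (Abelianization Q) : ℤ) • LinearMap.id) hLpow
      have hj : Function.Injective j := by
        intro x y hxy
        have h' : (Nat.card (Abelianization Q) : ℤ) • x = (Nat.card (Abelianization Q) : ℤ) • y :=
          congrArg Subtype.val hxy
        exact smul_right_injective (Q →₀ ℤ) hd0 h'
      have := LinearMap.finrank_le_finrank_of_injective hj
      rwa [Module.finrank_eq_card_chooseBasisIndex ℤ L, Module.finrank_finsupp_self ℤ] at this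
  have hnotsurj : ¬ Function.Surjective R := by
    intro hs
    have hcard : Nat.card (Q → ZMod p) = Nat.card (Module.Free.ChooseBasisIndex ℤ L → ZMod p) := by
      simp [hrank]
    have hinj := ((Nat.bijective_iff_surjective_and_card R).2 ⟨hs, hcard⟩).1
    let v : Q → ZMod p := fun q => (χ (Abelianization.of q)).toAdd
    have hR0 : R v = R 0 := by
      funext i
      obtain ⟨s, hs, hsb⟩ := (b i).2
      have key : ∀ e : Univ Q, Finsupp.linearCombination ℤ v (coordHom Q e).toAdd =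
          (χ (Abelianization.of (univProj Q e))).toAdd := by
        have hhom : (AddMonoidHom.toMultiplicative (Finsupp.linearCombination ℤ v).toAddMonoidHom).comp
            (coordHom Q) = χ.comp (Abelianization.of.comp (univProj Q)) := by
          refine QuotientGroup.monoidHom_ext _ (FreeGroup.ext_hom _ _ fun q => ?_)
          show Multiplicative.ofAdd (Finsupp.linearCombination ℤ v (FreeGroup.lift
            (fun q => Multiplicative.ofAdd (Finsupp.single q (1 : ℤ))) (FreeGroup.of q)).toAdd) =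
              χ (Abelianization.of (FreeGroup.lift id (FreeGroup.of q)))
          simp [v]
        exact fun e => congrArg Multiplicative.toAdd (DFunLike.congr_fun hhom e)
      have h0 := key s
      rw [MonoidHom.mem_ker.1 (hSK hs), map_one, map_one, toAdd_one] at h0
      have hb' : (coordHom Q s).toAdd = (b i : Q →₀ ℤ) := congrArg Multiplicative.toAdd hsb
      simp only [R]
      rw [← hb', h0]
      simp
    have hv := hinj hR0
    obtain ⟨y, hy⟩ := hχ (Multiplicative.ofAdd 1)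
    obtain ⟨q, rfl⟩ := QuotientGroup.mk'_surjective (commutator Q) y
    have h3 := congrFun hv q
    change (χ (Abelianization.of q)).toAdd = (0 : ZMod p) at h3
    rw [show Abelianization.of q = QuotientGroup.mk' (commutator Q) q from rfl, hy] at h3
    exact one_ne_zero h3
  simp only [Function.Surjective, not_forall, not_exists] at hnotsurj
  obtain ⟨w, hw⟩ := hnotsurj
  choose m hm using fun i => hρ (Multiplicative.ofAdd (w i))
  open IsMulCommutative in
  let fL : L →ₗ[ℤ] Additive (Mult Q) := b.constr ℤ fun i => Additive.ofMul (m i)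
  have hmemL : ∀ s : S, (coordHom Q s).toAdd ∈ L := fun s => ⟨s, s.2, rfl⟩
  open IsMulCommutative in
  let f : S →* Mult Q := MonoidHom.mk' (fun s => Additive.toMul (fL ⟨_, hmemL s⟩))
    (fun a c => by
      rw [← toMul_add, ← map_add]
      congr 2
      exact Subtype.ext (by simp))
  have hfc : ∀ s : S, (f s : Univ Q) ∈ center (Univ Q) := fun s => mult_le_center Q (f s).2
  let g : S →* Univ Q := MonoidHom.mk' (fun s => (s : Univ Q) * (f s : Univ Q)) (fun a c => by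
    simp only [map_mul, Subgroup.coe_mul]
    calc (a : Univ Q) * c * ((f a : Univ Q) * f c)
        = a * ((c : Univ Q) * f a) * f c := by group
      _ = a * ((f a : Univ Q) * c) * f c := by rw [Subgroup.mem_center_iff.1 (hfc a) c]
      _ = _ := by group)
  have hg1 : g.range ⊓ mult Q = ⊥ := by
    rw [Subgroup.eq_bot_iff_forall]
    intro x hx
    obtain ⟨⟨s, rfl⟩, hx2⟩ := Subgroup.mem_inf.1 hx
    have hs : (s : Univ Q) ∈ mult Q := by
      have := (mult Q).mul_mem hx2 ((mult Q).inv_mem (f s).2)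
      simpa [g] using this
    have : (s : Univ Q) ∈ S ⊓ mult Q := Subgroup.mem_inf.2 ⟨s.2, hs⟩
    rw [h1, Subgroup.mem_bot] at this
    have hs1 : s = 1 := Subtype.ext this
    simp [g, hs1]
  have hg2 : g.range ⊔ mult Q = (univProj Q).ker := by
    refine le_antisymm (sup_le ?_ inf_le_left) (h2 ▸ sup_le (fun s hs => ?_) le_sup_right)
    · rintro _ ⟨s, rfl⟩
      exact (univProj Q).ker.mul_mem (hSK s.2) (Subgroup.mem_inf.1 (f s).2).1
    · have hgs : g ⟨s, hs⟩ ∈ g.range := ⟨_, rfl⟩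
      simpa [g] using Subgroup.mul_mem_sup hgs ((mult Q).inv_mem (f ⟨s, hs⟩).2)
  have := normal_of_le_ker (le_sup_left.trans hg2.le : g.range ≤ _)
  obtain ⟨τ₁, hτ₁c, hτ₁, he₁, hfin₁⟩ := cover_of_complement S h1 h2
  obtain ⟨τ₂, hτ₂c, hτ₂, he₂, hfin₂⟩ := cover_of_complement g.range hg1 hg2
  obtain ⟨e, he⟩ := H _ _ τ₁ τ₂ hτ₁ hτ₂ he₁ he₂
  let q₂ := QuotientGroup.mk' g.range
  let ψ := e.toMonoidHom.comp (QuotientGroup.mk' S)
  have hψ : τ₂.comp ψ = univProj Q := by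
    simp only [ψ, ← MonoidHom.comp_assoc, he, hτ₁c]
  have hdmem : ∀ x, (q₂ x)⁻¹ * ψ x ∈ τ₂.ker := fun x => by
    rw [MonoidHom.mem_ker, map_mul, map_inv, ← MonoidHom.comp_apply, hτ₂c, ← MonoidHom.comp_apply τ₂ ψ,
      hψ, inv_mul_cancel]
  let D : Univ Q →* τ₂.ker := MonoidHom.mk' (fun x => ⟨(q₂ x)⁻¹ * ψ x, hdmem x⟩) (fun a c => by
    apply Subtype.ext
    show (q₂ (a * c))⁻¹ * ψ (a * c) = (q₂ a)⁻¹ * ψ a * ((q₂ c)⁻¹ * ψ c)
    have := Subgroup.mem_center_iff.1 (hτ₂.2.1 (hdmem a))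
    rw [map_mul, map_mul, mul_inv_rev]
    calc (q₂ c)⁻¹ * (q₂ a)⁻¹ * (ψ a * ψ c) = (q₂ c)⁻¹ * ((q₂ a)⁻¹ * ψ a) * ψ c := by group
      _ = ((q₂ a)⁻¹ * ψ a) * (q₂ c)⁻¹ * ψ c := by rw [this (q₂ c)⁻¹]
      _ = _ := by group)
  have hm₂ : ∀ x : Mult Q, q₂ x ∈ τ₂.ker := fun x => by
    rw [MonoidHom.mem_ker, ← MonoidHom.comp_apply, hτ₂c]; exact (Subgroup.mem_inf.1 x.2).1
  let i₂ : Mult Q →* τ₂.ker := (q₂.comp (mult Q).subtype).codRestrict τ₂.ker hm₂
  have hi₂ : Function.Bijective i₂ := by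
    refine ⟨?_, fun z => ?_⟩
    · rw [← MonoidHom.ker_eq_bot_iff, Subgroup.eq_bot_iff_forall]
      intro x hx
      have : (x : Univ Q) ∈ g.range ⊓ mult Q :=
        Subgroup.mem_inf.2 ⟨(QuotientGroup.eq_one_iff _).1 (congrArg Subtype.val hx), x.2⟩
      rw [hg1, Subgroup.mem_bot] at this
      exact Subtype.ext this
    · obtain ⟨x, hx, hxz⟩ : (z : Univ Q ⧸ g.range) ∈ (mult Q).map q₂ :=
        (lift_mult_stem hτ₂ hτ₂c).symm ▸ z.2
      exact ⟨⟨x, hx⟩, Subtype.ext hxz⟩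
  let G0 : Univ Q →* Mult Q := (MulEquiv.ofBijective i₂ hi₂).symm.toMonoidHom.comp D
  have hG0 : ∀ s : S, G0 s = f s := fun s => by
    apply hi₂.1
    show MulEquiv.ofBijective i₂ hi₂ ((MulEquiv.ofBijective i₂ hi₂).symm (D s)) = i₂ (f s)
    rw [MulEquiv.apply_symm_apply]
    apply Subtype.ext
    show (q₂ (s : Univ Q))⁻¹ * e ((s : Univ Q) : Univ Q ⧸ S) = q₂ (f s : Univ Q)
    rw [(QuotientGroup.eq_one_iff _).2 s.2, map_one, mul_one, inv_eq_iff_mul_eq_one, ← map_mul]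
    exact (QuotientGroup.eq_one_iff _).2 ⟨s, rfl⟩
  refine hw (fun q => (ρ (G0 ((FreeGroup.of q : FreeGroup Q) : Univ Q))).toAdd) ?_
  funext i
  obtain ⟨s, hs, hsb⟩ := (b i).2
  have key : (AddMonoidHom.toMultiplicative (Finsupp.linearCombination ℤ
      fun q => (ρ (G0 ((FreeGroup.of q : FreeGroup Q) : Univ Q))).toAdd).toAddMonoidHom).comp (coordHom Q) =
      ρ.comp G0 := by
    refine QuotientGroup.monoidHom_ext _ (FreeGroup.ext_hom _ _ fun q => ?_)
    show Multiplicative.ofAdd (Finsupp.linearCombination ℤ _ (FreeGroup.lift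
      (fun q => Multiplicative.ofAdd (Finsupp.single q (1 : ℤ))) (FreeGroup.of q)).toAdd) = _
    simp
  have hkey := congrArg Multiplicative.toAdd (DFunLike.congr_fun key s)
  rw [MonoidHom.comp_apply, MonoidHom.comp_apply, hG0 ⟨s, hs⟩] at hkey
  have hb' : (coordHom Q s).toAdd = (b i : Q →₀ ℤ) := congrArg Multiplicative.toAdd hsb
  simp only [R]
  rw [← hb']
  refine hkey.trans ?_
  show (ρ (Additive.toMul (fL ⟨(coordHom Q s).toAdd, _⟩))).toAdd = w i
  rw [show (⟨(coordHom Q s).toAdd, hmemL ⟨s, hs⟩⟩ : L) = b i from Subtype.ext hb']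
  simp [fL, hm]

end Cfsg.Agent.FGS2
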